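import Mathlib

/-!
# Collineation actions on finite projective planes

Elementary facts: joins and meets, a collineation with an axis has a centre, and a collineation
fixes as many points as lines.
-/

set_option autoImplicit false
set_option linter.style.haveILetI false
set_option linter.unusedSectionVars false

namespace CfsgLib.MetacyclicP.OstromWagner

open Configuration
open scoped Classical

variable {P L : Type*} [Membership P L] [Configuration.ProjectivePlane P L]

theorem eq_line {p q : P} (h : p ≠ q) {l m : L} (h1 : p ∈ l) (h2 : q ∈ l) (h3 : p ∈ m)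
    (h4 : q ∈ m) : l = m :=
  (Nondegenerate.eq_or_eq h1 h2 h3 h4).resolve_left h

theorem eq_point {l m : L} (h : l ≠ m) {p q : P} (h1 : p ∈ l) (h2 : p ∈ m) (h3 : q ∈ l)
    (h4 : q ∈ m) : p = q :=
  (Nondegenerate.eq_or_eq h1 h3 h2 h4).resolve_right h

theorem exists_join {p q : P} (h : p ≠ q) : ∃ l : L, p ∈ l ∧ q ∈ l :=
  ⟨HasLines.mkLine h, HasLines.mkLine_ax h⟩

theorem exists_meet {l m : L} (h : l ≠ m) : ∃ p : P, p ∈ l ∧ p ∈ m :=
  ⟨HasPoints.mkPoint h, HasPoints.mkPoint_ax h⟩

variable [Fintype P] [Fintype L]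

theorem card_on_line (l : L) :
    Nat.card {p : P // p ∈ l} = ProjectivePlane.order P L + 1 :=
  ProjectivePlane.pointCount_eq P l

theorem card_through (p : P) :
    Nat.card {l : L // p ∈ l} = ProjectivePlane.order P L + 1 :=
  ProjectivePlane.lineCount_eq L p

/-- A line has a point different from two given points. -/
theorem exists_third (l : L) (a b : P) : ∃ p, p ∈ l ∧ p ≠ a ∧ p ≠ b := by
  by_contra hcon
  push Not at hcon
  have h1 : Nat.card {p : P // p ∈ l} ≤ 2 := by
    rw [Nat.card_eq_fintype_card, Fintype.card_subtype]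
    refine (Finset.card_le_card (t := {a, b}) fun x hx => ?_).trans Finset.card_le_two
    rw [Finset.mem_insert, Finset.mem_singleton]
    by_cases hxa : x = a
    · exact Or.inl hxa
    · exact Or.inr (hcon x (Finset.mem_filter.1 hx).2 hxa)
  rw [card_on_line] at h1
  have := ProjectivePlane.one_lt_order P L
  omega

/-- There is a point off two given lines. -/
theorem exists_off_two (l m : L) : ∃ p : P, p ∉ l ∧ p ∉ m := by
  by_cases h : l = m
  · obtain ⟨p, hp⟩ := Nondegenerate.exists_point (P := P) l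
    exact ⟨p, hp, h ▸ hp⟩
  obtain ⟨x, hxl, hxm⟩ := exists_meet (P := P) h
  obtain ⟨a, hal, hax, -⟩ := exists_third l x x
  obtain ⟨b, hbm, hbx, -⟩ := exists_third m x x
  have hab : a ≠ b := fun e => hax (eq_point h hal (e ▸ hbm) hxl hxm)
  obtain ⟨k, hak, hbk⟩ := exists_join (L := L) hab
  obtain ⟨p, hpk, hpa, hpb⟩ := exists_third k a b
  refine ⟨p, fun hpl => ?_, fun hpm => ?_⟩
  · have hkl : k = l := eq_line hpa hpk hak hpl hal
    exact hbx (eq_point h (hkl ▸ hbk) hbm hxl hxm)
  · have hkm : k = m := eq_line hpb hpk hbk hpm hbm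
    exact hax (eq_point h hal (hkm ▸ hak) hxl hxm)

theorem exists_line_off_two (p q : P) : ∃ l : L, p ∉ l ∧ q ∉ l :=
  exists_off_two (P := Configuration.Dual L) (L := Configuration.Dual P) p q

/-- Three points are not on a common line. -/
def NC (L : Type*) [Membership P L] (a b c : P) : Prop :=
  ∀ l : L, a ∈ l → b ∈ l → c ∈ l → False

/-- A set of points contains four points no three of which are collinear. -/
def Quad (L : Type*) [Membership P L] (S : Set P) : Prop :=
  ∃ a b c d : P, a ∈ S ∧ b ∈ S ∧ c ∈ S ∧ d ∈ S ∧ NC L a b c ∧ NC L a b d ∧ NC L a c d ∧ NC L b c d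

theorem NC.ne {a b c : P} (h : NC L a b c) : a ≠ b := fun e => by
  by_cases hac : a = c
  · obtain ⟨l, hl⟩ := Nondegenerate.exists_line (P := P) (L := L) a
    obtain ⟨p, hp⟩ := Nondegenerate.exists_point (P := P) l
    by_cases hpa : p = a
    · obtain ⟨q, hq, -, -⟩ := exists_third l p p
      obtain ⟨k, hk, -⟩ := exists_join (L := L) (show a ≠ q from fun e' => hl (e' ▸ hq))
      exact h k hk (e ▸ hk) (hac ▸ hk)
    · obtain ⟨k, -, hk⟩ := exists_join (L := L) hpa
      exact h k hk (e ▸ hk) (hac ▸ hk)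
  · obtain ⟨k, hk, hk'⟩ := exists_join (L := L) hac
    exact h k hk (e ▸ hk) hk'

theorem NC.ne' {a b c : P} (h : NC L a b c) : a ≠ c ∧ b ≠ c :=
  ⟨NC.ne (c := b) fun l h1 h2 h3 => h l h1 h3 h2, NC.ne (c := a) fun l h1 h2 h3 => h l h3 h1 h2⟩

/-- An action by collineations. -/
class IncAct (G P L : Type*) [Membership P L] [Group G] [MulAction G P] [MulAction G L] : Prop where
  smul_mem_smul : ∀ (g : G) (p : P) (l : L), g • p ∈ g • l ↔ p ∈ l

variable {G : Type*} [Group G] [MulAction G P] [MulAction G L] [IncAct G P L]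

instance : MulAction G (Configuration.Dual P) := inferInstanceAs (MulAction G P)

set_option synthInstance.checkSynthOrder false in
instance : IncAct G (Configuration.Dual L) (Configuration.Dual P) :=
  ⟨fun g l p => @IncAct.smul_mem_smul G P L _ _ _ _ _ g p l⟩

theorem mem_smul_of_mem (g : G) {p : P} {l : L} (h : p ∈ l) : g • p ∈ g • l :=
  (IncAct.smul_mem_smul g p l).2 h

theorem smul_mem_iff (g : G) {p : P} {l : L} : g • p ∈ l ↔ p ∈ g⁻¹ • l := by
  rw [← IncAct.smul_mem_smul g p, smul_inv_smul]

/-- Two fixed points fix their line. -/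
theorem line_fixed {g : G} {p q : P} (h : p ≠ q) (hp : g • p = p) (hq : g • q = q) {l : L}
    (h1 : p ∈ l) (h2 : q ∈ l) : g • l = l :=
  eq_line h (hp ▸ mem_smul_of_mem g h1) (hq ▸ mem_smul_of_mem g h2) h1 h2

/-- Two fixed lines fix their point. -/
theorem point_fixed {g : G} {l m : L} (h : l ≠ m) (hl : g • l = l) (hm : g • m = m) {p : P}
    (h1 : p ∈ l) (h2 : p ∈ m) : g • p = p :=
  eq_point h (hl ▸ mem_smul_of_mem g h1) (hm ▸ mem_smul_of_mem g h2) h1 h2

/-- All points are fixed. -/
def Triv (P : Type*) [MulAction G P] (g : G) : Prop := ∀ p : P, g • p = p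

/-- The points of `a` are fixed. -/
def IsAxis (P : Type*) [Membership P L] [MulAction G P] (g : G) (a : L) : Prop :=
  ∀ p : P, p ∈ a → g • p = p

/-- The lines through `c` are fixed. -/
def IsCentre (L : Type*) [Membership P L] [MulAction G L] (g : G) (c : P) : Prop :=
  ∀ l : L, c ∈ l → g • l = l

theorem Triv.line {g : G} (h : Triv P g) (l : L) : g • l = l := by
  obtain ⟨a, hal, -, -⟩ := exists_third l (Classical.choose (Nondegenerate.exists_point (P := P) l))
    (Classical.choose (Nondegenerate.exists_point (P := P) l))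
  obtain ⟨b, hbl, hba, -⟩ := exists_third l a a
  exact line_fixed hba (h b) (h a) hbl hal

theorem triv_of_lines {g : G} (h : ∀ l : L, g • l = l) : Triv P g :=
  Triv.line (P := Configuration.Dual L) (L := Configuration.Dual P) (G := G) h

theorem smul_off_axis {g : G} {a : L} (h : IsAxis P g a) {p : P} (hp : p ∉ a) : g • p ∉ a :=
  fun hm => hp (by rw [← MulAction.injective g (h _ hm)]; exact hm)

theorem axis_fixed {g : G} {a : L} (h : IsAxis P g a) : g • a = a := by
  obtain ⟨p, hp, -, -⟩ := exists_third a (Classical.choose (Nondegenerate.exists_point (P := P) a))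
    (Classical.choose (Nondegenerate.exists_point (P := P) a))
  obtain ⟨q, hq, hqp, -⟩ := exists_third a p p
  exact line_fixed hqp (h q hq) (h p hp) hq hp

/-- A fixed point off the axis is a centre. -/
theorem centre_of_fixed {g : G} {a : L} (h : IsAxis P g a) {p : P} (hp : g • p = p) (hpa : p ∉ a) :
    IsCentre L g p := by
  intro l hl
  by_cases hla : l = a
  · exact absurd (hla ▸ hl) hpa
  obtain ⟨x, hxl, hxa⟩ := exists_meet (P := P) hla
  exact line_fixed (fun e : p = x => hpa (e ▸ hxa)) hp (h x hxa) hl hxl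

/-- A collineation with an axis and two fixed points off it is trivial. -/
theorem triv_of_axis {g : G} {a : L} (h : IsAxis P g a) {p q : P} (hpq : p ≠ q) (hp : g • p = p)
    (hq : g • q = q) (hpa : p ∉ a) (hqa : q ∉ a) : Triv P g := by
  obtain ⟨k, hpk, hqk⟩ := exists_join (L := L) hpq
  have hoff : ∀ r : P, r ∉ k → g • r = r := by
    intro r hr
    have hrp : r ≠ p := fun e => hr (e ▸ hpk)
    have hrq : r ≠ q := fun e => hr (e ▸ hqk)
    obtain ⟨l1, h11, h12⟩ := exists_join (L := L) hrp
    obtain ⟨l2, h21, h22⟩ := exists_join (L := L) hrq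
    have h12' : l1 ≠ l2 := fun e => hr ((eq_line hpq h12 (e ▸ h22) hpk hqk) ▸ h11)
    exact point_fixed h12' (centre_of_fixed h hp hpa l1 h12) (centre_of_fixed h hq hqa l2 h22) h11 h21
  intro r
  by_cases hr : r ∈ k
  · obtain ⟨s, hsk, hsa⟩ := exists_off_two (P := P) k a
    have hrs : r ≠ s := fun e => hsk (e ▸ hr)
    obtain ⟨l, hrl, hsl⟩ := exists_join (L := L) hrs
    have hlk : l ≠ k := fun e => hsk (e ▸ hsl)
    exact point_fixed hlk (centre_of_fixed h (hoff s hsk) hsa l hsl) (line_fixed hpq hp hq hpk hqk) hrl hr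
  · exact hoff r hr

/-- A collineation with an axis has a centre, the only possible fixed point off the axis. -/
theorem exists_centre {g : G} {a : L} (h : IsAxis P g a) :
    ∃ c : P, IsCentre L g c ∧ (¬ Triv P g → ∀ p, g • p = p → p ∈ a ∨ p = c) := by
  by_cases hfix : ∃ p, g • p = p ∧ p ∉ a
  · obtain ⟨c, hc, hca⟩ := hfix
    refine ⟨c, centre_of_fixed h hc hca, fun hnt p hp => ?_⟩
    by_contra hcon
    push Not at hcon
    exact hnt (triv_of_axis h hcon.2 hp hc hcon.1 hca)
  push Not at hfix
  -- every point off the axis is on a fixed line other than the axis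
  have hline : ∀ p, p ∉ a → ∃ m : L, p ∈ m ∧ m ≠ a ∧ g • m = m := by
    intro p hp
    have hmov : p ≠ g • p := fun e => hp (hfix p e.symm)
    obtain ⟨m, hpm, hgpm⟩ := exists_join (L := L) hmov
    have hma : m ≠ a := fun e => hp (e ▸ hpm)
    obtain ⟨x, hxm, hxa⟩ := exists_meet (P := P) hma
    refine ⟨m, hpm, hma, eq_line (fun e : x = g • p => smul_off_axis h hp (e ▸ hxa)) ?_ ?_ hxm hgpm⟩
    · have := mem_smul_of_mem g hxm
      rwa [h x hxa] at this
    · exact mem_smul_of_mem g hpm
  obtain ⟨p₀, hp₀⟩ := Nondegenerate.exists_point (P := P) a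
  obtain ⟨m₀, hp₀m, hm₀a, hm₀⟩ := hline p₀ hp₀
  obtain ⟨c, hcm, hca⟩ := exists_meet (P := P) hm₀a
  refine ⟨c, fun l hl => ?_, fun _ p hp => Or.inl (hfix p hp)⟩
  by_cases hla : l = a
  · exact hla ▸ axis_fixed h
  obtain ⟨q, hql, hqc, -⟩ := exists_third l c c
  have hqa : q ∉ a := fun hm => hqc (eq_point hla hql hm hl hca)
  obtain ⟨m, hqm, hma, hm⟩ := hline q hqa
  by_cases hmm : m = m₀
  · rw [eq_line hqc hql hl (hmm ▸ hqm) hcm]
    exact hm₀
  · obtain ⟨y, hym, hym₀⟩ := exists_meet (P := P) hmm
    have hya : y ∈ a := hfix y (point_fixed hmm hm hm₀ hym hym₀)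
    have hyc : y = c := eq_point hm₀a hym₀ hya hcm hca
    rw [eq_line hqc hql hl hqm (hyc ▸ hym)]
    exact hm

/-- Dual of `exists_centre`. -/
theorem exists_axis {g : G} {c : P} (h : IsCentre L g c) :
    ∃ a : L, IsAxis P g a ∧ (¬ Triv P g → ∀ l : L, g • l = l → c ∈ l ∨ l = a) := by
  let c' : Configuration.Dual P := c
  obtain ⟨a, ha, hu⟩ := exists_centre (P := Configuration.Dual L) (L := Configuration.Dual P)
    (G := G) (g := g) (a := c') h
  let a' : L := a
  refine ⟨a', ha, fun hnt l hl => ?_⟩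
  let l' : Configuration.Dual L := l
  exact hu (fun ht => hnt (triv_of_lines (P := P) (L := L) ht)) l' hl

theorem sum_split {α : Type*} [Fintype α] (n : ℕ) (q : α → Prop) [DecidablePred q] :
    (∑ x : α, if q x then n + 1 else 1) = n * Nat.card {x : α // q x} + Fintype.card α := by
  have hs : ∀ x : α, (if q x then n + 1 else 1) = (if q x then n else 0) + 1 := fun x => by
    split_ifs <;> rfl
  rw [Finset.sum_congr rfl fun x _ => hs x, Finset.sum_add_distrib, ← Finset.sum_filter,
    Finset.sum_const, Finset.sum_const, smul_eq_mul, smul_eq_mul, mul_one, Finset.card_univ,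
    Nat.card_eq_fintype_card, Fintype.card_subtype, mul_comm n]

/-- A collineation fixes as many points as lines. -/
theorem card_fixed_eq (g : G) :
    Nat.card {p : P // g • p = p} = Nat.card {l : L // g • l = l} := by
  set n := ProjectivePlane.order P L with hn
  have hn1 : 1 < n := ProjectivePlane.one_lt_order P L
  -- the incident pairs `(p, l)` with the image of `p` on `l`
  have hP : ∀ p : P, (Finset.univ.filter fun l : L => p ∈ l ∧ g • p ∈ l).card =
      if g • p = p then n + 1 else 1 := by
    intro p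
    split_ifs with hp
    · rw [← card_through (L := L) p, Nat.card_eq_fintype_card, Fintype.card_subtype]
      refine congrArg Finset.card (Finset.filter_congr fun l _ => ?_)
      rw [hp, and_self]
    · obtain ⟨l, h1, h2⟩ := exists_join (L := L) (Ne.symm hp)
      rw [Finset.card_eq_one]
      refine ⟨l, Finset.eq_singleton_iff_unique_mem.2 ⟨Finset.mem_filter.2 ⟨Finset.mem_univ _, h1, h2⟩,
        fun m hm => ?_⟩⟩
      obtain ⟨-, h3, h4⟩ := Finset.mem_filter.1 hm
      exact eq_line (Ne.symm hp) h3 h4 h1 h2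
  have hL : ∀ l : L, (Finset.univ.filter fun p : P => p ∈ l ∧ g • p ∈ l).card =
      if g • l = l then n + 1 else 1 := by
    intro l
    split_ifs with hl
    · rw [← card_on_line (P := P) l, Nat.card_eq_fintype_card, Fintype.card_subtype]
      refine congrArg Finset.card (Finset.filter_congr fun p _ => ?_)
      exact ⟨fun h => h.1, fun h => ⟨h, hl ▸ mem_smul_of_mem g h⟩⟩
    · have hne : l ≠ g⁻¹ • l := fun e => hl (by nth_rewrite 1 [e]; rw [smul_inv_smul])
      obtain ⟨p, h1, h2⟩ := exists_meet (P := P) hne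
      rw [Finset.card_eq_one]
      refine ⟨p, Finset.eq_singleton_iff_unique_mem.2 ⟨Finset.mem_filter.2 ⟨Finset.mem_univ _, h1,
        (smul_mem_iff g).2 h2⟩, fun q hq => ?_⟩⟩
      obtain ⟨-, h3, h4⟩ := Finset.mem_filter.1 hq
      exact eq_point hne h3 ((smul_mem_iff g).1 h4) h1 h2
  have key : ∑ p : P, (if g • p = p then n + 1 else 1) = ∑ l : L, (if g • l = l then n + 1 else 1) := by
    simp only [← hP, ← hL, Finset.card_filter]
    exact Finset.sum_comm
  rw [sum_split, sum_split, ProjectivePlane.card_points_eq_card_lines P L] at key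
  exact Nat.eq_of_mul_eq_mul_left (by omega) (Nat.add_right_cancel key)

end CfsgLib.MetacyclicP.OstromWagner
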