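import Mathlib

/-!
# Finite semifields with the inverse properties

A finite non-associative ring in which every nonzero element has the left and the right inverse
property is a commutative associative ring (Artin–Zorn).
-/

set_option autoImplicit false
set_option linter.style.haveILetI false
set_option linter.unusedSectionVars false

namespace CfsgLib.MetacyclicP.OstromWagner

open scoped Classical

/-- Hua's identity for an inverse closed additive subgroup. -/
theorem hua_mem {R : Type*} [Ring R] (S : AddSubgroup R)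
    (hinv : ∀ s ∈ S, s ≠ 0 → ∃ t ∈ S, t * s = 1 ∧ s * t = 1) {a b : R} (ha : a ∈ S) (hb : b ∈ S) :
    a * b * a ∈ S := by
  by_cases ha0 : a = 0
  · rw [ha0, mul_zero]; exact S.zero_mem
  by_cases hb0 : b = 0
  · rw [hb0, mul_zero, zero_mul]; exact S.zero_mem
  obtain ⟨a', ha', hal, har⟩ := hinv a ha ha0
  obtain ⟨b', hb', hbl, hbr⟩ := hinv b hb hb0
  by_cases hc : b' - a = 0
  · rw [← sub_eq_zero.1 hc] at ha ⊢
    rwa [hbl, one_mul]
  obtain ⟨c', hc', hcl, hcr⟩ := hinv _ (S.sub_mem hb' ha) hc
  have hkey : (a' + c') * (a - a * b * a) = 1 := by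
    have h1 : a' * (a - a * b * a) = 1 - b * a := by
      rw [mul_sub, hal, mul_assoc a, ← mul_assoc a', hal, one_mul]
    have h2 : a - a * b * a = (b' - a) * (b * a) := by
      rw [sub_mul, ← mul_assoc, hbl, one_mul, ← mul_assoc]
    have h3 : c' * (a - a * b * a) = b * a := by rw [h2, ← mul_assoc, hcl, one_mul]
    rw [add_mul, h1, h3, sub_add_cancel]
  by_cases hd : a' + c' = 0
  · rw [hd, zero_mul] at hkey
    haveI := subsingleton_of_zero_eq_one hkey
    rw [Subsingleton.elim (a * b * a) 0]; exact S.zero_mem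
  obtain ⟨d', hd', hdl, hdr⟩ := hinv _ (S.add_mem ha' hc') hd
  have h4 : a - a * b * a = d' := by
    rw [← one_mul (a - a * b * a), ← hdl, mul_assoc, hkey, mul_one]
  have h5 : a * b * a = a - d' := by rw [← h4, sub_sub_cancel]
  rw [h5]
  exact S.sub_mem ha hd'

variable {V : Type*} [NonAssocRing V]

/-- Left multiplication. -/
def lm (a : V) : AddMonoid.End V := AddMonoidHom.mulLeft a

theorem lm_apply (a x : V) : lm a x = a * x := rfl

theorem lm_add (a b : V) : lm (a + b) = lm a + lm b := AddMonoidHom.ext fun x => add_mul a b x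

theorem lm_sub (a b : V) : lm (a - b) = lm a - lm b := AddMonoidHom.ext fun x => sub_mul a b x

theorem lm_zero : lm (0 : V) = 0 := AddMonoidHom.ext fun x => zero_mul x

theorem lm_one : lm (1 : V) = 1 := AddMonoidHom.ext fun x => one_mul x

/-- The left multiplications. -/
def LS (V : Type*) [NonAssocRing V] : AddSubgroup (AddMonoid.End V) where
  carrier := Set.range lm
  zero_mem' := ⟨0, lm_zero⟩
  add_mem' := fun ⟨a, ha⟩ ⟨b, hb⟩ => ⟨a + b, by rw [lm_add, ha, hb]⟩
  neg_mem' := fun ⟨a, ha⟩ => ⟨0 - a, by rw [lm_sub, lm_zero, zero_sub, ha]⟩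

theorem End_mul_comm_one [Finite V] {f g : AddMonoid.End V} (h : f * g = 1) : g * f = 1 := by
  have hinj : Function.Injective g := Function.LeftInverse.injective (g := f) fun x => DFunLike.congr_fun h x
  refine AddMonoidHom.ext fun x => ?_
  obtain ⟨y, rfl⟩ := Finite.injective_iff_surjective.1 hinj x
  exact congrArg g (DFunLike.congr_fun h y)

section Alternative

variable [Finite V]
  (hL : ∀ a : V, a ≠ 0 → ∃ a' : V, ∀ x, a' * (a * x) = x)
  (hR : ∀ a : V, a ≠ 0 → ∃ a' : V, ∀ x, (x * a) * a' = x)

include hL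

theorem eq_zero_of_mul {a x : V} (ha : a ≠ 0) (h : a * x = 0) : x = 0 := by
  obtain ⟨a', ha'⟩ := hL a ha
  rw [← ha' x, h, mul_zero]

theorem mul_left_cancel' {a x y : V} (ha : a ≠ 0) (h : a * x = a * y) : x = y :=
  sub_eq_zero.1 (eq_zero_of_mul hL ha (by rw [mul_sub, h, sub_self]))

theorem mul_right_cancel' {a x y : V} (ha : a ≠ 0) (h : x * a = y * a) : x = y := by
  by_contra hne
  exact ha (eq_zero_of_mul hL (sub_ne_zero.2 hne) (by rw [sub_mul, h, sub_self]))

theorem lm_mul_lm_mul_lm (a b : V) : lm a * lm b * lm a = lm (a * (b * a)) := by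
  have hinv : ∀ s ∈ LS V, s ≠ 0 → ∃ t ∈ LS V, t * s = 1 ∧ s * t = 1 := by
    rintro _ ⟨c, rfl⟩ hne
    obtain ⟨c', hc'⟩ := hL c fun e => hne (by rw [e, lm_zero])
    have h1 : lm c' * lm c = 1 := AddMonoidHom.ext hc'
    exact ⟨lm c', ⟨c', rfl⟩, h1, End_mul_comm_one h1⟩
  obtain ⟨c, hc⟩ := hua_mem (LS V) hinv ⟨a, rfl⟩ ⟨b, rfl⟩
  have h := DFunLike.congr_fun hc 1
  rw [← hc]
  congr 1
  have h2 : c = a * (b * (a * 1)) := by
    have : lm c 1 = a * (b * (a * 1)) := h
    rwa [lm_apply, mul_one] at this
  rw [h2, mul_one]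

theorem moufang_left (a b x : V) : a * (b * (a * x)) = (a * (b * a)) * x :=
  DFunLike.congr_fun (lm_mul_lm_mul_lm hL a b) x

theorem left_alt (a x : V) : a * (a * x) = (a * a) * x := by
  have := moufang_left hL a 1 x
  rwa [one_mul, one_mul] at this

theorem assoc_swap₁₂ (a b c : V) : associator a b c = - associator b a c := by
  simp only [associator_apply]
  have h := left_alt hL (a + b) c
  simp only [add_mul, mul_add, left_alt hL a c, left_alt hL b c] at h
  rw [eq_neg_iff_add_eq_zero]
  rw [← sub_eq_zero] at h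
  rw [← neg_eq_zero, ← h]
  abel

/-- Powers of `a`, bracketed to the left. -/
def pw (a : V) (i : ℕ) : V := (lm a ^ i) 1

omit hL in
theorem pw_zero (a : V) : pw a 0 = 1 := rfl

omit hL in
theorem pw_succ (a : V) (i : ℕ) : pw a (i + 1) = a * pw a i := by
  rw [pw, pow_succ']; rfl

omit hL in
theorem pw_one (a : V) : pw a 1 = a := by rw [pw_succ, pw_zero, mul_one]

theorem lm_pw (a : V) : ∀ i, lm (pw a i) = lm a ^ i
  | 0 => by rw [pw_zero, lm_one, pow_zero]
  | 1 => by rw [pw_one, pow_one]
  | i + 2 => by
    have h : lm a ^ (i + 2) = lm (a * (pw a i * a)) := by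
      rw [← lm_mul_lm_mul_lm hL, lm_pw a i, ← pow_succ', ← pow_succ]
    have h1 : pw a (i + 2) = a * (pw a i * a) := by
      show (lm a ^ (i + 2)) 1 = _
      rw [h, lm_apply, mul_one]
    rw [h, h1]

theorem pw_mul (a : V) (i j : ℕ) (x : V) : pw a i * (pw a j * x) = pw a (i + j) * x := by
  show (lm (pw a i) * lm (pw a j)) x = lm (pw a (i + j)) x
  rw [lm_pw hL, lm_pw hL, lm_pw hL, pow_add]

theorem pw_mul_pw (a : V) (i j : ℕ) : pw a i * pw a j = pw a (i + j) := by
  have := pw_mul hL a i j 1
  rwa [mul_one, mul_one] at this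

theorem assoc_pw (a : V) (i j : ℕ) (x : V) : associator (pw a i) (pw a j) x = 0 := by
  rw [associator_apply, pw_mul_pw hL, pw_mul hL, sub_self]

include hR

theorem right_alt (a x : V) : (x * a) * a = x * (a * a) := by
  let rm : V → AddMonoid.End V := fun c => AddMonoidHom.mulRight c
  have hrm : ∀ c, ∀ y, rm c y = y * c := fun _ _ => rfl
  let S : AddSubgroup (AddMonoid.End V) :=
    { carrier := Set.range rm
      zero_mem' := ⟨0, AddMonoidHom.ext fun y => mul_zero y⟩
      add_mem' := by
        rintro _ _ ⟨c, rfl⟩ ⟨d, rfl⟩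
        exact ⟨c + d, AddMonoidHom.ext fun y => mul_add y c d⟩
      neg_mem' := by
        rintro _ ⟨c, rfl⟩
        exact ⟨-c, AddMonoidHom.ext fun y => mul_neg y c⟩ }
  have hinv : ∀ s ∈ S, s ≠ 0 → ∃ t ∈ S, t * s = 1 ∧ s * t = 1 := by
    rintro _ ⟨c, rfl⟩ hne
    obtain ⟨c', hc'⟩ := hR c fun e => hne (AddMonoidHom.ext fun y => by
      show y * c = 0
      rw [e, mul_zero])
    have h1 : rm c' * rm c = 1 := AddMonoidHom.ext hc'
    exact ⟨rm c', ⟨c', rfl⟩, h1, End_mul_comm_one h1⟩
  obtain ⟨c, hc⟩ := hua_mem S hinv (a := rm a) (b := rm 1) ⟨a, rfl⟩ ⟨1, rfl⟩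
  have hy : ∀ y, y * c = ((y * a) * 1) * a := fun y => DFunLike.congr_fun hc y
  have h1 := hy 1
  rw [one_mul, one_mul, mul_one] at h1
  have h2 := hy x
  rw [mul_one, h1] at h2
  exact h2.symm

theorem assoc_swap₂₃ (a b c : V) : associator a b c = - associator a c b := by
  simp only [associator_apply]
  have h := right_alt hL hR (b + c) a
  simp only [add_mul, mul_add, right_alt hL hR b a, right_alt hL hR c a] at h
  rw [eq_neg_iff_add_eq_zero]
  rw [← sub_eq_zero] at h
  rw [← h]
  abel

theorem assoc_zero {a b c : V} (h : associator a b c = 0) :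
    associator b a c = 0 ∧ associator a c b = 0 ∧ associator b c a = 0 ∧ associator c a b = 0 ∧
      associator c b a = 0 := by
  have h1 : associator b a c = 0 := by rw [assoc_swap₁₂ hL b a c, h, neg_zero]
  have h2 : associator a c b = 0 := by rw [assoc_swap₂₃ hL hR a c b, h, neg_zero]
  have h3 : associator b c a = 0 := by rw [assoc_swap₂₃ hL hR b c a, h1, neg_zero]
  have h4 : associator c a b = 0 := by rw [assoc_swap₁₂ hL c a b, h2, neg_zero]
  exact ⟨h1, h2, h3, h4, by rw [assoc_swap₁₂ hL c b a, h3, neg_zero]⟩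

end Alternative

/-- A subring that is a commutative associative ring. -/
def Good (K : Subring V) : Prop :=
  (∀ a ∈ K, ∀ b ∈ K, a * b = b * a) ∧ ∀ a ∈ K, ∀ b ∈ K, ∀ c ∈ K, (a * b) * c = a * (b * c)

theorem exists_good [Finite V] :
    ∃ K : Subring V, Good K ∧ ∀ S : Subring V, Good S → K ≤ S → S = K := by
  obtain ⟨K, hK, hmax⟩ : ∃ K : Subring V, Good K ∧
      ∀ S : Subring V, Good S → Nat.card S ≤ Nat.card K := by
    let Z : Subring V :=
      { carrier := Set.range fun m : ℤ => (m : V)
        mul_mem' := by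
          rintro _ _ ⟨m, rfl⟩ ⟨k, rfl⟩
          exact ⟨m * k, Int.cast_mul m k⟩
        one_mem' := ⟨1, Int.cast_one⟩
        add_mem' := by
          rintro _ _ ⟨m, rfl⟩ ⟨k, rfl⟩
          exact ⟨m + k, Int.cast_add m k⟩
        zero_mem' := ⟨0, Int.cast_zero⟩
        neg_mem' := by
          rintro _ ⟨m, rfl⟩
          exact ⟨-m, Int.cast_neg m⟩ }
    haveI : Finite (Subring V) := Finite.of_injective (fun S => (S : Set V)) SetLike.coe_injective
    have hZ : Good Z := by
      constructor
      · rintro _ ⟨m, rfl⟩ _ ⟨k, rfl⟩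
        simp only [← Int.cast_mul, mul_comm]
      · rintro _ ⟨m, rfl⟩ _ ⟨k, rfl⟩ _ ⟨j, rfl⟩
        simp only [← Int.cast_mul, mul_assoc]
    obtain ⟨K, hK, hmax⟩ := Set.exists_max_image {S : Subring V | Good S} (fun S => Nat.card S)
      (Set.toFinite _) ⟨Z, hZ⟩
    exact ⟨K, hK, hmax⟩
  refine ⟨K, hK, fun S hS hle => SetLike.coe_injective ?_⟩
  exact (Set.eq_of_subset_of_ncard_le (SetLike.coe_subset_coe.2 hle)
    (hmax S hS) (Set.toFinite _)).symm

section Core

variable [Finite V] [Nontrivial V]
  (hL : ∀ a : V, a ≠ 0 → ∃ a' : V, ∀ x, a' * (a * x) = x)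
  (hR : ∀ a : V, a ≠ 0 → ∃ a' : V, ∀ x, (x * a) * a' = x)

include hL hR

/-- Artin–Zorn. -/
theorem comm_assoc :
    (∀ a b : V, a * b = b * a) ∧ ∀ a b c : V, (a * b) * c = a * (b * c) := by
  obtain ⟨K, ⟨hKc, hKa⟩, hmax⟩ := exists_good (V := V)
  suffices hall : ∀ x : V, x ∈ K by
    exact ⟨fun a b => hKc a (hall a) b (hall b), fun a b c => hKa a (hall a) b (hall b) c (hall c)⟩
  -- `K` is a field
  letI : CommRing K :=
    { (inferInstance : NonAssocRing K) with
      mul_assoc := fun a b c => Subtype.ext (hKa a a.2 b b.2 c c.2)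
      mul_comm := fun a b => Subtype.ext (hKc a a.2 b b.2) }
  haveI : NoZeroDivisors K := ⟨fun {a b} h => by
    by_cases ha : (a : V) = 0
    · exact Or.inl (Subtype.ext ha)
    · exact Or.inr (Subtype.ext (eq_zero_of_mul hL ha (congrArg Subtype.val h)))⟩
  haveI : IsDomain K := NoZeroDivisors.to_isDomain K
  haveI : Fintype V := Fintype.ofFinite V
  letI : Field K := Fintype.fieldOfDomain K
  haveI : Fintype Kˣ := Fintype.ofFinite _
  obtain ⟨g, hg⟩ := IsCyclic.exists_generator (α := Kˣ)
  have hgp : ∀ i, pw ((g : K) : V) i = (((g : K) ^ i : K) : V) := by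
    intro i
    induction i with
    | zero => rw [pw_zero, pow_zero]; rfl
    | succ i ih => rw [pw_succ, ih, pow_succ']; rfl
  have hK2 : ∀ (r s : K) (x : V), associator (r : V) (s : V) x = 0 := by
    intro r s x
    by_cases hr : r = 0
    · simp [hr, associator_apply]
    by_cases hs : s = 0
    · simp [hs, associator_apply]
    obtain ⟨i, hi⟩ := (Submonoid.mem_powers_iff _ _).1
      ((mem_powers_iff_mem_zpowers).2 (hg (Units.mk0 r hr)))
    obtain ⟨j, hj⟩ := (Submonoid.mem_powers_iff _ _).1
      ((mem_powers_iff_mem_zpowers).2 (hg (Units.mk0 s hs)))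
    have hi' : (r : V) = pw ((g : K) : V) i := by
      rw [hgp, ← Units.val_pow_eq_pow_val, hi, Units.val_mk0]
    have hj' : (s : V) = pw ((g : K) : V) j := by
      rw [hgp, ← Units.val_pow_eq_pow_val, hj, Units.val_mk0]
    rw [hi', hj']
    exact assoc_pw hL _ i j x
  have hK3 : ∀ (r s : K) (x : V), associator (r : V) x (s : V) = 0 ∧ associator x (r : V) (s : V) = 0 :=
    fun r s x => ⟨(assoc_zero hL hR (hK2 r s x)).2.1, (assoc_zero hL hR (hK2 r s x)).2.2.2.1⟩
  -- an element commuting with `K` lies in it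
  have hext : ∀ y : V, (∀ s : K, y * s = s * y) → y ∈ K := by
    intro y hy
    have hP : ∀ (i : ℕ) (s : K), pw y i * s = s * pw y i := by
      intro i
      induction i with
      | zero => intro s; rw [pw_zero, one_mul, mul_one]
      | succ i ih =>
        intro s
        have h0 : associator (pw y 1) (pw y i) (s : V) = 0 := assoc_pw hL y 1 i s
        rw [pw_one] at h0
        obtain ⟨h1, h2, h3, h4, h5⟩ := assoc_zero hL hR h0
        rw [associator_apply, sub_eq_zero] at h0 h2 h4
        rw [pw_succ, h0, ih s, ← h2, hy s, h4]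
    have hmul : ∀ (v u : K) (i j : ℕ),
        ((v : V) * pw y i) * ((u : V) * pw y j) = ((v * u : K) : V) * pw y (i + j) := by
      intro v u i j
      let C : AddSubgroup K :=
        { carrier := {v | ((v : V) * pw y i) * ((u : V) * pw y j) = ((v * u : K) : V) * pw y (i + j)}
          zero_mem' := by simp
          add_mem' := fun {a b} (ha : _ = _) (hb : _ = _) => by
            simp only [Set.mem_ofPred_eq, Subring.coe_add, add_mul, ha, hb]
          neg_mem' := fun {a} (ha : _ = _) => by
            simp only [Set.mem_ofPred_eq, NegMemClass.coe_neg, neg_mul, ha] }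
      have hsq : ∀ w : K, w * w ∈ C := by
        intro w
        show (((w * w : K) : V) * pw y i) * ((u : V) * pw y j) = ((w * w * u : K) : V) * pw y (i + j)
        have e0 : ∀ (a b : K) (x : V), (a : V) * ((b : V) * x) = ((a * b : K) : V) * x := fun a b x => by
          have := hK2 a b x
          rw [associator_apply, sub_eq_zero] at this
          exact this.symm
        have e1 : ((w * w : K) : V) * pw y i = (w : V) * (pw y i * (w : V)) := by
          rw [hP i w, e0]
        have e2 : ∀ t : K, pw y i * ((t : V) * pw y j) = (t : V) * pw y (i + j) := fun t => by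
          obtain ⟨-, h2, -, h4, -⟩ := assoc_zero hL hR (assoc_pw hL y i j t)
          rw [associator_apply, sub_eq_zero] at h2 h4
          rw [← h2, hP i t, h4, pw_mul_pw hL]
        rw [e1, ← moufang_left hL, e0, e2, e0, mul_assoc]
      have hC : v ∈ C := by
        by_cases h2 : ringChar K = 2
        · obtain ⟨w, rfl⟩ := FiniteField.isSquare_of_char_two h2 v
          exact hsq w
        · have h2' : (2 : K) ≠ 0 := Ring.two_ne_zero h2
          have : v = ((v + 1) / 2) * ((v + 1) / 2) - ((v - 1) / 2) * ((v - 1) / 2) := by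
            field_simp
            ring
          rw [this]
          exact C.sub_mem (hsq _) (hsq _)
      exact hC
    let G0 : Set V := {x | ∃ (v : K) (i : ℕ), x = (v : V) * pw y i}
    have hG0 : ∀ a ∈ G0, ∀ b ∈ G0, a * b ∈ G0 := by
      rintro _ ⟨v, i, rfl⟩ _ ⟨u, j, rfl⟩
      exact ⟨v * u, i + j, hmul v u i j⟩
    let A := AddSubgroup.closure G0
    have hAmul : ∀ a ∈ A, ∀ b ∈ A, a * b ∈ A := by
      intro a ha b hb
      induction ha using AddSubgroup.closure_induction with
      | mem a ha =>
        induction hb using AddSubgroup.closure_induction with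
        | mem b hb => exact AddSubgroup.subset_closure (hG0 a ha b hb)
        | zero => rw [mul_zero]; exact A.zero_mem
        | add b c _ _ h1 h2 => rw [mul_add]; exact A.add_mem h1 h2
        | neg b _ h1 => rw [mul_neg]; exact A.neg_mem h1
      | zero => rw [zero_mul]; exact A.zero_mem
      | add a c _ _ h1 h2 => rw [add_mul]; exact A.add_mem h1 h2
      | neg a _ h1 => rw [neg_mul]; exact A.neg_mem h1
    have hAcomm : ∀ a ∈ A, ∀ b ∈ A, a * b = b * a := by
      intro a ha b hb
      induction ha using AddSubgroup.closure_induction with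
      | mem a ha =>
        induction hb using AddSubgroup.closure_induction with
        | mem b hb =>
          obtain ⟨v, i, rfl⟩ := ha
          obtain ⟨u, j, rfl⟩ := hb
          rw [hmul, hmul, mul_comm v u, add_comm i j]
        | zero => rw [mul_zero, zero_mul]
        | add b c _ _ h1 h2 => rw [mul_add, add_mul, h1, h2]
        | neg b _ h1 => rw [mul_neg, neg_mul, h1]
      | zero => rw [mul_zero, zero_mul]
      | add a c _ _ h1 h2 => rw [mul_add, add_mul, h1, h2]
      | neg a _ h1 => rw [mul_neg, neg_mul, h1]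
    have hAassoc : ∀ a ∈ A, ∀ b ∈ A, ∀ c ∈ A, (a * b) * c = a * (b * c) := by
      intro a ha b hb c hc
      induction ha using AddSubgroup.closure_induction with
      | mem a ha =>
        induction hb using AddSubgroup.closure_induction with
        | mem b hb =>
          induction hc using AddSubgroup.closure_induction with
          | mem c hc =>
            obtain ⟨v, i, rfl⟩ := ha
            obtain ⟨u, j, rfl⟩ := hb
            obtain ⟨t, k, rfl⟩ := hc
            rw [hmul, hmul, hmul, hmul, mul_assoc, add_assoc]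
          | zero => simp only [mul_zero]
          | add p q _ _ h1 h2 => simp only [mul_add, h1, h2]
          | neg p _ h1 => simp only [mul_neg, h1]
        | zero => simp only [mul_zero, zero_mul]
        | add p q _ _ h1 h2 => simp only [mul_add, add_mul, h1, h2]
        | neg p _ h1 => simp only [mul_neg, neg_mul, h1]
      | zero => simp only [zero_mul]
      | add p q _ _ h1 h2 => simp only [add_mul, h1, h2]
      | neg p _ h1 => simp only [neg_mul, h1]
    let S : Subring V :=
      { A with
        one_mem' := AddSubgroup.subset_closure ⟨1, 0, by rw [pw_zero, mul_one]; rfl⟩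
        mul_mem' := fun ha hb => hAmul _ ha _ hb }
    have hle : K ≤ S := fun x hx =>
      AddSubgroup.subset_closure ⟨⟨x, hx⟩, 0, by rw [pw_zero, mul_one]⟩
    rw [← hmax S ⟨hAcomm, hAassoc⟩ hle]
    exact AddSubgroup.subset_closure ⟨1, 1, by rw [pw_one]; exact (one_mul y).symm⟩
  -- an eigenvector outside `K`
  intro x
  by_contra hx
  obtain ⟨b, k, hb, hbk⟩ : ∃ (b : V) (k : ℕ), b ∉ K ∧
      ∀ u : Kˣ, b * ((u : K) : V) = (((u : K) ^ k : K) : V) * b := by
    let X : ℕ → V := fun k => ∑ u : Kˣ, (((u⁻¹ : Kˣ) : K) ^ k : K) * (x * ((u : K) : V))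
    have hX : ∀ (k : ℕ) (w : Kˣ), X k * ((w : K) : V) = (((w : K) ^ k : K) : V) * X k := by
      intro k w
      simp only [X, Finset.sum_mul, Finset.mul_sum]
      refine Fintype.sum_equiv (Equiv.mulRight w) _ _ fun u => ?_
      have h1 : ∀ (r s : K) (z : V), ((r : V) * z) * (s : V) = (r : V) * (z * (s : V)) := fun r s z => by
        have := (hK3 r s z).1
        rwa [associator_apply, sub_eq_zero] at this
      have h2 : ∀ (r s : K) (z : V), (z * (r : V)) * (s : V) = z * ((r * s : K) : V) := fun r s z => by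
        have := (hK3 r s z).2
        rwa [associator_apply, sub_eq_zero] at this
      have h3 : ∀ (r s : K) (z : V), (r : V) * ((s : V) * z) = ((r * s : K) : V) * z := fun r s z => by
        have := hK2 r s z
        rw [associator_apply, sub_eq_zero] at this
        exact this.symm
      rw [h1, h2, h3]
      congr 2
      rw [Equiv.coe_mulRight, ← mul_pow, ← Units.val_mul]
      congr 2
      group
    by_contra hcon
    push Not at hcon
    have hXK : ∀ k, X k ∈ K := fun k => by
      by_contra hk
      obtain ⟨u, hu⟩ := hcon (X k) k hk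
      exact hu (hX k u)
    set m := Fintype.card Kˣ with hm
    have hsum : ∑ k ∈ Finset.range m, X k = ((m : K) : V) * x := by
      simp only [X]
      rw [Finset.sum_comm, Finset.sum_eq_single (1 : Kˣ)]
      · simp
      · intro u _ hu
        rw [← Finset.sum_mul]
        have h0 : (∑ k ∈ Finset.range m, (((u⁻¹ : Kˣ) : K) ^ k : K)) = 0 := by
          have h1 := geom_sum_mul ((u⁻¹ : Kˣ) : K) m
          rw [← Units.val_pow_eq_pow_val, hm, pow_card_eq_one, Units.val_one, sub_self] at h1
          refine (mul_eq_zero.1 h1).resolve_right (sub_ne_zero.2 fun e => hu ?_)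
          rwa [Units.val_eq_one, inv_eq_one] at e
        rw [← AddSubmonoidClass.coe_finsetSum, h0]
        simp
      · simp
    have hm0 : (m : K) ≠ 0 := by
      rw [hm, ← Nat.card_eq_fintype_card, Nat.card_units, Nat.card_eq_fintype_card,
        Nat.cast_sub Fintype.card_pos, FiniteField.cast_card_eq_zero]
      simp
    refine hx ?_
    have h4 : x = (((m : K)⁻¹ : K) : V) * ∑ k ∈ Finset.range m, X k := by
      have h5 := hK2 (m : K)⁻¹ (m : K) x
      rw [associator_apply, sub_eq_zero, ← Subring.coe_mul, inv_mul_cancel₀ hm0, Subring.coe_one,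
        one_mul] at h5
      rwa [hsum]
    rw [h4]
    exact K.mul_mem (SetLike.coe_mem _) (sum_mem fun k _ => hXK k)
  have hb0 : b ≠ 0 := fun e => hb (e ▸ K.zero_mem)
  -- the automorphism
  let sf : K → K := fun s => if s = 0 then 0 else s ^ k
  have hsf : ∀ s : K, b * (s : V) = (sf s : V) * b := by
    intro s
    by_cases hs : s = 0
    · simp [sf, hs]
    · simp only [sf, if_neg hs]
      exact hbk (Units.mk0 s hs)
  let σ₀ : K →+* K :=
    { toFun := sf
      map_one' := by simp [sf]
      map_mul' := fun a c => by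
        by_cases ha : a = 0
        · simp [sf, ha]
        by_cases hc : c = 0
        · simp [sf, hc]
        simp [sf, ha, hc, mul_pow]
      map_zero' := by simp [sf]
      map_add' := fun a c => Subtype.ext (mul_right_cancel' hL hb0 (by
        rw [← hsf, Subring.coe_add, Subring.coe_add, mul_add, add_mul, hsf, hsf])) }
  let σ : K ≃+* K := RingEquiv.ofBijective σ₀
    (Finite.injective_iff_bijective.1 σ₀.injective)
  have hσ : ∀ s : K, b * (s : V) = ((σ s : K) : V) * b := hsf
  haveI : Finite (RingAut K) := Finite.of_injective (fun e => ⇑e) DFunLike.coe_injective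
  set o := orderOf σ with ho
  have ho0 : 0 < o := orderOf_pos σ
  have h1b : ∀ i, associator b (pw b i) = fun z => 0 := fun i => funext fun z => by
    have := assoc_pw hL b 1 i z
    rwa [pw_one] at this
  have hPs : ∀ (i : ℕ) (s : K), pw b i * (s : V) = (((σ ^ i) s : K) : V) * pw b i := by
    intro i
    induction i with
    | zero => intro s; rw [pw_zero, one_mul, mul_one, pow_zero]; rfl
    | succ i ih =>
      intro s
      have h0 : associator b (pw b i) (s : V) = 0 := congrFun (h1b i) _
      rw [associator_apply, sub_eq_zero] at h0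
      set t : K := (σ ^ i) s with ht
      have h2 := (assoc_zero hL hR (congrFun (h1b i) (t : V))).2.1
      rw [associator_apply, sub_eq_zero] at h2
      have h3 := (assoc_zero hL hR (congrFun (h1b i) ((σ t : K) : V))).2.2.2.1
      rw [associator_apply, sub_eq_zero] at h3
      rw [pw_succ, h0, ih, ← h2, hσ, h3, pow_succ']
      rfl
  have hPoK : pw b o ∈ K := hext _ fun s => by
    rw [hPs, ho, pow_orderOf_eq_one]
    rfl
  set γ : K := ⟨pw b o, hPoK⟩ with hγdef
  have hpwne : ∀ i, pw b i ≠ 0 := by
    intro i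
    induction i with
    | zero => rw [pw_zero]; exact one_ne_zero
    | succ i ih => rw [pw_succ]; exact fun e => ih (eq_zero_of_mul hL hb0 e)
  have hγfix : σ γ = γ := by
    refine Subtype.ext (mul_right_cancel' hL hb0 ?_)
    rw [← hσ]
    show b * pw b o = pw b o * b
    conv_rhs => arg 2; rw [← pw_one b]
    rw [pw_mul_pw hL, ← pw_succ]
  -- a solution of a norm equation
  let H : Subgroup (RingAut K) := Subgroup.zpowers σ
  let target : FixedPoints.subfield H K := ⟨(-1) ^ o * γ, by
    rintro ⟨τ, hτ⟩
    have hσγ : ∀ w : RingAut K, w ∈ H → w γ = γ := by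
      intro w hw
      have : H ≤ MulAction.stabilizer (RingAut K) γ := Subgroup.zpowers_le.2 hγfix
      exact this hw
    show τ ((-1) ^ o * γ) = (-1) ^ o * γ
    rw [map_mul, map_pow, map_neg, map_one, hσγ τ hτ]⟩
  haveI : Fintype H := Fintype.ofFinite _
  obtain ⟨z, hz⟩ := FiniteField.norm_surjective (FixedPoints.subfield H K) K target
  have hN : ∏ i ∈ Finset.range o, (σ ^ i) z = (-1) ^ o * γ := by
    have h1 := Algebra.norm_eq_prod_automorphisms (FixedPoints.subfield H K) z
    rw [hz] at h1
    rw [← Fintype.prod_equiv (FixedPoints.toAlgAutMulEquiv H K).toEquiv (fun h : H => (h : RingAut K) z) _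
      (fun h => rfl)] at h1
    rw [show ((-1) ^ o * γ : K) = algebraMap (FixedPoints.subfield H K) K target from rfl, h1,
      Finset.prod_range, ← Fintype.prod_equiv (finEquivZPowers (isOfFinOrder_of_finite σ))]
    intro i
    rfl
  have hz0 : z ≠ 0 := by
    intro e
    have : ∏ i ∈ Finset.range o, (σ ^ i) z = 0 := Finset.prod_eq_zero (Finset.mem_range.2 ho0) (by simp [e])
    rw [hN, mul_eq_zero] at this
    rcases this with h | h
    · exact pow_ne_zero o (neg_ne_zero.2 one_ne_zero) h
    · exact hpwne o (congrArg Subtype.val h)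
  let c : ℕ → K := fun i => Nat.rec (motive := fun _ => K) 1 (fun _ p => -(σ p) / z) i
  have hc0 : c 0 = 1 := rfl
  have hcs : ∀ i, c (i + 1) = -(σ (c i)) / z := fun _ => rfl
  have hcN : ∀ i, c i * ∏ j ∈ Finset.range i, (σ ^ j) z = (-1) ^ i := by
    intro i
    induction i with
    | zero => simp [hc0]
    | succ i ih =>
      rw [Finset.prod_range_succ', hcs]
      have h : ∏ j ∈ Finset.range i, (σ ^ (j + 1)) z = σ (∏ j ∈ Finset.range i, (σ ^ j) z) := by
        rw [map_prod]
        exact Finset.prod_congr rfl fun j _ => by rw [pow_succ']; rfl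
      rw [h, pow_zero]
      show -σ (c i) / z * (σ _ * z) = _
      calc -σ (c i) / z * (σ (∏ j ∈ Finset.range i, (σ ^ j) z) * z)
          = -σ (c i * ∏ j ∈ Finset.range i, (σ ^ j) z) := by rw [map_mul]; field_simp
        _ = _ := by rw [ih, map_pow, map_neg, map_one, pow_succ, mul_neg_one]
  have hco : c o * γ = 1 := by
    have h := hcN o
    rw [hN, ← mul_assoc, mul_comm (c o), mul_assoc] at h
    exact mul_left_cancel₀ (pow_ne_zero o (neg_ne_zero.2 one_ne_zero)) (h.trans (mul_one _).symm)
  let Y : V := ∑ i ∈ Finset.range o, (c i : V) * pw b i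
  have hzero : ((z : V) + b) * Y = 0 := by
    have hterm : ∀ i ∈ Finset.range o, ((z : V) + b) * ((c i : V) * pw b i) =
        ((z * c i : K) : V) * pw b i - ((z * c (i + 1) : K) : V) * pw b (i + 1) := by
      intro i _
      have h1 := hK2 z (c i) (pw b i)
      rw [associator_apply, sub_eq_zero] at h1
      have h2 := (assoc_zero hL hR (congrFun (h1b i) ((c i : K) : V))).2.1
      rw [associator_apply, sub_eq_zero] at h2
      have h3 := (assoc_zero hL hR (congrFun (h1b i) ((σ (c i) : K) : V))).2.2.2.1
      rw [associator_apply, sub_eq_zero] at h3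
      have h4 : z * c (i + 1) = -σ (c i) := by rw [hcs]; field_simp
      rw [add_mul, ← h1, ← h2, hσ, h3, h4, NegMemClass.coe_neg, neg_mul, sub_neg_eq_add, pw_succ]
      rfl
    rw [Finset.mul_sum, Finset.sum_congr rfl hterm,
      Finset.sum_range_sub' (fun i => ((z * c i : K) : V) * pw b i), hc0, mul_one, pw_zero, mul_one,
      show pw b o = (γ : V) from rfl, ← Subring.coe_mul, mul_assoc, hco, mul_one, sub_self]
  have hzb : (z : V) + b ≠ 0 := fun e => hb (by
    rw [show b = -(z : V) from (neg_eq_of_add_eq_zero_right e).symm]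
    exact K.neg_mem z.2)
  have hind : ∀ I : Finset ℕ, I ⊆ Finset.range o → ∀ d : ℕ → K,
      ∑ i ∈ I, (d i : V) * pw b i = 0 → ∀ i ∈ I, d i = 0 := by
    intro I
    induction I using Finset.induction_on with
    | empty => intro _ d _ i hi; exact absurd hi (Finset.notMem_empty i)
    | insert j I hj ih =>
      intro hsub d hd
      rw [Finset.sum_insert hj] at hd
      have hall : ∀ s : K, ∀ i ∈ I, d i * ((σ ^ i) s - (σ ^ j) s) = 0 := by
        intro s
        refine ih (fun i hi => hsub (Finset.mem_insert_of_mem hi)) (fun i => d i * ((σ ^ i) s - (σ ^ j) s)) ?_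
        have hmulr : ∀ i, ((d i : V) * pw b i) * (s : V) = ((d i * (σ ^ i) s : K) : V) * pw b i := by
          intro i
          have h1 := (hK3 (d i) s (pw b i)).1
          rw [associator_apply, sub_eq_zero] at h1
          have h2 := hK2 (d i) ((σ ^ i) s) (pw b i)
          rw [associator_apply, sub_eq_zero] at h2
          rw [h1, hPs, ← h2]
          rfl
        have hmull : ∀ i, (((σ ^ j) s : K) : V) * ((d i : V) * pw b i) =
            ((d i * (σ ^ j) s : K) : V) * pw b i := by
          intro i
          have h2 := hK2 ((σ ^ j) s) (d i) (pw b i)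
          rw [associator_apply, sub_eq_zero] at h2
          rw [← h2, ← Subring.coe_mul, mul_comm]
        have e1 := congrArg (fun w => w * (s : V)) hd
        have e2 := congrArg (fun w => (((σ ^ j) s : K) : V) * w) hd
        simp only [add_mul, zero_mul, Finset.sum_mul, hmulr] at e1
        simp only [mul_add, mul_zero, Finset.mul_sum, hmull] at e2
        calc ∑ i ∈ I, ((d i * ((σ ^ i) s - (σ ^ j) s) : K) : V) * pw b i
            = ∑ i ∈ I, (((d i * (σ ^ i) s : K) : V) * pw b i - ((d i * (σ ^ j) s : K) : V) * pw b i) := by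
              refine Finset.sum_congr rfl fun i _ => ?_
              rw [mul_sub, AddSubgroupClass.coe_sub, sub_mul]
          _ = (((d j * (σ ^ j) s : K) : V) * pw b j + ∑ i ∈ I, ((d i * (σ ^ i) s : K) : V) * pw b i) -
              (((d j * (σ ^ j) s : K) : V) * pw b j + ∑ i ∈ I, ((d i * (σ ^ j) s : K) : V) * pw b i) := by
              rw [Finset.sum_sub_distrib]; abel
          _ = 0 := by rw [e1, e2, sub_zero]
      have hI : ∀ i ∈ I, d i = 0 := by
        intro i hi
        obtain ⟨s, hs⟩ : ∃ s, (σ ^ i) s ≠ (σ ^ j) s := by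
          by_contra hcon
          push Not at hcon
          have h1 := pow_injOn_Iio_orderOf (x := σ)
            (Set.mem_Iio.2 (Finset.mem_range.1 (hsub (Finset.mem_insert_of_mem hi))))
            (Set.mem_Iio.2 (Finset.mem_range.1 (hsub (Finset.mem_insert_self j I))))
            (RingEquiv.ext hcon)
          exact hj (h1 ▸ hi)
        exact (mul_eq_zero.1 (hall s i hi)).resolve_right (sub_ne_zero.2 hs)
      intro i hi
      rcases Finset.mem_insert.1 hi with rfl | hi
      · rw [Finset.sum_eq_zero (fun l hl => by rw [hI l hl]; simp), add_zero] at hd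
        by_contra hne
        exact hpwne i (eq_zero_of_mul hL (fun e => hne (Subtype.ext e)) hd)
      · exact hI i hi
  have hY : Y = 0 := eq_zero_of_mul hL hzb hzero
  exact one_ne_zero (hc0 ▸ hind _ (Finset.Subset.refl _) c hY 0 (Finset.mem_range.2 ho0))

end Core

end CfsgLib.MetacyclicP.OstromWagner
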