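import Cfsg.Agent.Lib.MetacyclicP.OstromWagner.Moufang
import Cfsg.Agent.Lib.MetacyclicP.OstromWagner.Semifield

/-!
# Coordinates

A finite plane with all elations is coordinatised by a finite field.
-/

set_option autoImplicit false
set_option linter.style.haveILetI false
set_option linter.unusedSectionVars false

namespace CfsgLib.MetacyclicP.OstromWagner

universe uG

open Configuration
open scoped Classical

variable {P L : Type*} [Membership P L] [Configuration.ProjectivePlane P L] [Fintype P] [Fintype L]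
variable {G : Type uG} [Group G] [MulAction G P] [MulAction G L] [IncAct G P L]
variable [FaithfulSMul G P]

/-- A translation moves `O` along `k` if and only if it has the point of `k` at infinity as centre. -/
theorem mem_iff_centre {g : G} {l k : L} {O c : P} (hg : g ∈ El P l) (hO : O ∉ l) (hc : c ∈ l)
    (hOk : O ∈ k) (hck : c ∈ k) : g • O ∈ k ↔ IsCentre L g c := by
  refine ⟨fun h => ?_, fun h => smul_mem_of_centre h hck hOk⟩
  by_cases hfix : g • O = O
  · rw [eq_one_of_fixed_off hg hO hfix]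
    exact (Ctr L c).one_mem
  obtain ⟨-, c', hc', hgc⟩ := id hg
  suffices e : c' = c from e ▸ hgc
  obtain ⟨k', hOk', hck'⟩ := exists_join (L := L) (show O ≠ c' from fun e => hO (e ▸ hc'))
  have hk : k' = k := eq_line hfix (smul_mem_of_centre hgc hck' hOk') hOk' h hOk
  exact eq_point (fun e : k = l => hO (e ▸ hOk)) (hk ▸ hck') hc' hck hc

/-- Affine coordinates by translations. -/
structure Coords (P L G V : Type*) [Membership P L] [Configuration.ProjectivePlane P L] [Fintype P]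
    [Fintype L] [Group G] [MulAction G P] [MulAction G L] [IncAct G P L] [FaithfulSMul G P]
    [AddCommGroup V] where
  O : P
  a : P
  b : P
  d : P
  l : L
  hO : O ∉ l
  ha : a ∈ l
  hb : b ∈ l
  hd : d ∈ l
  hab : a ≠ b
  hda : d ≠ a
  hdb : d ≠ b
  τ : V × V → G
  τ_add : ∀ p q, τ (p + q) = τ p * τ q
  τ_el : ∀ p, τ p ∈ El P l
  τ_a : ∀ x, IsCentre L (τ (x, 0)) a
  τ_b : ∀ y, IsCentre L (τ (0, y)) b
  τ_d : ∀ x, IsCentre L (τ (x, x)) d
  τ_bij : ∀ q, q ∉ l → ∃! p, τ p • O = q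

section Build

variable [Finite G]
variable (h2t : ∀ p₁ p₂ q₁ q₂ : P, p₁ ≠ p₂ → q₁ ≠ q₂ → ∃ g : G, g • p₁ = q₁ ∧ g • p₂ = q₂)

include h2t

variable (L) in
theorem exists_coords :
    ∃ (V : Type uG) (_ : AddCommGroup V), Nonempty (Coords P L G V) := by
  obtain ⟨O, -⟩ := @ProjectivePlane.exists_config P L _ _
  obtain ⟨l, hO⟩ := Nondegenerate.exists_line (P := P) (L := L) O
  obtain ⟨a, ha, -⟩ := exists_third l O O
  obtain ⟨b, hb, hba, -⟩ := exists_third l a a
  obtain ⟨d, hd, hda, hdb⟩ := exists_third l a b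
  obtain ⟨A, hOA, haA⟩ := exists_join (L := L) (show O ≠ a from fun e => hO (e ▸ ha))
  obtain ⟨B, hOB, hbB⟩ := exists_join (L := L) (show O ≠ b from fun e => hO (e ▸ hb))
  obtain ⟨D, hOD, hdD⟩ := exists_join (L := L) (show O ≠ d from fun e => hO (e ▸ hd))
  let Ta : Subgroup G := El P l ⊓ Ctr L a
  letI : CommGroup Ta :=
    { (inferInstance : Group Ta) with
      mul_comm := fun x y => Subtype.ext (translations_comm h2t l _ x.2.1 _ y.2.1) }
  have hcomm := translations_comm (G := G) h2t l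
  -- moving points along a line through a point at infinity
  have hmove : ∀ {c p q : P} {k : L}, c ∈ l → c ∈ k → p ∈ k → q ∈ k → p ∉ l → q ∉ l →
      ∃ t : G, t ∈ El P l ∧ IsCentre L t c ∧ t • p = q :=
    fun hc hck hp hq hpl hql => exists_shear h2t hc hck (fun e => hpl (e ▸ hp)) hp hq
      (fun e => hpl (e ▸ hc)) fun e => hql (e ▸ hc)
  have hoff : ∀ t : G, t ∈ El P l → t • O ∉ l := fun t ht => smul_off_axis ht.1 hO
  have hsep : ∀ {c c' : P} (t : G), c ∈ l → c' ∈ l → c ≠ c' → IsCentre L t c → IsCentre L t c' → t = 1 :=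
    fun t _ _ hne h h' => eq_one_of_centres h h' hne
  -- the second coordinate
  have hθex : ∀ x : Ta, ∃ s : G, s ∈ El P l ∧ IsCentre L s b ∧ IsCentre L ((x : G) * s) d := by
    intro x
    obtain ⟨k, hxk, hbk⟩ := exists_join (L := L)
      (show (x : G) • O ≠ b from fun e => hoff _ x.2.1 (e ▸ hb))
    have hkD : k ≠ D := fun e => hdb (eq_point (fun e' : D = l => hO (e' ▸ hOD)) hdD hd (e ▸ hbk) hb)
    obtain ⟨q, hqk, hqD⟩ := exists_meet (P := P) hkD
    have hql : q ∉ l := fun hh => hkD (by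
      have hqd : q = d := eq_point (fun e' : D = l => hO (e' ▸ hOD)) hqD hh hdD hd
      have hkl : k ≠ l := fun e' => hoff _ x.2.1 (e' ▸ hxk)
      exact absurd ((eq_point hkl hqk hh hbk hb).symm.trans hqd) (Ne.symm hdb))
    obtain ⟨s, hs, hsb, hsq⟩ := hmove hb hbk hxk hqk (hoff _ x.2.1) hql
    refine ⟨s, hs, hsb, (mem_iff_centre ((El P l).mul_mem x.2.1 hs) hO hd hOD hdD).1 ?_⟩
    rwa [hcomm _ x.2.1 _ hs, mul_smul, hsq]
  choose θ hθel hθb hθd using hθex
  have hθuniq : ∀ (x : Ta) (s : G), s ∈ El P l → IsCentre L s b → IsCentre L ((x : G) * s) d →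
      s = θ x := by
    intro x s hs hsb hsd
    have h1 : IsCentre L ((θ x)⁻¹ * s) b := (Ctr L b).mul_mem ((Ctr L b).inv_mem (hθb x)) hsb
    have h2 : IsCentre L (((x : G) * θ x)⁻¹ * ((x : G) * s)) d :=
      (Ctr L d).mul_mem ((Ctr L d).inv_mem (hθd x)) hsd
    rw [mul_inv_rev, mul_assoc, inv_mul_cancel_left] at h2
    exact (inv_mul_eq_one.1 (hsep _ hd hb hdb h2 h1)).symm
  have hθmul : ∀ x y : Ta, θ (x * y) = θ x * θ y := by
    intro x y
    refine (hθuniq _ _ ((El P l).mul_mem (hθel x) (hθel y)) ((Ctr L b).mul_mem (hθb x) (hθb y)) ?_).symm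
    have e : ((x * y : Ta) : G) * (θ x * θ y) = ((x : G) * θ x) * ((y : G) * θ y) := by
      show (x : G) * (y : G) * (θ x * θ y) = _
      rw [mul_assoc (x : G), ← mul_assoc (y : G), hcomm _ y.2.1 _ (hθel x), mul_assoc (θ x),
        ← mul_assoc (x : G)]
    rw [e]
    exact (Ctr L d).mul_mem (hθd x) (hθd y)
  have hθinj : ∀ x y : Ta, θ x = θ y → x = y := by
    intro x y e
    have h1 : IsCentre L (((x : G) * θ x) * ((y : G) * θ y)⁻¹) d :=
      (Ctr L d).mul_mem (hθd x) ((Ctr L d).inv_mem (hθd y))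
    rw [e, mul_inv_rev, mul_assoc, mul_inv_cancel_left] at h1
    exact Subtype.ext (mul_inv_eq_one.1
      (hsep _ hd ha hda h1 ((Ctr L a).mul_mem x.2.2 ((Ctr L a).inv_mem y.2.2))))
  have hθsurj : ∀ s : G, s ∈ El P l → IsCentre L s b → ∃ x : Ta, θ x = s := by
    intro s hs hsb
    obtain ⟨k, hsk, hak⟩ := exists_join (L := L) (show s • O ≠ a from fun e => hoff _ hs (e ▸ ha))
    have hkD : k ≠ D := fun e => hda (eq_point (fun e' : D = l => hO (e' ▸ hOD)) hdD hd (e ▸ hak) ha)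
    obtain ⟨q, hqk, hqD⟩ := exists_meet (P := P) hkD
    have hql : q ∉ l := fun hh => by
      have hqd : q = d := eq_point (fun e' : D = l => hO (e' ▸ hOD)) hqD hh hdD hd
      have hkl : k ≠ l := fun e' => hoff _ hs (e' ▸ hsk)
      exact hda (hqd.symm.trans (eq_point hkl hqk hh hak ha))
    obtain ⟨t, ht, hta, htq⟩ := hmove ha hak hsk hqk (hoff _ hs) hql
    refine ⟨⟨t, ht, hta⟩, (hθuniq _ s hs hsb ?_).symm⟩
    refine (mem_iff_centre ((El P l).mul_mem ht hs) hO hd hOD hdD).1 ?_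
    rwa [mul_smul, htq]
  refine ⟨Additive ↥Ta, inferInstance, ⟨{
    O := O, a := a, b := b, d := d, l := l, hO := hO, ha := ha, hb := hb, hd := hd,
    hab := Ne.symm hba, hda := hda, hdb := hdb,
    τ := fun p => ((Additive.toMul p.1 : Ta) : G) * θ (Additive.toMul p.2),
    τ_add := fun p q => ?_, τ_el := fun p => ?_, τ_a := fun x => ?_, τ_b := fun y => ?_,
    τ_d := fun x => hθd _, τ_bij := fun q hq => ?_ }⟩⟩
  · simp only [Prod.fst_add, Prod.snd_add, toMul_add, hθmul, Subgroup.coe_mul]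
    rw [mul_assoc (Additive.toMul p.1 : Ta).1, ← mul_assoc (Additive.toMul q.1 : Ta).1,
      hcomm _ (Additive.toMul q.1).2.1 _ (hθel (Additive.toMul p.2)), mul_assoc (θ _),
      ← mul_assoc (Additive.toMul p.1 : Ta).1]
  · exact (El P l).mul_mem (Additive.toMul p.1).2.1 (hθel _)
  · have h1 : θ (1 : Ta) = 1 := by
      have h := hθmul 1 1
      rw [mul_one] at h
      exact left_eq_mul.1 h
    show IsCentre L (((Additive.toMul x : Ta) : G) * θ (1 : Ta)) a
    rw [h1, mul_one]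
    exact (Additive.toMul x).2.2
  · show IsCentre L (((1 : Ta) : G) * θ (Additive.toMul y)) b
    rw [Subgroup.coe_one, one_mul]
    exact hθb _
  · obtain ⟨k, hqk, hbk⟩ := exists_join (L := L) (show q ≠ b from fun e => hq (e ▸ hb))
    have hkl : k ≠ l := fun e => hq (e ▸ hqk)
    have hkA : k ≠ A := fun e => hba (eq_point (fun e' : A = l => hO (e' ▸ hOA)) (e ▸ hbk) hb haA ha)
    obtain ⟨q', hq'k, hq'A⟩ := exists_meet (P := P) hkA
    have hq'l : q' ∉ l := fun hh => hba ((eq_point hkl hbk hb hq'k hh).trans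
      (eq_point (fun e' : A = l => hO (e' ▸ hOA)) hq'A hh haA ha))
    obtain ⟨t, ht, hta, htq⟩ := hmove ha haA hOA hq'A hO hq'l
    obtain ⟨s, hs, hsb, hsq⟩ := hmove hb hbk hq'k hqk hq'l hq
    obtain ⟨y, hy⟩ := hθsurj s hs hsb
    refine ⟨(Additive.ofMul ⟨t, ht, hta⟩, Additive.ofMul y), ?_, ?_⟩
    · show (t * θ y) • O = q
      rw [hy, hcomm t ht s hs, mul_smul, htq, hsq]
    · rintro ⟨x', y'⟩ (h : (((Additive.toMul x' : Ta) : G) * θ (Additive.toMul y')) • O = q)
      have hts : ((Additive.toMul x' : Ta) : G) * θ (Additive.toMul y') = t * s := by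
        have := eq_one_of_fixed_off ((El P l).mul_mem ((El P l).inv_mem ((El P l).mul_mem ht hs))
          ((El P l).mul_mem (Additive.toMul x').2.1 (hθel (Additive.toMul y')))) hO (by
            rw [mul_smul, h, inv_smul_eq_iff, hcomm t ht s hs, mul_smul, htq, hsq])
        exact (inv_mul_eq_one.1 this).symm
      have h3 : t⁻¹ * ((Additive.toMul x' : Ta) : G) = s * (θ (Additive.toMul y'))⁻¹ := by
        rw [eq_mul_inv_iff_mul_eq, mul_assoc, hts, inv_mul_cancel_left]
      have h4 := hsep _ ha hb (Ne.symm hba)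
        ((Ctr L a).mul_mem ((Ctr L a).inv_mem hta) (Additive.toMul x').2.2)
        (h3 ▸ (Ctr L b).mul_mem hsb ((Ctr L b).inv_mem (hθb _)))
      have h5 : Additive.toMul x' = (⟨t, ht, hta⟩ : Ta) := Subtype.ext (inv_mul_eq_one.1 h4).symm
      have h6 : Additive.toMul y' = y := hθinj _ _ (by
        rw [h3] at h4
        rw [hy]
        exact (mul_inv_eq_one.1 h4).symm)
      exact Prod.ext h5 h6

end Build

namespace Coords

variable {V : Type*} [AddCommGroup V] (C : Coords P L G V)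

/-- The point with given coordinates. -/
def pt (p : V × V) : P := C.τ p • C.O

theorem τ_zero : C.τ 0 = 1 := by
  have h := C.τ_add 0 0
  rw [add_zero] at h
  exact left_eq_mul.1 h

theorem pt_zero : C.pt 0 = C.O := by rw [pt, τ_zero, one_smul]

theorem τ_pt (p q : V × V) : C.τ p • C.pt q = C.pt (p + q) := by rw [pt, pt, C.τ_add, mul_smul]

theorem pt_off (p : V × V) : C.pt p ∉ C.l := smul_off_axis (C.τ_el p).1 C.hO

theorem pt_inj {p q : V × V} (h : C.pt p = C.pt q) : p = q :=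
  (C.τ_bij _ (C.pt_off q)).unique h rfl

theorem exists_pt {q : P} (hq : q ∉ C.l) : ∃ p, C.pt p = q := (C.τ_bij q hq).exists

theorem τ_neg (p : V × V) : C.τ (-p) = (C.τ p)⁻¹ := by
  refine eq_inv_of_mul_eq_one_left ?_
  rw [← C.τ_add, neg_add_cancel, τ_zero]

/-- The horizontal and vertical lines and the diagonal. -/
theorem pt_mem_A {k : L} (hO : C.O ∈ k) (ha : C.a ∈ k) (p : V × V) : C.pt p ∈ k ↔ p.2 = 0 := by
  rw [pt, mem_iff_centre (C.τ_el p) C.hO C.ha hO ha]
  constructor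
  · intro h
    have h1 : IsCentre L (C.τ (-(p.1, 0)) * C.τ p) C.a :=
      (Ctr L C.a).mul_mem (by rw [C.τ_neg]; exact (Ctr L C.a).inv_mem (C.τ_a p.1)) h
    rw [← C.τ_add] at h1
    have h2 : (-(p.1, (0 : V)) + p) = (0, p.2) := by ext <;> simp
    rw [h2] at h1
    have h3 := eq_one_of_centres h1 (C.τ_b p.2) C.hab
    have h4 : C.pt (0, p.2) = C.pt 0 := by rw [pt_zero, pt, h3, one_smul]
    exact congrArg Prod.snd (C.pt_inj h4)
  · intro h
    have hp : p = (p.1, 0) := Prod.ext rfl h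
    rw [hp]
    exact C.τ_a p.1

theorem exists_vert (x : V) : ∃ k : L, C.b ∈ k ∧ k ≠ C.l ∧ ∀ p, C.pt p ∈ k ↔ p.1 = x := by
  obtain ⟨B, hOB, hbB⟩ := exists_join (L := L) (show C.O ≠ C.b from fun e => C.hO (e ▸ C.hb))
  have hB : ∀ p : V × V, C.pt p ∈ B ↔ p.1 = 0 := by
    intro p
    rw [pt, mem_iff_centre (C.τ_el p) C.hO C.hb hOB hbB]
    constructor
    · intro h
      have h1 : IsCentre L (C.τ (-(0, p.2)) * C.τ p) C.b :=
        (Ctr L C.b).mul_mem (by rw [C.τ_neg]; exact (Ctr L C.b).inv_mem (C.τ_b p.2)) h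
      rw [← C.τ_add] at h1
      have h2 : (-((0 : V), p.2) + p) = (p.1, 0) := by ext <;> simp
      rw [h2] at h1
      have h3 := eq_one_of_centres h1 (C.τ_a p.1) (Ne.symm C.hab)
      have h4 : C.pt (p.1, 0) = C.pt 0 := by rw [pt_zero, pt, h3, one_smul]
      exact congrArg Prod.fst (C.pt_inj h4)
    · intro h
      have hp : p = (0, p.2) := Prod.ext h rfl
      rw [hp]
      exact C.τ_b p.2
  have hbf : C.τ (x, 0) • C.b = C.b := (C.τ_el _).1 C.b C.hb
  refine ⟨C.τ (x, 0) • B, ?_, fun e => C.pt_off (x, 0) ?_, fun p => ?_⟩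
  · rw [← hbf]; exact mem_smul_of_mem _ hbB
  · rw [← e]; exact mem_smul_of_mem _ hOB
  · rw [show p = (x, 0) + (p - (x, 0)) by abel, ← τ_pt, IncAct.smul_mem_smul, hB]
    simp [sub_eq_zero]

/-- The vertical line. -/
noncomputable def vert (x : V) : L := (C.exists_vert x).choose

theorem vert_b (x : V) : C.b ∈ C.vert x := (C.exists_vert x).choose_spec.1

theorem vert_ne (x : V) : C.vert x ≠ C.l := (C.exists_vert x).choose_spec.2.1

theorem mem_vert {x : V} {p : V × V} : C.pt p ∈ C.vert x ↔ p.1 = x :=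
  (C.exists_vert x).choose_spec.2.2 p

theorem O_mem_vert : C.O ∈ C.vert 0 := by rw [← C.pt_zero]; exact C.mem_vert.2 rfl

/-- A line through the origin off `b` is the graph of an additive function. -/
theorem graph {k : L} (_hO : C.O ∈ k) (hb : C.b ∉ k) :
    ∀ x, ∃! y, C.pt (x, y) ∈ k := by
  intro x
  obtain ⟨q, hqk, hqv⟩ := exists_meet (P := P) (show k ≠ C.vert x from fun e => hb (e ▸ C.vert_b x))
  have hql : q ∉ C.l := fun h => hb (eq_point (C.vert_ne x) hqv h (C.vert_b x) C.hb ▸ hqk)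
  obtain ⟨⟨x', y⟩, hp⟩ := C.exists_pt hql
  have hx : x' = x := C.mem_vert.1 (hp ▸ hqv : C.pt (x', y) ∈ C.vert x)
  subst hx
  refine ⟨y, show C.pt (x', y) ∈ k from hp ▸ hqk, fun z hz => ?_⟩
  exact (congrArg Prod.snd (C.pt_inj (p := (x', z)) (q := (x', y))
    (eq_point (show k ≠ C.vert x' from fun e => hb (e ▸ C.vert_b x')) hz (C.mem_vert.2 rfl)
      (hp ▸ hqk) (C.mem_vert.2 rfl))))

theorem graph_add {k : L} (hO : C.O ∈ k) {x x' y y' : V} (h : C.pt (x, y) ∈ k)
    (h' : C.pt (x', y') ∈ k) : C.pt (x + x', y + y') ∈ k := by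
  have hkl : k ≠ C.l := fun e => C.hO (e ▸ hO)
  obtain ⟨c, hck, hcl⟩ := exists_meet (P := P) hkl
  have h1 := (mem_iff_centre (C.τ_el (x, y)) C.hO hcl hO hck).1 h
  have h2 := (mem_iff_centre (C.τ_el (x', y')) C.hO hcl hO hck).1 h'
  have h3 : IsCentre L (C.τ ((x, y) + (x', y'))) c := by
    rw [C.τ_add]; exact (Ctr L c).mul_mem h1 h2
  exact (mem_iff_centre (C.τ_el _) C.hO hcl hO hck).2 h3

section Slopes

variable {e : V} (he : e ≠ 0)

include he

theorem O_ne_pt (m : V) : C.O ≠ C.pt (e, m) := fun h =>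
  he (congrArg Prod.fst (C.pt_inj (C.pt_zero.trans h))).symm

/-- The line of slope `m` through the origin. -/
noncomputable def slope (m : V) : L := (exists_join (L := L) (C.O_ne_pt he m)).choose

theorem slope_O (m : V) : C.O ∈ C.slope he m := (exists_join (L := L) (C.O_ne_pt he m)).choose_spec.1

theorem slope_pt (m : V) : C.pt (e, m) ∈ C.slope he m :=
  (exists_join (L := L) (C.O_ne_pt he m)).choose_spec.2

theorem slope_b (m : V) : C.b ∉ C.slope he m := fun h => by
  have h0 : C.slope he m = C.vert 0 := eq_line (fun e' : C.O = C.b => C.hO (e' ▸ C.hb))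
    (C.slope_O he m) h C.O_mem_vert (C.vert_b 0)
  exact he (C.mem_vert.1 (h0 ▸ C.slope_pt he m))

theorem exists_slope {k : L} (hO : C.O ∈ k) (hb : C.b ∉ k) : ∃ m, k = C.slope he m := by
  obtain ⟨m, hm, -⟩ := C.graph hO hb e
  exact ⟨m, eq_line (C.O_ne_pt he m) hO hm (C.slope_O he m) (C.slope_pt he m)⟩

/-- The product. -/
noncomputable def sm (m x : V) : V := (C.graph (C.slope_O he m) (C.slope_b he m) x).choose

theorem mem_slope {m x y : V} : C.pt (x, y) ∈ C.slope he m ↔ y = C.sm he m x := by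
  have h := (C.graph (C.slope_O he m) (C.slope_b he m) x).choose_spec
  exact ⟨fun hy => h.2 y hy, fun hy => hy ▸ h.1⟩

theorem sm_add (m x x' : V) : C.sm he m (x + x') = C.sm he m x + C.sm he m x' :=
  ((C.mem_slope he).1 (C.graph_add (C.slope_O he m) ((C.mem_slope he).2 rfl) ((C.mem_slope he).2 rfl))).symm

theorem sm_zero (m : V) : C.sm he m 0 = 0 := by
  have h := C.sm_add he m 0 0
  rw [add_zero] at h
  exact left_eq_add.1 h

theorem sm_e (m : V) : C.sm he m e = m := ((C.mem_slope he).1 (C.slope_pt he m)).symm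

theorem slope_zero_mem (x : V) : C.pt (x, 0) ∈ C.slope he 0 := by
  obtain ⟨A, hOA, haA⟩ := exists_join (L := L) (show C.O ≠ C.a from fun h => C.hO (h ▸ C.ha))
  have hA : A = C.slope he 0 := eq_line (C.O_ne_pt he 0) hOA ((C.pt_mem_A hOA haA (e, 0)).2 rfl)
    (C.slope_O he 0) (C.slope_pt he 0)
  exact hA ▸ (C.pt_mem_A hOA haA (x, 0)).2 rfl

theorem zero_sm (x : V) : C.sm he 0 x = 0 := ((C.mem_slope he).1 (C.slope_zero_mem he x)).symm

theorem a_mem_slope : C.a ∈ C.slope he 0 := by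
  obtain ⟨A, hOA, haA⟩ := exists_join (L := L) (show C.O ≠ C.a from fun h => C.hO (h ▸ C.ha))
  exact eq_line (C.O_ne_pt he 0) hOA ((C.pt_mem_A hOA haA (e, 0)).2 rfl)
    (C.slope_O he 0) (C.slope_pt he 0) ▸ haA

theorem e_sm (x : V) : C.sm he e x = x := by
  obtain ⟨D, hOD, hdD⟩ := exists_join (L := L) (show C.O ≠ C.d from fun h => C.hO (h ▸ C.hd))
  have h : ∀ y, C.pt (y, y) ∈ D := fun y => (mem_iff_centre (C.τ_el (y, y)) C.hO C.hd hOD hdD).2 (C.τ_d y)
  have hD : D = C.slope he e := eq_line (C.O_ne_pt he e) hOD (h e) (C.slope_O he e) (C.slope_pt he e)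
  exact ((C.mem_slope he).1 (hD ▸ h x)).symm

theorem sm_eq_zero {m x : V} (hx : x ≠ 0) (h : C.sm he m x = 0) : m = 0 := by
  have hne : C.O ≠ C.pt (x, 0) := fun h' => hx (congrArg Prod.fst (C.pt_inj (C.pt_zero.trans h'))).symm
  have hk : C.slope he m = C.slope he 0 :=
    eq_line hne (C.slope_O he m) ((C.mem_slope he).2 h.symm) (C.slope_O he 0) (C.slope_zero_mem he x)
  have h2 := (C.mem_slope he).1 (hk ▸ C.slope_pt he m)
  rwa [C.zero_sm he] at h2

/-- A translate of a line of slope `m`. -/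
noncomputable def line (m c : V) : L := C.τ (0, c) • C.slope he m

theorem mem_line {m c : V} {p : V × V} : C.pt p ∈ C.line he m c ↔ p.2 = C.sm he m p.1 + c := by
  rw [line, show p = (0, c) + (p - (0, c)) by abel, ← τ_pt, IncAct.smul_mem_smul]
  have h1 : p - (0, c) = (p.1, p.2 - c) := by ext <;> simp
  rw [h1, C.mem_slope he]
  simp [sub_eq_iff_eq_add]

theorem exists_dir (m : V) : ∃ q, q ∈ C.slope he m ∧ q ∈ C.l :=
  exists_meet (P := P) fun h => C.hO (h ▸ C.slope_O he m)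

/-- The point at infinity of slope `m`. -/
noncomputable def dir (m : V) : P := (C.exists_dir he m).choose

theorem dir_slope (m : V) : C.dir he m ∈ C.slope he m := (C.exists_dir he m).choose_spec.1

theorem dir_l (m : V) : C.dir he m ∈ C.l := (C.exists_dir he m).choose_spec.2

theorem dir_line (m c : V) : C.dir he m ∈ C.line he m c := by
  rw [← (C.τ_el (0, c)).1 _ (C.dir_l he m)]
  exact mem_smul_of_mem _ (C.dir_slope he m)

theorem line_ne (m c : V) : C.line he m c ≠ C.l := fun h => by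
  have h1 := C.pt_off (0, c)
  rw [← h, C.mem_line he, C.sm_zero he, zero_add] at h1
  exact h1 rfl

theorem dir_inj {m m' : V} (h : C.dir he m = C.dir he m') : m = m' := by
  have hk : C.slope he m = C.slope he m' :=
    eq_line (fun h' : C.O = C.dir he m => C.hO (h' ▸ C.dir_l he m)) (C.slope_O he m) (C.dir_slope he m)
      (C.slope_O he m') (h ▸ C.dir_slope he m')
  have h2 := (C.mem_slope he).1 (hk ▸ C.slope_pt he m)
  rwa [C.sm_e he] at h2

theorem dir_ne_b (m : V) : C.dir he m ≠ C.b := fun h => C.slope_b he m (h ▸ C.dir_slope he m)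

theorem exists_line {k : L} (hb : C.b ∉ k) : ∃ m c, k = C.line he m c := by
  obtain ⟨q, hqk, hqv⟩ := exists_meet (P := P) (show k ≠ C.vert 0 from fun h => hb (h ▸ C.vert_b 0))
  have hql : q ∉ C.l := fun h => hb (eq_point (C.vert_ne 0) hqv h (C.vert_b 0) C.hb ▸ hqk)
  obtain ⟨⟨x, c⟩, hp⟩ := C.exists_pt hql
  have hx : x = 0 := C.mem_vert.1 (hp ▸ hqv : C.pt (x, c) ∈ C.vert 0)
  subst hx
  have hbf : C.τ (0, c) • C.b = C.b := (C.τ_el _).1 C.b C.hb
  obtain ⟨m, hm⟩ := C.exists_slope he (k := (C.τ (0, c))⁻¹ • k)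
    (by rw [← smul_mem_iff]; exact (hp ▸ hqk : C.pt (0, c) ∈ k))
    (fun h => hb (by rw [← smul_mem_iff, hbf] at h; exact h))
  exact ⟨m, c, by rw [line, ← hm, smul_inv_smul]⟩

theorem exists_dir_eq {q : P} (hq : q ∈ C.l) (hqb : q ≠ C.b) : ∃ m, q = C.dir he m := by
  obtain ⟨k, hOk, hqk⟩ := exists_join (L := L) (show C.O ≠ q from fun h => C.hO (h ▸ hq))
  have hb : C.b ∉ k := fun h => hqb (eq_point (fun h' : k = C.l => C.hO (h' ▸ hOk)) hqk hq h C.hb)
  obtain ⟨m, hm⟩ := C.exists_slope he hOk hb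
  exact ⟨m, eq_point (fun h' : k = C.l => C.hO (h' ▸ hOk)) hqk hq (hm ▸ C.dir_slope he m) (C.dir_l he m)⟩

end Slopes

section Shears

variable [Finite G] {e : V} (he : e ≠ 0)
variable (h2t : ∀ p₁ p₂ q₁ q₂ : P, p₁ ≠ p₂ → q₁ ≠ q₂ → ∃ g : G, g • p₁ = q₁ ∧ g • p₂ = q₂)

include he h2t

omit he h2t in
/-- A collineation fixing the line at infinity, `O` and `q` commutes with the translation by `q`. -/
theorem smul_pt_add {φ : G} {p q : V × V} (hl : φ • C.l = C.l) (hOf : φ • C.O = C.O)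
    (hq : φ • C.pt q = C.pt q) :
    φ • C.pt (q + p) = C.τ q • (φ • C.pt p) := by
  have h1 : φ * C.τ q * φ⁻¹ ∈ El P C.l := by
    have := El.conj (C.τ_el q) φ
    rwa [hl] at this
  have h2 : φ * C.τ q * φ⁻¹ = C.τ q := by
    have h3 := eq_one_of_fixed_off ((El P C.l).mul_mem ((El P C.l).inv_mem (C.τ_el q)) h1) C.hO (by
      rw [mul_smul, mul_smul, mul_smul, show φ⁻¹ • C.O = C.O by rw [inv_smul_eq_iff, hOf],
        show φ • C.τ q • C.O = C.τ q • C.O from hq, inv_smul_smul])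
    exact (inv_mul_eq_one.1 h3).symm
  rw [← τ_pt, ← mul_smul, ← mul_smul, ← mul_inv_eq_iff_eq_mul.1 h2]

theorem add_sm (m₀ m x : V) : C.sm he (m₀ + m) x = C.sm he m₀ x + C.sm he m x := by
  have hBl : C.l ≠ C.vert 0 := Ne.symm (C.vert_ne 0)
  obtain ⟨φ, hφ, hφb, hφa⟩ := exists_shear h2t (C.vert_b 0) C.hb hBl C.ha (C.dir_l he m₀) C.hab
    (C.dir_ne_b he m₀)
  have hl : φ • C.l = C.l := hφb C.l C.hb
  have hOf : φ • C.O = C.O := hφ.1 _ C.O_mem_vert
  have hvert : ∀ p : V × V, ∃ y, φ • C.pt p = C.pt (p.1, y) := by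
    intro p
    have hoff : φ • C.pt p ∉ C.l := fun h => C.pt_off p (by
      rwa [← hl, IncAct.smul_mem_smul] at h)
    obtain ⟨⟨u, w⟩, hq⟩ := C.exists_pt hoff
    have h1 := smul_mem_of_centre hφb (C.vert_b p.1) (C.mem_vert.2 (rfl : p.1 = p.1))
    rw [← hq, C.mem_vert] at h1
    exact ⟨w, by rw [← hq, ← h1]⟩
  have hA : φ • C.slope he 0 = C.slope he m₀ := by
    refine eq_line (fun h : C.O = C.dir he m₀ => C.hO (h ▸ C.dir_l he m₀))
      (by rw [← hOf]; exact mem_smul_of_mem _ (C.slope_O he 0))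
      (by rw [← hφa]; exact mem_smul_of_mem _ (C.a_mem_slope he)) (C.slope_O he m₀) (C.dir_slope he m₀)
  have hφpt : ∀ u w : V, φ • C.pt (u, w) = C.pt (u, C.sm he m₀ u + w) := by
    intro u w
    obtain ⟨y, hy⟩ := hvert (u, 0)
    have h1 : C.pt (u, y) ∈ C.slope he m₀ := by
      rw [← hA, ← hy]; exact mem_smul_of_mem _ (C.slope_zero_mem he u)
    rw [(C.mem_slope he).1 h1] at hy
    have h2 := C.smul_pt_add (p := (u, 0)) (q := (0, w)) hl hOf
      (hφ.1 _ (C.mem_vert.2 rfl))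
    rw [hy, τ_pt, Prod.mk_add_mk, zero_add, add_zero, Prod.mk_add_mk, zero_add] at h2
    rw [h2, add_comm w]
  have hk : φ • C.slope he m = C.slope he (m₀ + m) := by
    refine eq_line (C.O_ne_pt he (m₀ + m)) (by rw [← hOf]; exact mem_smul_of_mem _ (C.slope_O he m))
      ?_ (C.slope_O he _) (C.slope_pt he _)
    have h3 := mem_smul_of_mem φ (C.slope_pt he m)
    rwa [hφpt, C.sm_e he] at h3
  have h4 := mem_smul_of_mem φ ((C.mem_slope he (m := m) (x := x)).2 rfl)
  rw [hφpt, hk, C.mem_slope he] at h4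
  exact h4.symm

/-- The left inverse property. -/
theorem left_inverse {A : V} (hA : A ≠ 0) : ∃ A', ∀ x, C.sm he A' (C.sm he A x) = x := by
  -- the shear with axis the first coordinate line sending `b` to slope `e`
  have hal : C.l ≠ C.slope he 0 := fun h => C.hO (h ▸ C.slope_O he 0)
  obtain ⟨ψ, hψ, hψa, hψb⟩ := exists_shear h2t (C.a_mem_slope he) C.ha hal C.hb (C.dir_l he e)
    (Ne.symm C.hab) (fun h => he (C.dir_inj he (h.trans (by
      exact eq_point (fun h' : C.slope he 0 = C.l => C.hO (h' ▸ C.slope_O he 0)) (C.a_mem_slope he) C.ha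
        (C.dir_slope he 0) (C.dir_l he 0)))))
  have hl : ψ • C.l = C.l := hψa C.l C.ha
  have hOf : ψ • C.O = C.O := hψ.1 _ (C.slope_O he 0)
  have hψpt : ∀ u w : V, ψ • C.pt (u, w) = C.pt (u + w, w) := by
    intro u w
    -- the horizontal line at height `w`
    have hH : C.a ∈ C.line he 0 w := by
      have h := C.dir_line he 0 w
      rwa [← eq_point (fun h' : C.slope he 0 = C.l => C.hO (h' ▸ C.slope_O he 0)) (C.a_mem_slope he) C.ha
        (C.dir_slope he 0) (C.dir_l he 0)] at h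
    have hB : ψ • C.vert 0 = C.slope he e :=
      eq_line (fun h : C.O = C.dir he e => C.hO (h ▸ C.dir_l he e))
        (by rw [← hOf]; exact mem_smul_of_mem _ C.O_mem_vert)
        (by rw [← hψb]; exact mem_smul_of_mem _ (C.vert_b 0)) (C.slope_O he e) (C.dir_slope he e)
    have hoff : ψ • C.pt (0, w) ∉ C.l := fun h => C.pt_off (0, w) (by
      rwa [← hl, IncAct.smul_mem_smul] at h)
    obtain ⟨⟨s, t⟩, hq⟩ := C.exists_pt hoff
    have h1 := smul_mem_of_centre hψa hH ((C.mem_line he (p := (0, w))).2 (by rw [C.zero_sm he, zero_add]))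
    rw [← hq, C.mem_line he, C.zero_sm he, zero_add] at h1
    have h2 := mem_smul_of_mem ψ (C.mem_vert.2 (rfl : ((0 : V), w).1 = 0))
    rw [hB, ← hq, C.mem_slope he, C.e_sm he] at h2
    have h1' : t = w := h1
    subst h1' h2
    have h3 := C.smul_pt_add (p := (0, t)) (q := (u, 0)) hl hOf
      (hψ.1 _ (C.slope_zero_mem he u))
    rw [← hq, τ_pt, Prod.mk_add_mk, zero_add, add_zero, Prod.mk_add_mk, zero_add] at h3
    exact h3
  set M := A - e with hM
  have hbk : C.b ∉ ψ • C.slope he M := by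
    intro h
    -- otherwise the image is the vertical axis
    have h0 : ψ • C.slope he M = C.vert 0 := eq_line (fun e' : C.O = C.b => C.hO (e' ▸ C.hb))
      (by rw [← hOf]; exact mem_smul_of_mem _ (C.slope_O he M)) h C.O_mem_vert (C.vert_b 0)
    have h1 := mem_smul_of_mem ψ (C.slope_pt he M)
    rw [hψpt, h0, C.mem_vert] at h1
    exact hA (by rw [← h1, hM]; abel)
  obtain ⟨M', hM'⟩ := C.exists_slope he (k := ψ • C.slope he M)
    (by rw [← hOf]; exact mem_smul_of_mem _ (C.slope_O he M)) hbk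
  refine ⟨e - M', fun x => ?_⟩
  have h1 := mem_smul_of_mem ψ ((C.mem_slope he (m := M) (x := x)).2 rfl)
  rw [hψpt, hM', C.mem_slope he] at h1
  have h2 : C.sm he A x = x + C.sm he M x := by
    have h := C.add_sm he h2t e M x
    rwa [C.e_sm he, show e + M = A by rw [hM]; abel] at h
  have h3 : C.sm he ((e - M') + M') (x + C.sm he M x) = x + C.sm he M x := by
    rw [sub_add_cancel, C.e_sm he]
  rw [C.add_sm he h2t, ← h1] at h3
  rw [h2]
  exact add_right_cancel h3

/-- The right inverse property. -/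
theorem right_inverse {A : V} (hA : A ≠ 0) : ∃ A', ∀ u, C.sm he (C.sm he u A) A' = u := by
  -- the elation with centre the origin, axis the vertical axis, sending `a` to `(e, 0)`
  have hAB : C.slope he 0 ≠ C.vert 0 := fun h => C.slope_b he 0 (h ▸ C.vert_b 0)
  obtain ⟨χ, hχ, hχO, hχa⟩ := exists_shear h2t C.O_mem_vert (C.slope_O he 0) hAB (C.a_mem_slope he)
    (C.slope_zero_mem he e) (fun h => C.hO (h ▸ C.ha)) (fun h => C.O_ne_pt he 0 h.symm)
  have hk : ∀ m, χ • C.slope he m = C.slope he m := fun m => hχO _ (C.slope_O he m)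
  have hbf : χ • C.b = C.b := hχ.1 _ (C.vert_b 0)
  have hfix : ∀ w, χ • C.pt (0, w) = C.pt (0, w) := fun w => hχ.1 _ (C.mem_vert.2 rfl)
  have hl : χ • C.l = C.vert e := by
    have h1 : C.pt (e, 0) ∈ χ • C.l := by rw [← hχa]; exact mem_smul_of_mem _ C.ha
    have h2 : C.b ∈ χ • C.l := by rw [← hbf]; exact mem_smul_of_mem _ C.hb
    exact eq_line (fun h : C.pt (e, 0) = C.b => C.pt_off (e, 0) (h ▸ C.hb)) h1 h2 (C.mem_vert.2 rfl) (C.vert_b e)
  set x := A - e with hx
  -- images of lines of slope `0`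
  have hH : ∀ k, χ • C.line he 0 k = C.line he (-k) k := by
    intro k
    have hne : C.pt (0, k) ≠ C.pt (e, 0) := fun h => he (congrArg Prod.fst (C.pt_inj h)).symm
    refine eq_line hne ?_ ?_ ?_ ?_
    · rw [← hfix]; exact mem_smul_of_mem _ ((C.mem_line he).2 (by rw [C.zero_sm he, zero_add]))
    · rw [← hχa]
      refine mem_smul_of_mem _ ?_
      have h := C.dir_line he 0 k
      rwa [← eq_point (fun h' : C.slope he 0 = C.l => C.hO (h' ▸ C.slope_O he 0)) (C.a_mem_slope he) C.ha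
        (C.dir_slope he 0) (C.dir_l he 0)] at h
    · exact (C.mem_line he).2 (by rw [C.sm_zero he, zero_add])
    · exact (C.mem_line he).2 (by rw [C.sm_e he, neg_add_cancel])
  have hq : ∀ u, χ • C.pt (x, C.sm he u x) ∈ C.slope he u ∧
      χ • C.pt (x, C.sm he u x) ∈ C.line he (-(C.sm he u x)) (C.sm he u x) := by
    intro u
    constructor
    · have h := mem_smul_of_mem χ ((C.mem_slope he (m := u) (x := x)).2 rfl)
      rwa [hk] at h
    · rw [← hH]
      exact mem_smul_of_mem _ ((C.mem_line he).2 (by rw [C.zero_sm he, zero_add]))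
  -- the image of the vertical line at `x` is affine
  have hv : C.b ∈ χ • C.vert x := by rw [← hbf]; exact mem_smul_of_mem _ (C.vert_b x)
  have hcoll : ∀ u, χ • C.pt (x, C.sm he u x) ∈ χ • C.vert x := fun u =>
    mem_smul_of_mem _ (C.mem_vert.2 rfl)
  have hne : χ • C.vert x ≠ C.l := by
    intro h
    obtain ⟨h1, h2⟩ := hq e
    have h3 := hcoll e
    rw [h] at h3
    rw [C.e_sm he] at h2
    have e1 : χ • C.pt (x, C.sm he e x) = C.dir he e := eq_point (fun h' : C.slope he e = C.l =>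
      C.hO (h' ▸ C.slope_O he e)) h1 h3 (C.dir_slope he e) (C.dir_l he e)
    rw [C.e_sm he] at e1 h3
    have e2 : χ • C.pt (x, x) = C.dir he (-x) :=
      eq_point (C.line_ne he (-x) x) h2 h3 (C.dir_line he (-x) x) (C.dir_l he (-x))
    have h4 : e = -x := C.dir_inj he (e1.symm.trans e2)
    exact hA (by rw [hx] at h4; rw [← sub_eq_zero.2 h4]; abel)
  obtain ⟨q₀, hq₀v, hq₀⟩ := exists_meet (P := P)
    (show χ • C.vert x ≠ C.slope he 0 from fun h => C.slope_b he 0 (h ▸ hv))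
  have hq₀l : q₀ ∉ C.l := fun h => C.slope_b he 0 (eq_point hne hv C.hb hq₀v h ▸ hq₀)
  obtain ⟨⟨x', y'⟩, hp⟩ := C.exists_pt hq₀l
  have hv' : χ • C.vert x = C.vert x' :=
    eq_line (fun h : C.pt (x', y') = C.b => C.pt_off (x', y') (h ▸ C.hb)) (hp ▸ hq₀v) hv (C.mem_vert.2 rfl) (C.vert_b x')
  refine ⟨e - x', fun u => ?_⟩
  obtain ⟨h1, h2⟩ := hq u
  have h3 := hcoll u
  rw [hv'] at h3
  have hoff : χ • C.pt (x, C.sm he u x) ∉ C.l := fun h =>
    C.slope_b he u (eq_point (C.vert_ne x') (C.vert_b x') C.hb h3 h ▸ h1)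
  obtain ⟨⟨x'', y''⟩, hp'⟩ := C.exists_pt hoff
  rw [← hp', C.mem_vert] at h3
  have hxx : x'' = x' := h3
  subst hxx
  rw [← hp', C.mem_slope he] at h1
  rw [← hp', C.mem_line he] at h2
  have h4 : C.sm he u x'' = C.sm he (-(C.sm he u x)) x'' + C.sm he u x := h1.symm.trans h2
  have h5 : C.sm he u A = C.sm he u x + u := by
    have h := C.sm_add he u x e
    rwa [C.sm_e he, show x + e = A by rw [hx]; abel] at h
  have h6 : C.sm he (C.sm he u A) x'' = C.sm he u x := by
    rw [h5, C.add_sm he h2t, h4]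
    have h7 := C.add_sm he h2t (C.sm he u x) (-(C.sm he u x)) x''
    rw [add_neg_cancel, C.zero_sm he] at h7
    rw [← add_assoc, ← h7, zero_add]
  have h8 : C.sm he (C.sm he u A) (e - x'') + C.sm he (C.sm he u A) x'' = C.sm he u A := by
    rw [← C.sm_add he, sub_add_cancel, C.sm_e he]
  rw [h6] at h8
  rw [eq_sub_of_add_eq h8, h5, add_sub_cancel_left]

end Shears

end Coords

end CfsgLib.MetacyclicP.OstromWagner
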