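import Cfsg.Agent.Lib.MetacyclicP.OstromWagner.Coord

/-!
# The Ostrom–Wagner theorem
-/

set_option autoImplicit false
set_option linter.style.haveILetI false
set_option linter.unusedSectionVars false

namespace CfsgLib.MetacyclicP.OstromWagner

open Configuration
open scoped Classical

variable {P L : Type*} [Membership P L] [Configuration.ProjectivePlane P L] [Fintype P] [Fintype L]
variable {G : Type*} [Group G] [MulAction G P] [MulAction G L] [IncAct G P L]
variable [FaithfulSMul G P]

/-- A plane with coordinates from a field is the Desarguesian plane. -/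
theorem desarguesian_of_field {V : Type*} [AddCommGroup V] (C : Coords P L G V) {e : V} (he : e ≠ 0)
    {F : Type} [Field F] (f : V ≃+ F) (hmul : ∀ m x, f (C.sm he m x) = f m * f x) :
    ∃ φ : P ≃ Projectivization F (Fin 3 → F),
      (∀ k : L, ∃ W : Submodule F (Fin 3 → F), Module.finrank F W = 2 ∧
          ∀ p : P, p ∈ k ↔ (φ p).submodule ≤ W) ∧
      (∀ W : Submodule F (Fin 3 → F), Module.finrank F W = 2 →
          ∃ k : L, ∀ p : P, p ∈ k ↔ (φ p).submodule ≤ W) := by
  let Ψ : (Fin 3 → F) → P := fun v =>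
    if v 0 ≠ 0 then C.pt (f.symm (v 1 / v 0), f.symm (v 2 / v 0))
    else if v 1 ≠ 0 then C.dir he (f.symm (v 2 / v 1)) else C.b
  have hΨ0 : ∀ v, v 0 ≠ 0 → Ψ v = C.pt (f.symm (v 1 / v 0), f.symm (v 2 / v 0)) := fun v h => if_pos h
  have hΨ1 : ∀ v, v 0 = 0 → v 1 ≠ 0 → Ψ v = C.dir he (f.symm (v 2 / v 1)) := fun v h h' => by
    simp only [Ψ, h, ne_eq, not_true_eq_false, if_false]
    exact if_pos h'
  have hΨ2 : ∀ v, v 0 = 0 → v 1 = 0 → Ψ v = C.b := fun v h h' => by simp [Ψ, h, h']
  have hsc : ∀ (c : F) (v : Fin 3 → F), c ≠ 0 → Ψ (c • v) = Ψ v := by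
    intro c v hc
    by_cases h0 : v 0 = 0
    · by_cases h1 : v 1 = 0
      · rw [hΨ2 _ (by simp [h0]) (by simp [h1]), hΨ2 _ h0 h1]
      · rw [hΨ1 _ (by simp [h0]) (by simp [hc, h1]), hΨ1 _ h0 h1]
        simp only [Pi.smul_apply, smul_eq_mul]
        rw [mul_div_mul_left _ _ hc]
    · rw [hΨ0 _ (by simp [hc, h0]), hΨ0 _ h0]
      simp only [Pi.smul_apply, smul_eq_mul]
      rw [mul_div_mul_left _ _ hc, mul_div_mul_left _ _ hc]
  let Φ : Projectivization F (Fin 3 → F) → P := fun q => Ψ q.rep
  have hΦ : ∀ v (hv : v ≠ 0), Φ (Projectivization.mk F v hv) = Ψ v := by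
    intro v hv
    obtain ⟨c, hc⟩ := Projectivization.exists_smul_eq_mk_rep F v hv
    show Ψ _ = _
    rw [← hc]
    exact hsc c v c.ne_zero
  have hinjΨ : ∀ v w : Fin 3 → F, v ≠ 0 → w ≠ 0 → Ψ v = Ψ w → ∃ c : F, c • w = v := by
    intro v w hv hw h
    by_cases hv0 : v 0 = 0
    · by_cases hw0 : w 0 = 0
      · by_cases hv1 : v 1 = 0
        · have hv2 : v 2 ≠ 0 := fun h2 => hv (by ext i; fin_cases i <;> assumption)
          by_cases hw1 : w 1 = 0
          · have hw2 : w 2 ≠ 0 := fun h2 => hw (by ext i; fin_cases i <;> assumption)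
            refine ⟨v 2 / w 2, ?_⟩
            ext i; fin_cases i <;> simp [hv0, hv1, hw0, hw1, hw2]
          · rw [hΨ2 v hv0 hv1, hΨ1 w hw0 hw1] at h
            exact absurd h.symm (C.dir_ne_b he _)
        · by_cases hw1 : w 1 = 0
          · rw [hΨ1 v hv0 hv1, hΨ2 w hw0 hw1] at h
            exact absurd h (C.dir_ne_b he _)
          · rw [hΨ1 v hv0 hv1, hΨ1 w hw0 hw1] at h
            have h' := f.symm.injective (C.dir_inj he h)
            refine ⟨v 1 / w 1, ?_⟩
            ext i; fin_cases i
            · simp [hv0, hw0]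
            · simp [hw1]
            · show v 1 / w 1 * w 2 = v 2
              rw [div_eq_div_iff hv1 hw1] at h'
              field_simp
              linear_combination -h'
      · exfalso
        rw [hΨ0 w hw0] at h
        by_cases hv1 : v 1 = 0
        · rw [hΨ2 v hv0 hv1] at h
          exact C.pt_off _ (h ▸ C.hb)
        · rw [hΨ1 v hv0 hv1] at h
          exact C.pt_off _ (h ▸ C.dir_l he _)
    · by_cases hw0 : w 0 = 0
      · exfalso
        rw [hΨ0 v hv0] at h
        by_cases hw1 : w 1 = 0
        · rw [hΨ2 w hw0 hw1] at h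
          exact C.pt_off _ (h ▸ C.hb)
        · rw [hΨ1 w hw0 hw1] at h
          exact C.pt_off _ (h ▸ C.dir_l he _)
      · rw [hΨ0 v hv0, hΨ0 w hw0] at h
        have h' := C.pt_inj h
        have h1 := f.symm.injective (congrArg Prod.fst h')
        have h2 := f.symm.injective (congrArg Prod.snd h')
        rw [div_eq_div_iff hv0 hw0] at h1 h2
        refine ⟨v 0 / w 0, ?_⟩
        ext i; fin_cases i
        · simp [hw0]
        · show v 0 / w 0 * w 1 = v 1
          field_simp
          linear_combination -h1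
        · show v 0 / w 0 * w 2 = v 2
          field_simp
          linear_combination -h2
  have hbij : Function.Bijective Φ := by
    refine ⟨fun q r h => ?_, fun p => ?_⟩
    · induction q with | h v hv => ?_
      induction r with | h w hw => ?_
      rw [hΦ, hΦ] at h
      exact (Projectivization.mk_eq_mk_iff' F v w hv hw).2 (hinjΨ v w hv hw h)
    · by_cases hp : p ∈ C.l
      · by_cases hpb : p = C.b
        · refine ⟨Projectivization.mk F ![0, 0, 1] (fun h => by simpa using congrFun h 2), ?_⟩
          rw [hΦ, hΨ2 _ rfl rfl, hpb]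
        · obtain ⟨m, hm⟩ := C.exists_dir_eq he hp hpb
          refine ⟨Projectivization.mk F ![0, 1, f m] (fun h => by simpa using congrFun h 1), ?_⟩
          rw [hΦ, hΨ1 _ rfl (by simp), hm]
          simp
      · obtain ⟨⟨x, y⟩, hxy⟩ := C.exists_pt hp
        refine ⟨Projectivization.mk F ![1, f x, f y] (fun h => by simpa using congrFun h 0), ?_⟩
        rw [hΦ, hΨ0 _ (by simp), ← hxy]
        simp
  -- every line is given by a linear form
  have hdirb : ∀ m x, C.dir he m ∉ C.vert x := fun m x h =>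
    C.dir_ne_b he m (eq_point (C.vert_ne x) h (C.dir_l he m) (C.vert_b x) C.hb)
  have hline : ∀ k : L, ∃ lam : (Fin 3 → F) →ₗ[F] F, lam ≠ 0 ∧
      ∀ v, v ≠ 0 → (Ψ v ∈ k ↔ lam v = 0) := by
    intro k
    let pr : Fin 3 → ((Fin 3 → F) →ₗ[F] F) := fun i => LinearMap.proj i
    by_cases hbk : C.b ∈ k
    · by_cases hkl : k = C.l
      · refine ⟨pr 0, fun h => by simpa [pr] using LinearMap.congr_fun h ![1, 0, 0], fun v hv => ?_⟩
        show _ ↔ v 0 = 0
        subst hkl
        constructor
        · intro h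
          by_contra h0
          rw [hΨ0 v h0] at h
          exact C.pt_off _ h
        · intro h0
          by_cases h1 : v 1 = 0
          · rw [hΨ2 v h0 h1]; exact C.hb
          · rw [hΨ1 v h0 h1]; exact C.dir_l he _
      · obtain ⟨q, hqk, hqb, -⟩ := exists_third k C.b C.b
        have hql : q ∉ C.l := fun h => hqb (eq_point hkl hqk h hbk C.hb)
        obtain ⟨⟨x, y⟩, hxy⟩ := C.exists_pt hql
        have hk : k = C.vert x := eq_line hqb hqk hbk (hxy ▸ C.mem_vert.2 rfl) (C.vert_b x)
        subst hk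
        refine ⟨pr 1 - f x • pr 0, fun h => by simpa [pr] using LinearMap.congr_fun h ![0, 1, 0],
          fun v hv => ?_⟩
        show _ ↔ v 1 - f x * v 0 = 0
        by_cases h0 : v 0 = 0
        · rw [h0, mul_zero, sub_zero]
          by_cases h1 : v 1 = 0
          · rw [hΨ2 v h0 h1]; exact iff_of_true (C.vert_b x) h1
          · rw [hΨ1 v h0 h1]; exact iff_of_false (hdirb _ x) h1
        · rw [hΨ0 v h0, C.mem_vert, sub_eq_zero]
          show f.symm (v 1 / v 0) = x ↔ _
          rw [AddEquiv.symm_apply_eq, div_eq_iff h0]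
    · obtain ⟨m, c, hk⟩ := C.exists_line he hbk
      subst hk
      refine ⟨pr 2 - f m • pr 1 - f c • pr 0,
        fun h => by simpa [pr] using LinearMap.congr_fun h ![0, 0, 1], fun v hv => ?_⟩
      show _ ↔ v 2 - f m * v 1 - f c * v 0 = 0
      by_cases h0 : v 0 = 0
      · rw [h0, mul_zero, sub_zero]
        by_cases h1 : v 1 = 0
        · rw [hΨ2 v h0 h1, h1, mul_zero, sub_zero]
          refine iff_of_false hbk fun h2 => hv ?_
          ext i; fin_cases i <;> assumption
        · rw [hΨ1 v h0 h1, sub_eq_zero]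
          constructor
          · intro h
            have h' : f.symm (v 2 / v 1) = m := C.dir_inj he
              (eq_point (C.line_ne he m c) h (C.dir_l he _) (C.dir_line he m c) (C.dir_l he m))
            rw [AddEquiv.symm_apply_eq, div_eq_iff h1] at h'
            exact h'
          · intro h
            rw [h, mul_div_cancel_right₀ _ h1, AddEquiv.symm_apply_apply]
            exact C.dir_line he m c
      · rw [hΨ0 v h0, C.mem_line he, ← f.injective.eq_iff, map_add, hmul, AddEquiv.apply_symm_apply,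
          AddEquiv.apply_symm_apply]
        constructor
        · intro h
          field_simp at h
          linear_combination h
        · intro h
          field_simp
          linear_combination h
  let φ := (Equiv.ofBijective Φ hbij).symm
  have hW : ∀ k : L, ∃ W : Submodule F (Fin 3 → F), Module.finrank F W = 2 ∧
      ∀ p : P, p ∈ k ↔ (φ p).submodule ≤ W := by
    intro k
    obtain ⟨lam, hlam0, hlam⟩ := hline k
    refine ⟨LinearMap.ker lam, ?_, fun p => ?_⟩
    · have h1 := LinearMap.finrank_range_add_finrank_ker lam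
      rw [Module.finrank_fin_fun, LinearMap.range_eq_top.2 (LinearMap.surjective_of_ne_zero hlam0),
        finrank_top, Module.finrank_self] at h1
      omega
    · obtain ⟨q, rfl⟩ := hbij.2 p
      rw [show φ (Φ q) = q from Equiv.ofBijective_symm_apply_apply Φ hbij q]
      induction q with | h v hv => ?_
      rw [hΦ, Projectivization.submodule_mk, Submodule.span_singleton_le_iff_mem, LinearMap.mem_ker]
      exact hlam v hv
  refine ⟨φ, hW, fun W hdim => ?_⟩
  let B := Module.finBasisOfFinrankEq F W hdim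
  have hne : ∀ i, (B i : Fin 3 → F) ≠ 0 := fun i h => B.ne_zero i (Subtype.ext h)
  let p : Fin 2 → P := fun i => Φ (Projectivization.mk F (B i : Fin 3 → F) (hne i))
  have hp : p 0 ≠ p 1 := by
    intro h
    obtain ⟨c, hc⟩ := (Projectivization.mk_eq_mk_iff' F _ _ (hne 0) (hne 1)).1 (hbij.1 h)
    have h1 : c • B 1 = B 0 := Subtype.ext hc
    have h2 := congrArg (fun w => B.repr w 0) h1
    simp at h2
  obtain ⟨k, hk0, hk1⟩ := exists_join (L := L) hp
  obtain ⟨W', hW', hmem⟩ := hW k
  refine ⟨k, ?_⟩
  have hin : ∀ i, p i ∈ k := fun i => by fin_cases i <;> assumption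
  have hle : W ≤ W' := by
    intro w hw
    have h := congrArg Subtype.val (B.sum_repr ⟨w, hw⟩)
    simp only [Fin.sum_univ_two, Submodule.coe_add, Submodule.coe_smul] at h
    rw [← h]
    have hB : ∀ i, (B i : Fin 3 → F) ∈ W' := fun i => by
      have h' := (hmem (p i)).1 (hin i)
      rw [show φ (p i) = _ from Equiv.ofBijective_symm_apply_apply Φ hbij _,
        Projectivization.submodule_mk, Submodule.span_singleton_le_iff_mem] at h'
      exact h'
    exact W'.add_mem (W'.smul_mem _ (hB 0)) (W'.smul_mem _ (hB 1))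
  rw [Submodule.eq_of_le_of_finrank_le hle (by omega)]
  exact hmem

/-- The Ostrom–Wagner theorem. -/
theorem ostromWagner [Finite G]
    (h2t : ∀ p₁ p₂ q₁ q₂ : P, p₁ ≠ p₂ → q₁ ≠ q₂ → ∃ g : G, g • p₁ = q₁ ∧ g • p₂ = q₂) :
    ∃ (F : Type) (_ : Field F) (_ : Fintype F) (φ : P ≃ Projectivization F (Fin 3 → F)),
      (∀ k : L, ∃ W : Submodule F (Fin 3 → F), Module.finrank F W = 2 ∧
          ∀ p : P, p ∈ k ↔ (φ p).submodule ≤ W) ∧
      (∀ W : Submodule F (Fin 3 → F), Module.finrank F W = 2 →
          ∃ k : L, ∀ p : P, p ∈ k ↔ (φ p).submodule ≤ W) := by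
  obtain ⟨V, hV, ⟨C⟩⟩ := exists_coords (G := G) L h2t
  haveI : Finite V := Finite.of_injective (fun x => C.pt (x, 0)) fun x y h =>
    congrArg Prod.fst (C.pt_inj h)
  -- a nonzero element
  obtain ⟨A, hOA, haA⟩ := exists_join (L := L) (show C.O ≠ C.a from fun h => C.hO (h ▸ C.ha))
  obtain ⟨q, hqA, hqO, hqa⟩ := exists_third A C.O C.a
  have hql : q ∉ C.l := fun h =>
    hqa (eq_point (fun h' : A = C.l => C.hO (h' ▸ hOA)) hqA h haA C.ha)
  obtain ⟨⟨e, e'⟩, hq⟩ := C.exists_pt hql
  have he' : e' = 0 := (C.pt_mem_A hOA haA (e, e')).1 (hq ▸ hqA)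
  have he : e ≠ 0 := fun h => hqO (by rw [← hq, h, he', ← C.pt_zero]; rfl)
  letI : NonAssocRing V :=
    { hV with
      mul := C.sm he
      left_distrib := fun m x y => C.sm_add he m x y
      right_distrib := fun m m' x => C.add_sm he h2t m m' x
      zero_mul := fun x => C.zero_sm he x
      mul_zero := fun m => C.sm_zero he m
      one := e
      one_mul := fun x => C.e_sm he x
      mul_one := fun m => C.sm_e he m }
  haveI : Nontrivial V := ⟨⟨e, 0, he⟩⟩
  have hL : ∀ a : V, a ≠ 0 → ∃ a' : V, ∀ x, a' * (a * x) = x := fun a ha => C.left_inverse he h2t ha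
  have hR : ∀ a : V, a ≠ 0 → ∃ a' : V, ∀ x, (x * a) * a' = x := fun a ha => C.right_inverse he h2t ha
  obtain ⟨hc, ha⟩ := comm_assoc hL hR
  letI : CommRing V := { (inferInstance : NonAssocRing V) with mul_assoc := ha, mul_comm := hc }
  haveI : NoZeroDivisors V := ⟨fun {a b} h => by
    by_cases ha : a = 0
    · exact Or.inl ha
    · exact Or.inr (eq_zero_of_mul hL ha h)⟩
  haveI : IsDomain V := NoZeroDivisors.to_isDomain V
  haveI : Fintype V := Fintype.ofFinite V
  letI : Field V := Fintype.fieldOfDomain V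
  -- a copy of `V` in the lowest universe, carrying no structure of its own
  let ε : {i : Fin (Fintype.card V) // 0 ≤ i.val} ≃ V :=
    (Equiv.subtypeUnivEquiv fun _ => Nat.zero_le _).trans (Fintype.equivFin V).symm
  letI : Field {i : Fin (Fintype.card V) // 0 ≤ i.val} := ε.field
  let f : V ≃+ {i : Fin (Fintype.card V) // 0 ≤ i.val} :=
    { toEquiv := ε.symm
      map_add' := fun x y => by
        show ε.symm (x + y) = ε.symm (ε (ε.symm x) + ε (ε.symm y))
        rw [ε.apply_symm_apply, ε.apply_symm_apply] }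
  obtain ⟨φ, h1, h2⟩ := desarguesian_of_field C he f fun m x => by
    show ε.symm (m * x) = ε.symm (ε (ε.symm m) * ε (ε.symm x))
    rw [ε.apply_symm_apply, ε.apply_symm_apply]
  exact ⟨_, _, inferInstance, φ, h1, h2⟩

end CfsgLib.MetacyclicP.OstromWagner
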