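import Cfsg.Agent.Lib.MetacyclicP.OstromWagner.Involution

/-!
# The subplane fixed by a group with a fixed quadrangle
-/

set_option autoImplicit false
set_option linter.style.haveILetI false
set_option linter.unusedSectionVars false

namespace CfsgLib.MetacyclicP.OstromWagner

open Configuration
open scoped Classical

variable {P L : Type*} [Membership P L] [Configuration.ProjectivePlane P L] [Fintype P] [Fintype L]
variable {G : Type*} [Group G] [MulAction G P] [MulAction G L] [IncAct G P L]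

/-- The fixed points of a subgroup. -/
abbrev FixPt (P : Type*) [MulAction G P] (H : Subgroup G) : Type _ :=
  {p : P // ∀ h ∈ H, h • p = p}

instance subMem (H : Subgroup G) : Membership (FixPt P H) (FixPt L H) :=
  ⟨fun l p => p.1 ∈ l.1⟩

theorem subMem_iff {H : Subgroup G} {p : FixPt P H} {l : FixPt L H} : p ∈ l ↔ p.1 ∈ l.1 := Iff.rfl

theorem join_fixed {H : Subgroup G} {p q : FixPt P H} (h : p.1 ≠ q.1) {l : L} (h1 : p.1 ∈ l)
    (h2 : q.1 ∈ l) : ∀ g ∈ H, g • l = l :=
  fun g hg => line_fixed h (p.2 g hg) (q.2 g hg) h1 h2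

/-- A fixed quadrangle makes the fixed points and lines a projective plane. -/
@[reducible] noncomputable def subPlane {H : Subgroup G}
    (hq : Quad L {p : P | ∀ h ∈ H, h • p = p}) :
    Configuration.ProjectivePlane (FixPt P H) (FixPt L H) where
  exists_point l := by
    obtain ⟨a, b, c, d, ha, hb, hc, hd, h1, -⟩ := hq
    by_contra hcon
    push Not at hcon
    exact h1 l.1 (hcon ⟨a, ha⟩) (hcon ⟨b, hb⟩) (hcon ⟨c, hc⟩)
  exists_line p := by
    obtain ⟨a, b, c, d, ha, hb, hc, hd, h1, h2, h3, h4⟩ := hq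
    by_contra hcon
    push Not at hcon
    obtain ⟨k1, k11, k12⟩ := exists_join (L := L) h1.ne
    obtain ⟨k2, k21, k22⟩ := exists_join (L := L) h1.ne'.1
    obtain ⟨k3, k31, k32⟩ := exists_join (L := L) h1.ne'.2
    have m1 := hcon ⟨k1, join_fixed (p := ⟨a, ha⟩) (q := ⟨b, hb⟩) h1.ne k11 k12⟩
    have m2 := hcon ⟨k2, join_fixed (p := ⟨a, ha⟩) (q := ⟨c, hc⟩) h1.ne'.1 k21 k22⟩
    have m3 := hcon ⟨k3, join_fixed (p := ⟨b, hb⟩) (q := ⟨c, hc⟩) h1.ne'.2 k31 k32⟩
    have e12 : p.1 = a := eq_point (fun e : k1 = k2 => h1 k1 k11 k12 (e ▸ k22)) m1 m2 k11 k21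
    have e13 : p.1 = b := eq_point (fun e : k1 = k3 => h1 k1 k11 k12 (e ▸ k32)) m1 m3 k12 k31
    exact h1.ne (e12.symm.trans e13)
  eq_or_eq := fun {p q l m} h1 h2 h3 h4 => by
    rcases Nondegenerate.eq_or_eq (P := P) (L := L) h1 h2 h3 h4 with e | e
    · exact Or.inl (Subtype.ext e)
    · exact Or.inr (Subtype.ext e)
  mkPoint {l m} h :=
    ⟨HasPoints.mkPoint (P := P) (fun e : l.1 = m.1 => h (Subtype.ext e)), fun g hg =>
      point_fixed (fun e : l.1 = m.1 => h (Subtype.ext e)) (l.2 g hg) (m.2 g hg)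
        (HasPoints.mkPoint_ax _).1 (HasPoints.mkPoint_ax _).2⟩
  mkPoint_ax {l m} h := HasPoints.mkPoint_ax (P := P) (fun e : l.1 = m.1 => h (Subtype.ext e))
  mkLine {p q} h :=
    ⟨HasLines.mkLine (L := L) (fun e : p.1 = q.1 => h (Subtype.ext e)),
      join_fixed (fun e : p.1 = q.1 => h (Subtype.ext e)) (HasLines.mkLine_ax _).1
        (HasLines.mkLine_ax _).2⟩
  mkLine_ax {p q} h := HasLines.mkLine_ax (L := L) (fun e : p.1 = q.1 => h (Subtype.ext e))
  exists_config := by
    obtain ⟨a, b, c, d, ha, hb, hc, hd, h1, h2, h3, h4⟩ := hq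
    obtain ⟨k1, k11, k12⟩ := exists_join (L := L) h2.ne'.1
    obtain ⟨k2, k21, k22⟩ := exists_join (L := L) h1.ne'.2
    obtain ⟨k3, k31, k32⟩ := exists_join (L := L) h2.ne'.2
    refine ⟨⟨a, ha⟩, ⟨b, hb⟩, ⟨c, hc⟩,
      ⟨k1, join_fixed (p := ⟨a, ha⟩) (q := ⟨d, hd⟩) h2.ne'.1 k11 k12⟩,
      ⟨k2, join_fixed (p := ⟨b, hb⟩) (q := ⟨c, hc⟩) h1.ne'.2 k21 k22⟩,
      ⟨k3, join_fixed (p := ⟨b, hb⟩) (q := ⟨d, hd⟩) h2.ne'.2 k31 k32⟩,
      fun h => h1 k2 h k21 k22, fun h => h2 k3 h k31 k32, fun h => h2 k1 k11 h k12, k21, k31,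
      fun h => h3 k1 k11 h k12, k22, fun h => h4 k3 k31 h k32⟩

/-- The order of the fixed subplane, as a count of fixed points on a fixed line. -/
theorem card_fixed_on_line {H : Subgroup G} (hq : Quad L {p : P | ∀ h ∈ H, h • p = p}) {l : L}
    (hl : ∀ h ∈ H, h • l = l) :
    Nat.card {p : P // p ∈ l ∧ ∀ h ∈ H, h • p = p} =
      @ProjectivePlane.order (FixPt P H) (FixPt L H) (subMem H) (subPlane hq) + 1 := by
  letI := subPlane hq
  rw [← card_on_line (P := FixPt P H) (⟨l, hl⟩ : FixPt L H)]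
  exact Nat.card_congr
    ⟨fun p => ⟨⟨p.1, p.2.2⟩, p.2.1⟩, fun p => ⟨p.1.1, p.2, p.1.2⟩, fun _ => rfl, fun _ => rfl⟩

theorem card_fixed_on_line_of_inv {g : G} {l : L} :
    Nat.card {p : P // p ∈ l ∧ g • p = p} =
      Nat.card {p : P // p ∈ l ∧ ∀ h ∈ Subgroup.zpowers g, h • p = p} := by
  refine Nat.card_congr (Equiv.subtypeEquivRight fun p => and_congr_right fun _ => ?_)
  exact ⟨fun hp h hh => (Subgroup.zpowers_le.2 (show g ∈ MulAction.stabilizer G p from hp)) hh,
    fun hp => hp g (Subgroup.mem_zpowers g)⟩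

theorem quad_zpowers {g : G} :
    Quad L {p : P | ∀ h ∈ Subgroup.zpowers g, h • p = p} ↔ Quad L {p : P | g • p = p} := by
  have : {p : P | ∀ h ∈ Subgroup.zpowers g, h • p = p} = {p : P | g • p = p} := Set.ext fun p =>
    ⟨fun hp => hp g (Subgroup.mem_zpowers g),
      fun hp h hh => (Subgroup.zpowers_le.2 (show g ∈ MulAction.stabilizer G p from hp)) hh⟩
  rw [this]

/-- An involution fixing a quadrangle fixes a subplane of square root order. -/
theorem Inv.sq_order {g : G} (hg : Inv P g) (hq : Quad L {p : P | g • p = p}) :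
    let hq' : Quad L {p : P | ∀ h ∈ Subgroup.zpowers g, h • p = p} := quad_zpowers.2 hq
    @ProjectivePlane.order (FixPt P (Subgroup.zpowers g)) (FixPt L (Subgroup.zpowers g))
      (subMem _) (subPlane hq') ^ 2 = ProjectivePlane.order P L := by
  intro hq'
  letI := subPlane hq'
  set k := ProjectivePlane.order (FixPt P (Subgroup.zpowers g)) (FixPt L (Subgroup.zpowers g)) with hk
  set n := ProjectivePlane.order P L with hn
  have hfix : ∀ x : P, g • x = x ↔ ∀ h ∈ Subgroup.zpowers g, h • x = x := fun x =>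
    ⟨fun hp h hh => (Subgroup.zpowers_le.2 (show g ∈ MulAction.stabilizer G x from hp)) hh,
      fun hp => hp g (Subgroup.mem_zpowers g)⟩
  have hline : ∀ l : L, g • l = l → Nat.card {p : P // p ∈ l ∧ g • p = p} = k + 1 := fun l hl => by
    rw [card_fixed_on_line_of_inv, card_fixed_on_line hq' fun h hh =>
      (Subgroup.zpowers_le.2 (show g ∈ MulAction.stabilizer G l from hl)) hh]
  set f := Nat.card {p : P // g • p = p} with hf
  have hfk : f = k ^ 2 + k + 1 := by
    rw [hf, Nat.card_congr (Equiv.subtypeEquivRight hfix), Nat.card_eq_fintype_card,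
      ProjectivePlane.card_points (FixPt P (Subgroup.zpowers g)) (FixPt L (Subgroup.zpowers g))]
  -- count the incidences of the fixed points
  have hsum : f * (n + 1) = ∑ l : L, (if g • l = l then k + 1 else 1) := by
    calc f * (n + 1) = ∑ p ∈ Finset.univ.filter (fun p : P => g • p = p),
          (Finset.univ.filter fun l : L => p ∈ l).card := by
          rw [Finset.sum_congr rfl (g := fun _ => n + 1) fun p _ => ?_, Finset.sum_const, smul_eq_mul, hf,
            Nat.card_eq_fintype_card, Fintype.card_subtype]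
          rw [← Fintype.card_subtype, ← Nat.card_eq_fintype_card, card_through]
      _ = ∑ l : L, (Finset.univ.filter fun p : P => p ∈ l ∧ g • p = p).card := by
          simp only [Finset.card_filter]
          rw [Finset.sum_comm]
          refine Finset.sum_congr rfl fun l _ => ?_
          rw [Finset.sum_filter]
          exact Finset.sum_congr rfl fun p _ => by split_ifs <;> simp_all
      _ = _ := by
          refine Finset.sum_congr rfl fun l _ => ?_
          split_ifs with hl
          · rw [← hline l hl, Nat.card_eq_fintype_card, Fintype.card_subtype]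
          · obtain ⟨p, hp, hp'⟩ := hg.fixed_point_on l
            rw [Finset.card_eq_one]
            refine ⟨p, Finset.eq_singleton_iff_unique_mem.2
              ⟨Finset.mem_filter.2 ⟨Finset.mem_univ _, hp, hp'⟩, fun q hq0 => ?_⟩⟩
            obtain ⟨-, h3, h4⟩ := Finset.mem_filter.1 hq0
            by_contra hne
            exact hl (line_fixed hne h4 hp' h3 hp)
  rw [sum_split, ← card_fixed_eq g, ← hf, ProjectivePlane.card_lines P L, ← hn, hfk] at hsum
  -- `k < n` as `g` moves a point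
  have hkn : k ≠ n := by
    intro hkn
    apply hg.2
    have : f = Fintype.card P := by rw [hfk, hkn, ProjectivePlane.card_points P L]
    intro p
    by_contra hp
    have hlt : f < Fintype.card P := by
      rw [hf, Nat.card_eq_fintype_card]
      exact Fintype.card_subtype_lt hp
    omega
  have h1 : ((k ^ 2 + k + 1) * (n + 1) : ℤ) = k * (k ^ 2 + k + 1) + (n ^ 2 + n + 1) := by
    exact_mod_cast hsum
  have h2 : ((n : ℤ) - k) * ((k : ℤ) ^ 2 - n) = 0 := by linear_combination h1
  rcases mul_eq_zero.1 h2 with h3 | h3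
  · exact absurd (by omega) hkn
  · exact_mod_cast (sub_eq_zero.1 h3)

/-- The same on a fixed subplane. -/
theorem sq_order_sub {K H : Subgroup G} (hKH : K ≤ H) (hK : ∀ x ∈ H, x * x ∈ K)
    (hnorm : ∀ x ∈ H, ∀ y ∈ K, x * y * x⁻¹ ∈ K) {x : G} (hx : x ∈ H) (hgen : H ≤ K ⊔ Subgroup.zpowers x)
    (hqK : Quad L {p : P | ∀ h ∈ K, h • p = p}) (hqH : Quad L {p : P | ∀ h ∈ H, h • p = p}) :
    @ProjectivePlane.order (FixPt P K) (FixPt L K) (subMem K) (subPlane hqK) =
        @ProjectivePlane.order (FixPt P H) (FixPt L H) (subMem H) (subPlane hqH) ∨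
      @ProjectivePlane.order (FixPt P K) (FixPt L K) (subMem K) (subPlane hqK) =
        @ProjectivePlane.order (FixPt P H) (FixPt L H) (subMem H) (subPlane hqH) ^ 2 := by
  letI := subPlane hqK
  -- the action of the powers of `x` on the plane of `K`
  let N : Subgroup G := Subgroup.zpowers x
  have hinv : ∀ n ∈ N, ∀ {α : Type _} [MulAction G α] (p : α), (∀ h ∈ K, h • p = p) →
      ∀ h ∈ K, h • n • p = n • p := by
    intro n hn α _ p hp h hh
    have hnH : n ∈ H := Subgroup.zpowers_le.2 hx hn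
    have h1 := hnorm n⁻¹ (H.inv_mem hnH) h hh
    rw [inv_inv] at h1
    calc h • n • p = n • (n⁻¹ * h * n) • p := by rw [← mul_smul, ← mul_smul]; group
      _ = n • p := by rw [hp _ h1]
  letI : MulAction N (FixPt P K) :=
    { smul := fun n p => ⟨(n : G) • p.1, hinv n n.2 p.1 p.2⟩
      one_smul := fun p => Subtype.ext (one_smul G p.1)
      mul_smul := fun m n p => Subtype.ext (mul_smul (m : G) n p.1) }
  have hinvL : ∀ n ∈ N, ∀ (l : L), (∀ h ∈ K, h • l = l) → ∀ h ∈ K, h • n • l = n • l := by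
    intro n hn l hl h hh
    have hnH : n ∈ H := Subgroup.zpowers_le.2 hx hn
    have h1 := hnorm n⁻¹ (H.inv_mem hnH) h hh
    rw [inv_inv] at h1
    calc h • n • l = n • (n⁻¹ * h * n) • l := by rw [← mul_smul, ← mul_smul]; group
      _ = n • l := by rw [hl _ h1]
  letI : MulAction N (FixPt L K) :=
    { smul := fun n l => ⟨(n : G) • l.1, hinvL n n.2 l.1 l.2⟩
      one_smul := fun l => Subtype.ext (one_smul G l.1)
      mul_smul := fun m n l => Subtype.ext (mul_smul (m : G) n l.1) }
  haveI : IncAct N (FixPt P K) (FixPt L K) :=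
    ⟨fun n p l => IncAct.smul_mem_smul (n : G) p.1 l.1⟩
  set g : N := ⟨x, Subgroup.mem_zpowers x⟩ with hgdef
  have hHfix : ∀ p : P, (∀ h ∈ K, h • p = p) → x • p = p → ∀ h ∈ H, h • p = p := by
    intro p h1 h2 h hh
    have hle : K ⊔ Subgroup.zpowers x ≤ MulAction.stabilizer G p :=
      sup_le h1 (Subgroup.zpowers_le.2 h2)
    exact hle (hgen hh)
  have hHfixL : ∀ l : L, (∀ h ∈ K, h • l = l) → x • l = l → ∀ h ∈ H, h • l = l := by
    intro l h1 h2 h hh
    have hle : K ⊔ Subgroup.zpowers x ≤ MulAction.stabilizer G l :=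
      sup_le h1 (Subgroup.zpowers_le.2 h2)
    exact hle (hgen hh)
  obtain ⟨a, b, c, d, ha, hb, hc, hd, h1, h2, h3, h4⟩ := id hqH
  have hqg : Quad (FixPt L K) {p : FixPt P K | g • p = p} :=
    ⟨⟨a, fun h hh => ha h (hKH hh)⟩, ⟨b, fun h hh => hb h (hKH hh)⟩, ⟨c, fun h hh => hc h (hKH hh)⟩,
      ⟨d, fun h hh => hd h (hKH hh)⟩, Subtype.ext (ha x hx), Subtype.ext (hb x hx),
      Subtype.ext (hc x hx), Subtype.ext (hd x hx), fun l => h1 l.1, fun l => h2 l.1, fun l => h3 l.1,
      fun l => h4 l.1⟩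
  obtain ⟨kab, hka, hkb⟩ := exists_join (L := L) h1.ne
  have hkH : ∀ h ∈ H, h • kab = kab := fun h hh => line_fixed h1.ne (ha h hh) (hb h hh) hka hkb
  have hcH : Nat.card {p : FixPt P K // p ∈ (⟨kab, fun h hh => hkH h (hKH hh)⟩ : FixPt L K) ∧ g • p = p} =
      @ProjectivePlane.order (FixPt P H) (FixPt L H) (subMem H) (subPlane hqH) + 1 := by
    rw [← card_fixed_on_line hqH hkH]
    exact Nat.card_congr ⟨fun p => ⟨p.1.1, p.2.1, hHfix p.1.1 p.1.2 (congrArg Subtype.val p.2.2)⟩,
      fun p => ⟨⟨p.1, fun h hh => p.2.2 h (hKH hh)⟩, p.2.1, Subtype.ext (p.2.2 x hx)⟩,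
      fun _ => rfl, fun _ => rfl⟩
  by_cases htriv : Triv (FixPt P K) g
  · left
    have := card_on_line (P := FixPt P K) (⟨kab, fun h hh => hkH h (hKH hh)⟩ : FixPt L K)
    rw [← Nat.card_congr (Equiv.subtypeEquivRight fun p => and_iff_left (htriv p))] at this
    exact Nat.add_right_cancel (this.symm.trans hcH)
  · right
    have hg : Inv (FixPt P K) g := ⟨fun p => Subtype.ext (by
      show x • x • p.1 = p.1
      rw [← mul_smul, p.2 _ (hK x hx)]), htriv⟩
    have hsq := hg.sq_order hqg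
    have hl : g • (⟨kab, fun h hh => hkH h (hKH hh)⟩ : FixPt L K) = ⟨kab, fun h hh => hkH h (hKH hh)⟩ :=
      Subtype.ext (hkH x hx)
    rw [card_fixed_on_line_of_inv, card_fixed_on_line (quad_zpowers.2 hqg) fun h hh =>
      (Subgroup.zpowers_le.2 (show g ∈ MulAction.stabilizer N _ from hl)) hh] at hcH
    rw [← hsq, Nat.add_right_cancel hcH]

/-- A `2`-group fixing a quadrangle fixes a subplane of order a `2 ^ i`-th root. -/
theorem pow_order [Finite G] (H : Subgroup G) (hH : IsPGroup 2 H)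
    (hq : Quad L {p : P | ∀ h ∈ H, h • p = p}) :
    ∃ i : ℕ, @ProjectivePlane.order (FixPt P H) (FixPt L H) (subMem H) (subPlane hq) ^ 2 ^ i =
      ProjectivePlane.order P L := by
  induction H using WellFoundedLT.induction with
  | ind H ih =>
    haveI : Fact (Nat.Prime 2) := ⟨Nat.prime_two⟩
    obtain ⟨j, hj⟩ := IsPGroup.iff_card.1 hH
    rcases j with _ | j
    · refine ⟨0, ?_⟩
      rw [pow_zero, pow_one]
      have hbot : H = ⊥ := Subgroup.eq_bot_of_card_eq H hj
      obtain ⟨a, b, c, d, ha, hb, hc, hd, h1, -⟩ := id hq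
      obtain ⟨l, -, -⟩ := exists_join (L := L) h1.ne
      have e := card_fixed_on_line hq (l := l) (fun h hh => by
        rw [hbot, Subgroup.mem_bot] at hh; rw [hh, one_smul])
      rw [Nat.card_congr (Equiv.subtypeEquivRight fun p => and_iff_left (show ∀ h ∈ H, h • p = p from
        fun h hh => by rw [hbot, Subgroup.mem_bot] at hh; rw [hh, one_smul])), card_on_line] at e
      omega
    · obtain ⟨K₀, hK₀⟩ := Sylow.exists_subgroup_card_pow_prime 2 (G := H) (n := j)
        (hj ▸ pow_dvd_pow 2 (Nat.le_succ j))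
      have hidx : K₀.index = 2 := by
        have := K₀.card_mul_index
        rw [hK₀, hj, pow_succ] at this
        exact Nat.eq_of_mul_eq_mul_left (by positivity) this
      haveI := Subgroup.normal_of_index_eq_two hidx
      set K := K₀.map H.subtype with hKdef
      have hKH : K ≤ H := Subgroup.map_subtype_le _
      have hmem : ∀ (y : G) (hy : y ∈ H), y ∈ K ↔ (⟨y, hy⟩ : H) ∈ K₀ := by
        intro y hy
        constructor
        · rintro ⟨z, hz, hz'⟩
          have : z = ⟨y, hy⟩ := Subtype.ext hz'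
          exact this ▸ hz
        · exact fun hm => ⟨⟨y, hy⟩, hm, rfl⟩
      obtain ⟨x, hxH, hxK⟩ : ∃ x ∈ H, x ∉ K := by
        by_contra hcon
        push Not at hcon
        have h1 : Nat.card K = 2 ^ j := by
          rw [hKdef, Subgroup.card_map_of_injective H.subtype_injective, hK₀]
        rw [le_antisymm hKH hcon, hj, pow_succ] at h1
        have := Nat.two_pow_pos j
        omega
      have hlt : K < H := lt_of_le_of_ne hKH fun e => hxK (e.symm ▸ hxH)
      have hsq : ∀ y ∈ H, y * y ∈ K := fun y hy => by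
        rw [hmem _ (H.mul_mem hy hy)]
        exact Subgroup.mul_self_mem_of_index_two hidx ⟨y, hy⟩
      have hnorm : ∀ y ∈ H, ∀ z ∈ K, y * z * y⁻¹ ∈ K := fun y hy z hz => by
        have hzH := hKH hz
        rw [hmem _ (H.mul_mem (H.mul_mem hy hzH) (H.inv_mem hy))]
        exact (inferInstance : K₀.Normal).conj_mem _ ((hmem z hzH).1 hz) ⟨y, hy⟩
      have hgen : H ≤ K ⊔ Subgroup.zpowers x := by
        intro y hy
        by_cases hyK : y ∈ K
        · exact Subgroup.mem_sup_left hyK
        · have hyx : y * x⁻¹ ∈ K := by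
            rw [hmem _ (H.mul_mem hy (H.inv_mem hxH))]
            have := (Subgroup.mul_mem_iff_of_index_two hidx (a := (⟨y, hy⟩ : H))
              (b := (⟨x, hxH⟩ : H)⁻¹)).2
            refine this ?_
            rw [inv_mem_iff, ← hmem y hy, ← hmem x hxH]
            exact iff_of_false hyK hxK
          have := Subgroup.mul_mem_sup hyx (Subgroup.mem_zpowers x)
          rwa [inv_mul_cancel_right] at this
      have hqK : Quad L {p : P | ∀ h ∈ K, h • p = p} := by
        obtain ⟨a, b, c, d, ha, hb, hc, hd, hh⟩ := hq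
        exact ⟨a, b, c, d, fun h hh => ha h (hKH hh), fun h hh => hb h (hKH hh),
          fun h hh => hc h (hKH hh), fun h hh => hd h (hKH hh), hh⟩
      obtain ⟨i, hi⟩ := ih K hlt (hH.to_le hKH) hqK
      rcases sq_order_sub hKH hsq hnorm hxH hgen hqK hq with e | e
      · exact ⟨i, by rw [← e, hi]⟩
      · exact ⟨i + 1, by rw [← hi, e, ← pow_mul, pow_succ']⟩

end CfsgLib.MetacyclicP.OstromWagner
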