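import Cfsg.Agent.Lib.MetacyclicP.OstromWagner.Homology
import Cfsg.Agent.Lib.MetacyclicP.OstromWagner.Subplane

/-!
# A doubly transitive collineation group contains a perspectivity
-/

set_option autoImplicit false
set_option linter.style.haveILetI false
set_option linter.unusedSectionVars false

namespace CfsgLib.MetacyclicP.OstromWagner

open Configuration
open scoped Classical

/-- The collineation group. -/
def Coll (P L : Type*) [Membership P L] : Subgroup (Equiv.Perm P × Equiv.Perm L) where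
  carrier := {g | ∀ p l, g.1 p ∈ g.2 l ↔ p ∈ l}
  one_mem' _ _ := Iff.rfl
  mul_mem' {g h} hg hh p l := (hg (h.1 p) (h.2 l)).trans (hh p l)
  inv_mem' {g} hg p l := by
    have := (hg (g.1⁻¹ p) (g.2⁻¹ l)).symm
    simpa using this

section Coll

variable (P L : Type*) [Membership P L]

instance collActPoints : MulAction (Coll P L) P where
  smul g p := g.1.1 p
  one_smul _ := rfl
  mul_smul _ _ _ := rfl

instance collActLines : MulAction (Coll P L) L where
  smul g l := g.1.2 l
  one_smul _ := rfl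
  mul_smul _ _ _ := rfl

instance collIncAct : IncAct (Coll P L) P L := ⟨fun g p l => g.2 p l⟩

instance collFaithful [Configuration.ProjectivePlane P L] [Fintype P] [Fintype L] :
    FaithfulSMul (Coll P L) P := by
  refine ⟨fun {g g'} h => ?_⟩
  have ht : Triv P (g'⁻¹ * g) := fun p => by rw [mul_smul, h p, inv_smul_smul]
  apply Subtype.ext
  refine Prod.ext (Equiv.ext h) (Equiv.ext fun l => ?_)
  have := Triv.line ht l
  rw [mul_smul, inv_smul_eq_iff] at this
  exact this

end Coll

variable {P L : Type*} [Membership P L] [Configuration.ProjectivePlane P L] [Fintype P] [Fintype L]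
variable {G : Type*} [Group G] [MulAction G P] [MulAction G L] [IncAct G P L]

theorem card_points_not_on (l : L) :
    (Finset.univ.filter fun q : P => q ∉ l).card = ProjectivePlane.order P L ^ 2 := by
  have h := Finset.card_filter_add_card_filter_not (s := (Finset.univ : Finset P)) (fun q => q ∈ l)
  have h1 : (Finset.univ.filter fun q : P => q ∈ l).card = ProjectivePlane.order P L + 1 := by
    rw [← Fintype.card_subtype, ← Nat.card_eq_fintype_card, card_on_line]
  rw [h1, Finset.card_univ, ProjectivePlane.card_points P L] at h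
  omega

theorem card_mul_stab {α : Type*} [Fintype α] [MulAction G α] (H : Subgroup G) (x : α) (S : Finset α)
    (hS : ∀ u, u ∈ S ↔ ∃ h ∈ H, h • x = u) :
    Nat.card H = S.card * Nat.card (H ⊓ MulAction.stabilizer G x : Subgroup G) := by
  rw [← Subgroup.index_mul_card (MulAction.stabilizer H x), MulAction.index_stabilizer]
  congr 1
  · have he : MulAction.orbit H x = ↑S := by
      ext u
      rw [Finset.mem_coe, hS]
      exact ⟨fun ⟨h, hh⟩ => ⟨h, h.2, hh⟩, fun ⟨h, hh, e⟩ => ⟨⟨h, hh⟩, e⟩⟩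
    rw [he, Set.ncard_coe_finset]
  · exact Nat.card_congr ⟨fun h => ⟨h.1.1, h.1.2, h.2⟩, fun h => ⟨⟨h.1, h.2.1⟩, h.2.2⟩, fun _ => rfl,
      fun _ => rfl⟩

section DoublyTransitive

variable (h2t : ∀ p₁ p₂ q₁ q₂ : P, p₁ ≠ p₂ → q₁ ≠ q₂ → ∃ g : G, g • p₁ = q₁ ∧ g • p₂ = q₂)

include h2t

variable (L) in
include L in
theorem exists_smul_point (p q : P) : ∃ g : G, g • p = q := by
  obtain ⟨l, hl⟩ := Nondegenerate.exists_line (P := P) (L := L) p
  obtain ⟨p', hp', -⟩ := exists_third l p p
  obtain ⟨m, hm⟩ := Nondegenerate.exists_line (P := P) (L := L) q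
  obtain ⟨q', hq', -⟩ := exists_third m q q
  obtain ⟨g, hg, -⟩ := h2t p p' q q' (fun e => hl (e ▸ hp')) (fun e => hm (e ▸ hq'))
  exact ⟨g, hg⟩

theorem exists_smul_flag {p q : P} {l m : L} (hp : p ∈ l) (hq : q ∈ m) :
    ∃ g : G, g • p = q ∧ g • l = m := by
  obtain ⟨p', hp', hpp, -⟩ := exists_third l p p
  obtain ⟨q', hq', hqq, -⟩ := exists_third m q q
  obtain ⟨g, h1, h2⟩ := h2t p p' q q' (Ne.symm hpp) (Ne.symm hqq)
  exact ⟨g, h1, eq_line (Ne.symm hqq) (h1 ▸ mem_smul_of_mem g hp) (h2 ▸ mem_smul_of_mem g hp') hq hq'⟩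

theorem exists_smul_line (l m : L) : ∃ g : G, g • l = m := by
  obtain ⟨x, -, -⟩ := @ProjectivePlane.exists_config P L _ _
  obtain ⟨p, hp, -⟩ := exists_third l x x
  obtain ⟨q, hq, -⟩ := exists_third m x x
  obtain ⟨g, -, hg⟩ := exists_smul_flag h2t hp hq
  exact ⟨g, hg⟩

theorem exists_smul_antiflag [Finite G] {p q : P} {l m : L} (hp : p ∉ l) (hq : q ∉ m) :
    ∃ g : G, g • p = q ∧ g • l = m := by
  haveI := Fintype.ofFinite G
  obtain ⟨s, hs⟩ := exists_smul_point L h2t p q
  have hqs : q ∉ s • l := fun h => hp (by rwa [← hs, IncAct.smul_mem_smul] at h)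
  suffices key : ∀ m', q ∉ m' → ∃ t : G, t • q = q ∧ t • m' = m by
    obtain ⟨t, ht, htl⟩ := key _ hqs
    exact ⟨t * s, by rw [mul_smul, hs, ht], by rw [mul_smul, htl]⟩
  intro m' hm'
  let H : Subgroup G := MulAction.stabilizer G q
  have hfix : ∀ h : H, Fintype.card (MulAction.fixedBy P h) = Fintype.card (MulAction.fixedBy L h) := by
    intro h
    rw [← Nat.card_eq_fintype_card, ← Nat.card_eq_fintype_card]
    exact card_fixed_eq (P := P) (L := L) (h : G)
  have eP := MulAction.sum_card_fixedBy_eq_card_orbits_mul_card_group H P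
  have eL := MulAction.sum_card_fixedBy_eq_card_orbits_mul_card_group H L
  rw [Finset.sum_congr rfl fun h _ => hfix h, eL] at eP
  have hcard := Nat.eq_of_mul_eq_mul_right Fintype.card_pos eP
  obtain ⟨q', hq', -⟩ := exists_third m q q
  have hne : q' ≠ q := fun e => hq (e ▸ hq')
  have hP : Fintype.card (Quotient (MulAction.orbitRel H P)) ≤ 2 := by
    refine le_trans (Finset.card_le_card (s := Finset.univ) (t := {Quotient.mk'' q, Quotient.mk'' q'})
      fun u _ => ?_) Finset.card_le_two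
    induction u using Quotient.inductionOn' with
    | h u =>
      rw [Finset.mem_insert, Finset.mem_singleton]
      by_cases hu : u = q
      · exact Or.inl (by rw [hu])
      · right
        obtain ⟨g, h1, h2⟩ := h2t q q' q u (Ne.symm hne) (Ne.symm hu)
        exact Quotient.sound' ⟨⟨g, h1⟩, h2⟩
  obtain ⟨k, hqk, -⟩ := exists_join (L := L) (Ne.symm hne)
  by_contra hcon
  push Not at hcon
  have h1 : (Quotient.mk'' m' : Quotient (MulAction.orbitRel H L)) ≠ Quotient.mk'' m := fun e => by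
    obtain ⟨h, hh⟩ := Quotient.exact' e.symm
    exact hcon h h.2 hh
  have h2 : ∀ u : L, q ∉ u →
      (Quotient.mk'' u : Quotient (MulAction.orbitRel H L)) ≠ Quotient.mk'' k := fun u hu e => by
    obtain ⟨h, hh⟩ := Quotient.exact' e
    have h3 := mem_smul_of_mem (h : G) hqk
    rw [show (h : G) • q = q from h.2, show (h : G) • k = u from hh] at h3
    exact hu h3
  have h3 := Finset.card_le_univ
    ({Quotient.mk'' m', Quotient.mk'' m, Quotient.mk'' k} : Finset (Quotient (MulAction.orbitRel H L)))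
  have h4 : ({Quotient.mk'' m', Quotient.mk'' m, Quotient.mk'' k} :
      Finset (Quotient (MulAction.orbitRel H L))).card = 3 :=
    Finset.card_eq_three.2 ⟨_, _, _, h1, h2 m' hm', h2 m hq, rfl⟩
  omega

theorem card_group {p q : P} (h : p ≠ q) :
    Nat.card G = Fintype.card P * ((ProjectivePlane.order P L ^ 2 + ProjectivePlane.order P L) *
      Nat.card (MulAction.stabilizer G p ⊓ MulAction.stabilizer G q : Subgroup G)) := by
  rw [← Subgroup.card_top, card_mul_stab ⊤ p Finset.univ (fun u =>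
      iff_of_true (Finset.mem_univ u) (let ⟨g, hg⟩ := exists_smul_point L h2t p u; ⟨g, Subgroup.mem_top g, hg⟩)),
    top_inf_eq, Finset.card_univ, card_mul_stab (MulAction.stabilizer G p) q (Finset.univ.erase p)]
  · rw [Finset.card_erase_of_mem (Finset.mem_univ p), Finset.card_univ,
      ProjectivePlane.card_points P L, Nat.add_sub_cancel]
  · intro u
    constructor
    · intro hu
      obtain ⟨g, h1, h2⟩ := h2t p q p u h (Ne.symm (Finset.ne_of_mem_erase hu))
      exact ⟨g, h1, h2⟩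
    · rintro ⟨g, h1, rfl⟩
      exact Finset.mem_erase.2 ⟨fun e => h (MulAction.injective g
        ((show g • p = p from h1).trans e.symm)), Finset.mem_univ _⟩

theorem card_group_line [Finite G] {d : P} {M : L} (h : d ∉ M) :
    Nat.card G = Fintype.card P * (ProjectivePlane.order P L ^ 2 *
      Nat.card (MulAction.stabilizer G M ⊓ MulAction.stabilizer G d : Subgroup G)) := by
  rw [← Subgroup.card_top, card_mul_stab ⊤ M Finset.univ (fun u =>
      iff_of_true (Finset.mem_univ u) (let ⟨g, hg⟩ := exists_smul_line h2t M u; ⟨g, Subgroup.mem_top g, hg⟩)),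
    top_inf_eq, Finset.card_univ, ← ProjectivePlane.card_points_eq_card_lines P L,
    card_mul_stab (MulAction.stabilizer G M) d (Finset.univ.filter fun u => u ∉ M),
    card_points_not_on]
  intro u
  constructor
  · intro hu
    obtain ⟨g, h1, h2⟩ := exists_smul_antiflag h2t h (Finset.mem_filter.1 hu).2
    exact ⟨g, h2, h1⟩
  · rintro ⟨g, h1, rfl⟩
    exact Finset.mem_filter.2 ⟨Finset.mem_univ _, fun hm => h (by
      rwa [← show g • M = M from h1, IncAct.smul_mem_smul] at hm)⟩

variable [Finite G] [FaithfulSMul G P] (hno : ∀ (g : G) (a : L), IsAxis P g a → g = 1)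

variable (L) in
include L in
theorem even_card : 2 ∣ Nat.card G := by
  obtain ⟨p, -⟩ := @ProjectivePlane.exists_config P L _ _
  obtain ⟨l, hl⟩ := Nondegenerate.exists_line (P := P) (L := L) p
  obtain ⟨q, hq, -⟩ := exists_third l p p
  rw [card_group (L := L) h2t (show p ≠ q from fun e => hl (e ▸ hq))]
  refine Dvd.dvd.mul_left (Dvd.dvd.mul_right ?_ _) _
  have := Nat.even_mul_succ_self (ProjectivePlane.order P L)
  rw [pow_two, show ∀ n, n * n + n = n * (n + 1) from fun n => by ring]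
  exact even_iff_two_dvd.1 this

include hno

theorem quad_of_inv {g : G} (hg : Inv P g) : Quad L {p : P | g • p = p} := by
  by_contra hnq
  obtain ⟨a, ha⟩ := hg.exists_axis_of_no_quad hnq
  exact hg.2 fun p => by rw [hno g a ha, one_smul]

theorem odd_order : Odd (ProjectivePlane.order P L) := by
  haveI : Fact (Nat.Prime 2) := ⟨Nat.prime_two⟩
  by_contra hodd
  obtain ⟨S⟩ : Nonempty (Sylow 2 G) := inferInstance
  obtain ⟨p, hp⟩ := S.isPGroup'.nonempty_fixed_point_of_prime_not_dvd_card P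
    (by rw [Nat.card_eq_fintype_card]; have := card_points_odd P L; omega)
  have hcardS : Nat.card S = 2 ^ (Nat.card G).factorization 2 := S.card_eq_multiplicity
  have hpos : 0 < (Nat.card G).factorization 2 :=
    Nat.prime_two.factorization_pos_of_dvd Nat.card_pos.ne' (even_card L h2t)
  haveI : Nontrivial S := Finite.one_lt_card_iff_nontrivial.1 (by
    rw [hcardS]; exact Nat.one_lt_two_pow hpos.ne')
  have hcen : 2 ∣ Nat.card (Subgroup.center S) := by
    obtain ⟨e, he⟩ := IsPGroup.iff_card.1 (S.isPGroup'.to_subgroup (Subgroup.center S))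
    haveI := S.isPGroup'.center_nontrivial
    have h1 : 1 < Nat.card (Subgroup.center S) := Finite.one_lt_card
    rcases e with _ | e
    · omega
    · exact ⟨2 ^ e, by rw [he, pow_succ']⟩
  obtain ⟨⟨⟨z, hzS⟩, hzc⟩, hord⟩ := exists_prime_orderOf_dvd_card' 2 hcen
  rw [Subgroup.orderOf_mk, Subgroup.orderOf_mk] at hord
  obtain ⟨hz2, hz1⟩ := orderOf_eq_prime_iff.1 hord
  have hzinv : Inv P z :=
    ⟨fun u => by rw [← mul_smul, ← pow_two, hz2, one_smul], fun ht => hz1 (eq_one_of_triv ht)⟩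
  have hcomm : ∀ s ∈ (S : Subgroup G), z * s = s * z := fun s hs =>
    (congrArg Subtype.val (Subgroup.mem_center_iff.1 hzc ⟨s, hs⟩)).symm
  have hqz := quad_zpowers.2 (quad_of_inv h2t hno hzinv)
  have hsq := hzinv.sq_order (quad_of_inv h2t hno hzinv)
  letI := subPlane hqz
  set m := @ProjectivePlane.order (FixPt P (Subgroup.zpowers z)) (FixPt L (Subgroup.zpowers z))
    (subMem _) (subPlane hqz) with hm
  set n := ProjectivePlane.order P L with hn
  have hmn : m ^ 2 = n := hsq
  have hm1 : 1 < m := ProjectivePlane.one_lt_order _ _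
  obtain ⟨f, o, ho, hfo⟩ : ∃ f o, ¬ 2 ∣ o ∧ m = 2 ^ f * o :=
    Nat.exists_eq_pow_mul_and_not_dvd (by omega) 2 (by decide)
  have hf : f ≠ 0 := by
    intro hf
    rw [hf, pow_zero, one_mul] at hfo
    exact hodd (hmn ▸ (Nat.not_even_iff_odd.1 fun he => ho (hfo ▸ even_iff_two_dvd.1 he)).pow)
  -- the fixed points of `z` other than `p`
  let Ω : SubMulAction S P :=
    { carrier := {u | z • u = u ∧ u ≠ p}
      smul_mem' := fun s u ⟨h1, h2⟩ => ⟨by
        show z • (s : G) • u = (s : G) • u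
        rw [← mul_smul, hcomm s s.2, mul_smul, h1], fun e => h2 (MulAction.injective (s : G)
          (e.trans (hp s).symm))⟩ }
  have hΩ : Nat.card Ω = m ^ 2 + m := by
    have h1 : Nat.card {u : P // z • u = u} = m ^ 2 + m + 1 := by
      have hfix : ∀ u : P, z • u = u ↔ ∀ h ∈ Subgroup.zpowers z, h • u = u := fun u =>
        ⟨fun hu h hh => (Subgroup.zpowers_le.2 (show z ∈ MulAction.stabilizer G u from hu)) hh,
          fun hu => hu z (Subgroup.mem_zpowers z)⟩
      rw [Nat.card_congr (Equiv.subtypeEquivRight hfix), Nat.card_eq_fintype_card,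
        ProjectivePlane.card_points (FixPt P (Subgroup.zpowers z)) (FixPt L (Subgroup.zpowers z))]
    rw [Nat.card_eq_fintype_card, Fintype.card_subtype] at h1
    have hzp : z • p = p := hp ⟨z, hzS⟩
    have hmem : p ∈ Finset.univ.filter fun u : P => z • u = u :=
      Finset.mem_filter.2 ⟨Finset.mem_univ _, hzp⟩
    have h2 : Nat.card Ω = ((Finset.univ.filter fun u : P => z • u = u).erase p).card := by
      show Nat.card {u : P // z • u = u ∧ u ≠ p} = _
      rw [Nat.card_eq_fintype_card, Fintype.card_subtype]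
      congr 1
      ext; simp [and_comm]
    rw [h2, Finset.card_erase_of_mem hmem, h1]
    rfl
  have hd : 2 ^ (2 * f) ∣ Nat.card Ω := by
    rw [Nat.card_congr (MulAction.selfEquivSigmaOrbits S Ω), Nat.card_sigma]
    refine Finset.dvd_sum fun ω _ => ?_
    rw [show Nat.card (MulAction.orbit S ω.out) = (MulAction.stabilizer S ω.out).index by
      rw [MulAction.index_stabilizer]; rfl]
    set q : P := (ω.out : P) with hq
    have hqp : p ≠ q := Ne.symm ω.out.2.2
    set B := MulAction.stabilizer S ω.out with hB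
    obtain ⟨b, hb⟩ := IsPGroup.iff_card.1 (S.isPGroup'.to_subgroup B)
    have hle : B.map (S : Subgroup G).subtype ≤ MulAction.stabilizer G p ⊓ MulAction.stabilizer G q := by
      rintro _ ⟨s, hs, rfl⟩
      exact ⟨hp s, congrArg Subtype.val (show s • ω.out = ω.out from hs)⟩
    have hdvd : 2 ^ b ∣ Nat.card (MulAction.stabilizer G p ⊓ MulAction.stabilizer G q : Subgroup G) := by
      rw [← hb, ← Subgroup.card_map_of_injective (S : Subgroup G).subtype_injective]
      exact Subgroup.card_dvd_of_le hle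
    have h3 : 2 ^ (2 * f + b) ∣ Nat.card G := by
      rw [card_group (L := L) h2t hqp, pow_add, ← hn, ← hmn, hfo]
      refine Dvd.dvd.mul_left (Nat.mul_dvd_mul ?_ hdvd) _
      exact Nat.dvd_add (Dvd.dvd.pow ⟨o ^ 2, by ring⟩ two_ne_zero) ⟨o ^ 2, by ring⟩
    have hab := (Nat.prime_two.pow_dvd_iff_le_factorization Nat.card_pos.ne').1 h3
    have h4 := Subgroup.card_mul_index B
    rw [hb, hcardS] at h4
    refine Nat.dvd_of_mul_dvd_mul_left (Nat.two_pow_pos b) ?_
    rw [h4, ← pow_add]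
    exact pow_dvd_pow 2 (by omega)
  rw [hΩ, hfo, show (2 ^ f * o) ^ 2 + 2 ^ f * o = 2 ^ f * (o * (2 ^ f * o + 1)) by ring,
    two_mul, pow_add] at hd
  have h5 : 2 ∣ o * (2 ^ f * o + 1) :=
    (dvd_pow_self 2 hf).trans (Nat.dvd_of_mul_dvd_mul_left (Nat.two_pow_pos f) hd)
  rcases Nat.prime_two.dvd_mul.1 h5 with h | h
  · exact ho h
  · have h6 : 2 ∣ 2 ^ f * o := (dvd_pow_self 2 hf).mul_right o
    omega

omit h2t hno in
/-- A `2`-group strictly above `U` normalises `U` by an element squaring into `U`. -/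
theorem exists_normalizing {U U' : Subgroup G} (hU' : IsPGroup 2 U') (h : U < U') :
    ∃ w ∈ U', w ∉ U ∧ w * w ∈ U ∧ ∀ u, u ∈ U ↔ w * u * w⁻¹ ∈ U := by
  haveI : Fact (Nat.Prime 2) := ⟨Nat.prime_two⟩
  haveI := hU'.isNilpotent
  have hlt : U.subgroupOf U' < ⊤ := by
    rw [lt_top_iff_ne_top, ne_eq, Subgroup.subgroupOf_eq_top]
    exact not_le_of_gt h
  obtain ⟨⟨w, hw⟩, hwN, hwU⟩ := SetLike.exists_of_lt (Group.normalizerCondition_of_isNilpotent _ hlt)
  rw [Subgroup.mem_subgroupOf] at hwU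
  have hnorm : ∀ u, u ∈ U ↔ w * u * w⁻¹ ∈ U := by
    intro u
    constructor
    · intro hu
      exact (Subgroup.mem_normalizer_iff.1 hwN ⟨u, h.le hu⟩).1 hu
    · intro hu
      have huU' : u ∈ U' := by
        have := U'.mul_mem (U'.mul_mem (U'.inv_mem hw) (h.le hu)) hw
        simpa [mul_assoc] using this
      exact (Subgroup.mem_normalizer_iff.1 hwN ⟨u, huU'⟩).2 hu
  obtain ⟨j, hj⟩ := hU' ⟨w, hw⟩
  have hex : ∃ i, w ^ 2 ^ i ∈ U :=
    ⟨j, by rw [show w ^ 2 ^ j = 1 from congrArg Subtype.val hj]; exact U.one_mem⟩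
  have hi : Nat.find hex ≠ 0 := fun e => hwU (by
    have := Nat.find_spec hex; rwa [e, pow_zero, pow_one] at this)
  obtain ⟨i, hi⟩ := Nat.exists_eq_succ_of_ne_zero hi
  refine ⟨w ^ 2 ^ i, U'.pow_mem hw _, fun hm => ?_, ?_, ?_⟩
  · have := Nat.find_min' hex hm
    omega
  · have := Nat.find_spec hex
    rwa [hi, pow_succ, mul_two, pow_add] at this
  · have hwM : w ∈ Subgroup.normalizer (U : Set G) := Subgroup.mem_normalizer_iff.2 hnorm
    exact Subgroup.mem_normalizer_iff.1 (pow_mem hwM _)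

omit hno in
variable (L) in
include L in
theorem card_pair_eq {p q p' q' : P} (h : p ≠ q) (h' : p' ≠ q') :
    Nat.card (MulAction.stabilizer G p ⊓ MulAction.stabilizer G q : Subgroup G) =
      Nat.card (MulAction.stabilizer G p' ⊓ MulAction.stabilizer G q' : Subgroup G) := by
  have h1 := (card_group (L := L) h2t h).symm.trans (card_group (L := L) h2t h')
  have hn := ProjectivePlane.one_lt_order P L
  refine Nat.eq_of_mul_eq_mul_left (by positivity) (Nat.eq_of_mul_eq_mul_left ?_ h1)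
  exact Fintype.card_pos_iff.2 ⟨p⟩

theorem isPrimePow_order : IsPrimePow (ProjectivePlane.order P L) := by
  haveI : Fact (Nat.Prime 2) := ⟨Nat.prime_two⟩
  haveI := Fintype.ofFinite G
  have hn : Odd (ProjectivePlane.order P L) := odd_order h2t hno
  obtain ⟨g, hg⟩ := exists_prime_orderOf_dvd_card' 2 (even_card L h2t)
  obtain ⟨hg2, hg1⟩ := orderOf_eq_prime_iff.1 hg
  have hginv : Inv P g :=
    ⟨fun u => by rw [← mul_smul, ← pow_two, hg2, one_smul], fun ht => hg1 (eq_one_of_triv ht)⟩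
  have hmem : Subgroup.zpowers g ∈ Finset.univ.filter
      (fun U : Subgroup G => IsPGroup 2 U ∧ Quad L {p : P | ∀ h ∈ U, h • p = p}) :=
    Finset.mem_filter.2 ⟨Finset.mem_univ _, IsPGroup.of_card (n := 1)
      (by rw [Nat.card_zpowers, hg, pow_one]), quad_zpowers.2 (quad_of_inv h2t hno hginv)⟩
  obtain ⟨U, hU, hmax⟩ := Finset.exists_max_image _ (fun U : Subgroup G => Nat.card U) ⟨_, hmem⟩
  obtain ⟨hU2, hq⟩ := (Finset.mem_filter.1 hU).2
  obtain ⟨i, hi⟩ := pow_order U hU2 hq
  letI := subPlane hq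
  set k := @ProjectivePlane.order (FixPt P U) (FixPt L U) (subMem U) (subPlane hq) with hk
  have hkodd : Odd k := by
    rw [← hi] at hn
    exact (Nat.odd_pow_iff (by positivity)).1 hn
  -- the induced collineations
  let act : ∀ w : G, (∀ u, u ∈ U ↔ w * u * w⁻¹ ∈ U) → Coll (FixPt P U) (FixPt L U) := by
    intro w hw
    have hw' : ∀ u, u ∈ U ↔ w⁻¹ * u * w ∈ U := fun u => by
      rw [hw (w⁻¹ * u * w)]
      simp [mul_assoc]
    have h1 : ∀ {α : Type _} [MulAction G α] (x : α), (∀ h ∈ U, h • x = x) →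
        ∀ h ∈ U, h • w • x = w • x := fun x hx h hh => by
      rw [← mul_smul, show h * w = w * (w⁻¹ * h * w) by group, mul_smul, hx _ ((hw' h).1 hh)]
    have h2 : ∀ {α : Type _} [MulAction G α] (x : α), (∀ h ∈ U, h • x = x) →
        ∀ h ∈ U, h • w⁻¹ • x = w⁻¹ • x := fun x hx h hh => by
      rw [← mul_smul, show h * w⁻¹ = w⁻¹ * (w * h * w⁻¹) by group, mul_smul, hx _ ((hw h).1 hh)]
    have h1L : ∀ {α : Type _} [MulAction G α] (x : α), (∀ h ∈ U, h • x = x) →
        ∀ h ∈ U, h • w • x = w • x := fun x hx h hh => by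
      rw [← mul_smul, show h * w = w * (w⁻¹ * h * w) by group, mul_smul, hx _ ((hw' h).1 hh)]
    have h2L : ∀ {α : Type _} [MulAction G α] (x : α), (∀ h ∈ U, h • x = x) →
        ∀ h ∈ U, h • w⁻¹ • x = w⁻¹ • x := fun x hx h hh => by
      rw [← mul_smul, show h * w⁻¹ = w⁻¹ * (w * h * w⁻¹) by group, mul_smul, hx _ ((hw h).1 hh)]
    exact ⟨(⟨fun x => ⟨w • x.1, h1 x.1 x.2⟩, fun x => ⟨w⁻¹ • x.1, h2 x.1 x.2⟩,
        fun x => Subtype.ext (inv_smul_smul w x.1), fun x => Subtype.ext (smul_inv_smul w x.1)⟩,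
      ⟨fun x => ⟨w • x.1, h1L x.1 x.2⟩, fun x => ⟨w⁻¹ • x.1, h2L x.1 x.2⟩,
        fun x => Subtype.ext (inv_smul_smul w x.1), fun x => Subtype.ext (smul_inv_smul w x.1)⟩),
      fun x y => IncAct.smul_mem_smul w x.1 y.1⟩
  have key : ∀ (w : G) (hw : ∀ u, u ∈ U ↔ w * u * w⁻¹ ∈ U), w ∉ U → w * w ∈ U →
      ∃ (c : FixPt P U) (a : FixPt L U), Hm (act w hw) c a := by
    intro w hw hwU hw2
    have hN : Subgroup.zpowers w ≤ Subgroup.normalizer (U : Set G) :=
      Subgroup.zpowers_le.2 (Subgroup.mem_normalizer_iff.2 hw)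
    have hno' : ¬ Quad (FixPt L U) {x : FixPt P U | act w hw • x = x} := by
      rintro ⟨a, b, c, d, ha, hb, hc, hd, n1, n2, n3, n4⟩
      have hNC : ∀ {a b c : FixPt P U}, a ≠ b → NC (FixPt L U) a b c → NC L a.1 b.1 c.1 :=
        fun hab h l h1 h2 h3 =>
          h ⟨l, join_fixed (fun e => hab (Subtype.ext e)) h1 h2⟩ h1 h2 h3
      have hfix : ∀ x : FixPt P U, act w hw • x = x →
          ∀ h ∈ U ⊔ Subgroup.zpowers w, h • x.1 = x.1 := fun x hx h hh =>
        (sup_le x.2 (Subgroup.zpowers_le.2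
          (show w ∈ MulAction.stabilizer G x.1 from congrArg Subtype.val hx)) :
            U ⊔ Subgroup.zpowers w ≤ MulAction.stabilizer G x.1) hh
      have hpg : IsPGroup 2 (U ⊔ Subgroup.zpowers w : Subgroup G) := by
        refine hU2.to_sup_of_normal_left' ?_ hN
        intro x
        obtain ⟨z, hz⟩ := x
        obtain ⟨j, hj⟩ := hU2 ⟨w * w, hw2⟩
        obtain ⟨t, rfl⟩ := Subgroup.mem_zpowers_iff.1 hz
        refine ⟨j + 1, Subtype.ext ?_⟩
        have hw1 : w ^ 2 ^ (j + 1) = 1 := by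
          rw [pow_succ', pow_mul, pow_two]
          exact congrArg Subtype.val hj
        show (w ^ t) ^ 2 ^ (j + 1) = 1
        rw [← zpow_natCast, ← zpow_mul, mul_comm, zpow_mul, zpow_natCast, hw1, one_zpow]
      have h1 := hmax (U ⊔ Subgroup.zpowers w) (Finset.mem_filter.2 ⟨Finset.mem_univ _, hpg,
        a.1, b.1, c.1, d.1, hfix a ha, hfix b hb, hfix c hc, hfix d hd, hNC n1.ne n1, hNC n2.ne n2,
        hNC n3.ne n3, hNC n4.ne n4⟩)
      exact hwU ((Subgroup.eq_of_le_of_card_ge le_sup_left h1).symm ▸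
        Subgroup.mem_sup_right (Subgroup.mem_zpowers w))
    have hinv : Inv (FixPt P U) (act w hw) := by
      refine ⟨fun x => Subtype.ext ?_, fun ht => hno' ?_⟩
      · show w • w • x.1 = x.1
        rw [← mul_smul]
        exact x.2 _ hw2
      · obtain ⟨a, b, c, d, ha, hb, hc, hd, n1, n2, n3, n4⟩ := id hq
        exact ⟨⟨a, ha⟩, ⟨b, hb⟩, ⟨c, hc⟩, ⟨d, hd⟩, ht _, ht _, ht _, ht _, fun l => n1 l.1,
          fun l => n2 l.1, fun l => n3 l.1, fun l => n4 l.1⟩
    obtain ⟨a, ha⟩ := hinv.exists_axis_of_no_quad hno'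
    obtain ⟨c, hc, -⟩ := exists_centre ha
    exact ⟨c, a, hinv, hc, ha⟩
  have hkpp : IsPrimePow k := by
    refine isPrimePow_of_homologies (G := Coll (FixPt P U) (FixPt L U)) hkodd fun p q hpq => ?_
    set A := MulAction.stabilizer G p.1 ⊓ MulAction.stabilizer G q.1 with hA
    have hUA : U ≤ A := fun u hu => ⟨p.2 u hu, q.2 u hu⟩
    by_cases hbig : ∃ U' : Subgroup G, IsPGroup 2 U' ∧ U < U' ∧ U' ≤ A
    · obtain ⟨U', hU', hlt, hle⟩ := hbig
      obtain ⟨w, hwU', hwU, hw2, hw⟩ := exists_normalizing hU' hlt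
      obtain ⟨c, a, h⟩ := key w hw hwU hw2
      exact ⟨act w hw, c, a, h, Subtype.ext (hle hwU').1, Subtype.ext (hle hwU').2⟩
    exfalso
    push Not at hbig
    have hUcard : Nat.card U = 2 ^ (Nat.card A).factorization 2 := by
      obtain ⟨T, hT⟩ := (hU2.comap_of_injective A.subtype A.subtype_injective).exists_le_sylow
      have h1 : U ≤ (T : Subgroup A).map A.subtype := fun u hu => ⟨⟨u, hUA hu⟩, hT hu, rfl⟩
      have h2 : U = (T : Subgroup A).map A.subtype := h1.lt_or_eq.resolve_left fun hlt =>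
        hbig _ (T.isPGroup'.map _) hlt (Subgroup.map_subtype_le _)
      rw [h2, Subgroup.card_map_of_injective A.subtype_injective]
      exact T.card_eq_multiplicity
    obtain ⟨S, hS⟩ := hU2.exists_le_sylow
    have hG : 2 * Nat.card A ∣ Nat.card G := by
      rw [card_group (L := L) h2t (fun e => hpq (Subtype.ext e))]
      refine Dvd.dvd.mul_left (Nat.mul_dvd_mul_right ?_ _) _
      rw [pow_two, show ∀ n, n * n + n = n * (n + 1) from fun n => by ring]
      exact even_iff_two_dvd.1 (Nat.even_mul_succ_self _)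
    have hlt : U < (S : Subgroup G) := by
      refine hS.lt_of_ne fun e => ?_
      have h1 : (Nat.card A).factorization 2 = (Nat.card G).factorization 2 :=
        Nat.pow_right_injective le_rfl
          (hUcard.symm.trans ((congrArg (fun V : Subgroup G => Nat.card V) e).trans S.card_eq_multiplicity))
      have h2 : 2 ^ ((Nat.card A).factorization 2 + 1) ∣ Nat.card G := by
        rw [pow_succ']
        exact (Nat.mul_dvd_mul_left 2 (Nat.ordProj_dvd _ 2)).trans hG
      have h3 := (Nat.prime_two.pow_dvd_iff_le_factorization Nat.card_pos.ne').1 h2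
      omega
    obtain ⟨w, hwS, hwU, hw2, hw⟩ := exists_normalizing S.isPGroup' hlt
    obtain ⟨c, a, h⟩ := key w hw hwU hw2
    obtain ⟨x, hx, -⟩ := exists_third a p p
    obtain ⟨y, hy, hyx, -⟩ := exists_third a x x
    let U'' : Subgroup G := (S : Subgroup G) ⊓
      (MulAction.stabilizer G x.1 ⊓ MulAction.stabilizer G y.1)
    have hle : U ≤ U'' := fun u hu => ⟨hS hu, x.2 u hu, y.2 u hu⟩
    have hwU'' : w ∈ U'' :=
      ⟨hwS, congrArg Subtype.val (h.2.2 x hx), congrArg Subtype.val (h.2.2 y hy)⟩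
    obtain ⟨f, hf⟩ := IsPGroup.iff_card.1 (S.isPGroup'.to_le (inf_le_left : U'' ≤ S))
    have h1 : Nat.card U < Nat.card U'' := by
      by_contra hge
      exact hwU ((Subgroup.eq_of_le_of_card_ge hle (not_lt.1 hge)).symm ▸ hwU'')
    have h2 : 2 ^ f ∣ Nat.card A := by
      rw [hA, card_pair_eq L h2t (fun e => hpq (Subtype.ext e))
        (fun e => hyx (Subtype.ext e.symm)), ← hf]
      exact Subgroup.card_dvd_of_le inf_le_right
    have h3 := (Nat.prime_two.pow_dvd_iff_le_factorization Nat.card_pos.ne').1 h2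
    rw [hUcard, hf] at h1
    have := (Nat.pow_lt_pow_iff_right (by norm_num)).1 h1
    omega
  rw [← hi]
  exact hkpp.pow (by positivity)

omit hno in
theorem card_lines_through_ne {x : P} {l : L} (hx : x ∈ l) :
    (Finset.univ.filter fun M : L => x ∈ M ∧ M ≠ l).card = ProjectivePlane.order P L := by
  have h1 : (Finset.univ.filter fun M : L => x ∈ M ∧ M ≠ l) =
      (Finset.univ.filter fun M : L => x ∈ M).erase l := by
    ext; simp [and_comm]
  have h2 : l ∈ Finset.univ.filter fun M : L => x ∈ M := Finset.mem_filter.2 ⟨Finset.mem_univ _, hx⟩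
  rw [h1, Finset.card_erase_of_mem h2, ← Fintype.card_subtype, ← Nat.card_eq_fintype_card,
    card_through]
  rfl

/-- A perspectivity exists. -/
theorem exists_perspectivity_aux : False := by
  obtain ⟨π, e, hπ', he, hne⟩ := isPrimePow_order h2t hno
  have hπ := Nat.prime_iff.2 hπ'
  haveI := Fact.mk hπ
  set n := ProjectivePlane.order P L with hn
  have hn1 : 1 < n := ProjectivePlane.one_lt_order P L
  have hcop : Nat.Coprime (π ^ e) (n + 1) := by rw [hne]; simp
  obtain ⟨c, -⟩ := @ProjectivePlane.exists_config P L _ _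
  obtain ⟨l', hl'⟩ := Nondegenerate.exists_line (P := P) (L := L) c
  obtain ⟨d, hd', -⟩ := exists_third l' c c
  have hcd : c ≠ d := fun e => hl' (e ▸ hd')
  obtain ⟨l, hcl, hdl⟩ := exists_join (L := L) hcd
  set A := MulAction.stabilizer G c ⊓ MulAction.stabilizer G d with hA
  obtain ⟨T⟩ : Nonempty (Sylow π A) := inferInstance
  set Q : Subgroup G := (T : Subgroup A).map A.subtype with hQ
  have hQA : Q ≤ A := Subgroup.map_subtype_le _
  set a := (Nat.card A).factorization π with ha
  have hQcard : Nat.card Q = π ^ a := by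
    rw [hQ, Subgroup.card_map_of_injective A.subtype_injective]; exact T.card_eq_multiplicity
  have hQl : ∀ s ∈ Q, s • l = l := fun s hs => line_fixed hcd (hQA hs).1 (hQA hs).2 hcl hdl
  -- transitivity on the lines through a fixed point of `l`
  have horb : ∀ x, x ∈ l → (∀ s ∈ Q, s • x = x) → ∀ M : L, x ∈ M → M ≠ l →
      e ≤ a ∧ ∀ M', x ∈ M' → M' ≠ l → ∃ s ∈ Q, s • M = M' := by
    intro x hxl hxQ M hxM hMl
    obtain ⟨d', hd'l, hd'x, hd'Q⟩ : ∃ d', d' ∈ l ∧ d' ≠ x ∧ ∀ s ∈ Q, s • d' = d' := by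
      by_cases hxd : d = x
      · exact ⟨c, hcl, fun e => hcd (e.trans hxd.symm), fun s hs => (hQA hs).1⟩
      · exact ⟨d, hdl, hxd, fun s hs => (hQA hs).2⟩
    have hdM : d' ∉ M := fun h => hd'x (eq_point hMl h hd'l hxM hxl)
    have e1 := (card_group_line h2t hdM).symm.trans (card_group (L := L) h2t hcd)
    have e2 : n * Nat.card (MulAction.stabilizer G M ⊓ MulAction.stabilizer G d' : Subgroup G) =
        (n + 1) * Nat.card A := by
      have e3 := Nat.eq_of_mul_eq_mul_left (Fintype.card_pos_iff.2 ⟨c⟩) e1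
      refine Nat.eq_of_mul_eq_mul_left (show 0 < n by omega) ?_
      rw [← mul_assoc, ← pow_two, e3, hA]
      ring
    set B := Q ⊓ MulAction.stabilizer G M with hB
    obtain ⟨b, hb⟩ := IsPGroup.iff_card.1
      (((T.isPGroup'.map A.subtype).to_le (inf_le_left : B ≤ Q)))
    have hBle : B ≤ MulAction.stabilizer G M ⊓ MulAction.stabilizer G d' :=
      fun s hs => ⟨hs.2, hd'Q s hs.1⟩
    have hdvd : π ^ (e + b) ∣ Nat.card A := by
      have h1 : π ^ (e + b) ∣ (n + 1) * Nat.card A := by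
        rw [← e2, pow_add, ← hb, hne]
        exact Nat.mul_dvd_mul_left _ (Subgroup.card_dvd_of_le hBle)
      refine (Nat.Coprime.pow_left _ ?_).dvd_of_dvd_mul_left h1
      exact (Nat.coprime_pow_left_iff he π (n + 1)).1 hcop
    have hab : e + b ≤ a := (hπ.pow_dvd_iff_le_factorization Nat.card_pos.ne').1 hdvd
    refine ⟨by omega, fun M' hxM' hM'l => ?_⟩
    set S := Finset.univ.filter (fun u : L => ∃ s ∈ Q, s • M = u) with hS
    have hcard := card_mul_stab Q M S fun u => by simp [hS]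
    rw [hQcard, ← hB, hb] at hcard
    have hsub : S ⊆ Finset.univ.filter fun u : L => x ∈ u ∧ u ≠ l := by
      intro u hu
      obtain ⟨s, hs, rfl⟩ := (Finset.mem_filter.1 hu).2
      refine Finset.mem_filter.2 ⟨Finset.mem_univ _, ?_, fun e => hMl (MulAction.injective s
        (e.trans (hQl s hs).symm))⟩
      have := mem_smul_of_mem s hxM
      rwa [hxQ s hs] at this
    have hle : n ≤ S.card := by
      refine Nat.le_of_mul_le_mul_right ?_ (show 0 < π ^ b from pow_pos hπ.pos b)
      rw [← hcard, ← hne, ← pow_add]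
      exact Nat.pow_le_pow_right hπ.pos hab
    have heq := Finset.eq_of_subset_of_card_le hsub (by rw [card_lines_through_ne h2t hxl]; exact hle)
    have : M' ∈ S := heq.symm ▸ Finset.mem_filter.2 ⟨Finset.mem_univ _, hxM', hM'l⟩
    exact (Finset.mem_filter.1 this).2
  obtain ⟨k, hck, hkl⟩ : ∃ M : L, c ∈ M ∧ M ≠ l := by
    have := card_lines_through_ne (L := L) h2t hcl
    obtain ⟨M, hM⟩ := Finset.card_pos.1 (show 0 < _ by rw [this]; omega)
    exact ⟨M, (Finset.mem_filter.1 hM).2.1, (Finset.mem_filter.1 hM).2.2⟩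
  have hea : e ≤ a := (horb c hcl (fun s hs => (hQA hs).1) k hck hkl).1
  have hQp : IsPGroup π Q := T.isPGroup'.map _
  haveI : Nontrivial Q := Finite.one_lt_card_iff_nontrivial.1 (by
    rw [hQcard]; exact Nat.one_lt_pow (by omega) hπ.one_lt)
  have hcen : π ∣ Nat.card (Subgroup.center Q) := by
    obtain ⟨j, hj⟩ := IsPGroup.iff_card.1 (hQp.to_subgroup (Subgroup.center Q))
    haveI := hQp.center_nontrivial
    have h1 : 1 < Nat.card (Subgroup.center Q) := Finite.one_lt_card
    rcases j with _ | j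
    · rw [hj, pow_zero] at h1; omega
    · exact ⟨π ^ j, by rw [hj, pow_succ']⟩
  obtain ⟨⟨⟨g, hgQ⟩, hgc⟩, hord⟩ := exists_prime_orderOf_dvd_card' π hcen
  rw [Subgroup.orderOf_mk, Subgroup.orderOf_mk] at hord
  have hg1 : g ≠ 1 := (orderOf_eq_prime_iff.1 hord).2
  have hcomm : ∀ s ∈ Q, g * s = s * g := fun s hs =>
    (congrArg Subtype.val (Subgroup.mem_center_iff.1 hgc ⟨s, hs⟩)).symm
  have hmove : ∀ x, x ∈ l → (∀ s ∈ Q, s • x = x) → ∀ M : L, x ∈ M → M ≠ l → g • M ≠ M := by
    intro x hxl hxQ M hxM hMl hgM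
    have hc' : IsCentre L g x := by
      intro M' hxM'
      by_cases hM' : M' = l
      · exact hM' ▸ hQl g hgQ
      obtain ⟨s, hs, rfl⟩ := (horb x hxl hxQ M hxM hMl).2 M' hxM' hM'
      rw [← mul_smul, hcomm s hs, mul_smul, hgM]
    obtain ⟨ax, hax, -⟩ := exists_axis hc'
    exact hg1 (hno g ax hax)
  have hon : ∀ w : P, g • w = w → w ∈ l := by
    intro w hw
    by_contra hwl
    obtain ⟨M, hcM, hwM⟩ := exists_join (L := L) (show c ≠ w from fun e => hwl (e ▸ hcl))
    exact hmove c hcl (fun s hs => (hQA hs).1) M hcM (fun e => hwl (e ▸ hwM))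
      (line_fixed (fun e : c = w => hwl (e ▸ hcl)) (hQA hgQ).1 hw hcM hwM)
  have hf3 : 3 ≤ Nat.card {w : P // g • w = w} := by
    have h1 : 2 ≤ Nat.card {w : P // g • w = w} := by
      haveI : Nontrivial {w : P // g • w = w} :=
        ⟨⟨⟨c, (hQA hgQ).1⟩, ⟨d, (hQA hgQ).2⟩, fun e => hcd (congrArg Subtype.val e)⟩⟩
      exact Finite.one_lt_card
    by_contra h2
    have hz : IsPGroup π (Subgroup.zpowers g) :=
      IsPGroup.of_card (n := 1) (by rw [Nat.card_zpowers, hord, pow_one])
    have h3 := hz.card_modEq_card_fixedPoints P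
    rw [Nat.card_eq_fintype_card, ProjectivePlane.card_points P L, ← hn] at h3
    have h4 : Nat.card (MulAction.fixedPoints (Subgroup.zpowers g) P) = 2 := by
      rw [show 2 = Nat.card {w : P // g • w = w} by omega]
      refine Nat.card_congr (Equiv.subtypeEquivRight fun w => ⟨fun hw => hw ⟨g, Subgroup.mem_zpowers g⟩,
        fun hw s => (Subgroup.zpowers_le.2 (show g ∈ MulAction.stabilizer G w from hw)) s.2⟩)
    rw [h4] at h3
    have hπn : π ∣ n ^ 2 + n := by
      have : π ∣ n := hne ▸ dvd_pow_self π he.ne'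
      exact Nat.dvd_add (this.pow two_ne_zero) this
    have h5 : (n ^ 2 + n + 1) % π = 1 := by
      rw [Nat.add_mod, Nat.mod_eq_zero_of_dvd hπn, zero_add, Nat.mod_mod, Nat.one_mod_eq_one]
      exact hπ.ne_one
    rw [Nat.ModEq, h5] at h3
    rcases Nat.lt_or_ge 2 π with h | h
    · rw [Nat.mod_eq_of_lt h] at h3; omega
    · have := hπ.two_le
      rw [show π = 2 by omega] at h3; omega
  rw [card_fixed_eq (P := P) (L := L) g, Nat.card_eq_fintype_card, Fintype.card_subtype] at hf3
  obtain ⟨M₁, hM₁, M₂, hM₂, hne12⟩ : ∃ M₁ ∈ (Finset.univ.filter fun M : L => g • M = M).erase l,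
      ∃ M₂ ∈ (Finset.univ.filter fun M : L => g • M = M).erase l, M₁ ≠ M₂ :=
    Finset.one_lt_card.1 (by
      have := Finset.pred_card_le_card_erase (s := Finset.univ.filter fun M : L => g • M = M) (a := l)
      omega)
  obtain ⟨hM₁l, hM₁'⟩ := Finset.mem_erase.1 hM₁
  obtain ⟨hM₂l, hM₂'⟩ := Finset.mem_erase.1 hM₂
  have hg₁ : g • M₁ = M₁ := (Finset.mem_filter.1 hM₁').2
  have hg₂ : g • M₂ = M₂ := (Finset.mem_filter.1 hM₂').2
  obtain ⟨x, hx1, hx2⟩ := exists_meet (P := P) hne12
  have hxl : x ∈ l := hon x (point_fixed hne12 hg₁ hg₂ hx1 hx2)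
  have hall : ∀ M : L, g • M = M → M ≠ l → x ∈ M := by
    intro M hM hMl
    by_cases h : M = M₁
    · exact h ▸ hx1
    obtain ⟨y, hy, hy1⟩ := exists_meet (P := P) h
    rwa [eq_point hM₁l hx1 hxl hy1 (hon y (point_fixed h hM hg₁ hy hy1))]
  refine hmove x hxl (fun s hs => ?_) M₁ hx1 hM₁l hg₁
  have h1 : g • s • M₁ = s • M₁ := by rw [← mul_smul, hcomm s hs, mul_smul, hg₁]
  have h2 : s • M₁ ≠ l := fun e => hM₁l (MulAction.injective s (e.trans (hQl s hs).symm))
  exact eq_point h2 (mem_smul_of_mem s hx1) (hQl s hs ▸ mem_smul_of_mem s hxl) (hall _ h1 h2) hxl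

omit hno in
/-- A doubly transitive collineation group contains a perspectivity. -/
theorem exists_perspectivity : ∃ (g : G) (a : L), IsAxis P g a ∧ g ≠ 1 := by
  by_contra h
  push Not at h
  exact exists_perspectivity_aux h2t h

end DoublyTransitive

end CfsgLib.MetacyclicP.OstromWagner
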