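import Cfsg.Agent.Lib.MetacyclicP.OstromWagner.Perspectivity

/-!
# Planes with many involutory homologies

If the order `k` is odd and any two points are fixed by an involutory homology then `k` is a
prime power.
-/

set_option autoImplicit false
set_option linter.style.haveILetI false
set_option linter.unusedSectionVars false

namespace CfsgLib.MetacyclicP.OstromWagner

open Configuration
open scoped Classical

variable {P L : Type*} [Membership P L] [Configuration.ProjectivePlane P L] [Fintype P] [Fintype L]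
variable {G : Type*} [Group G] [MulAction G P] [MulAction G L] [IncAct G P L]

/-- An involutory collineation with centre `c` and axis `a`. -/
def Hm (g : G) (c : P) (a : L) : Prop := Inv P g ∧ IsCentre L g c ∧ IsAxis P g a

theorem Hm.conj {g : G} {c : P} {a : L} (h : Hm g c a) (s : G) :
    Hm (s * g * s⁻¹) (s • c) (s • a) := by
  refine ⟨⟨fun p => ?_, fun ht => h.1.2 fun p => ?_⟩, h.2.1.conj s, h.2.2.conj s⟩
  · rw [mul_smul, mul_smul, mul_smul, mul_smul, inv_smul_smul, h.1.1, smul_inv_smul]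
  · have h1 := ht (s • p)
    rw [mul_smul, mul_smul, inv_smul_smul] at h1
    exact MulAction.injective s h1

theorem Hm.fixed {g : G} {c : P} {a : L} (h : Hm g c a) {p : P} (hp : g • p = p) :
    p ∈ a ∨ p = c := by
  obtain ⟨c', hc', hu⟩ := exists_centre h.2.2
  by_cases e : c = c'
  · exact e ▸ hu h.1.2 p hp
  · exact absurd (triv_of_two_centres h.2.1 hc' e) h.1.2

theorem Hm.fixed_line {g : G} {c : P} {a : L} (h : Hm g c a) {l : L} (hl : g • l = l) :
    c ∈ l ∨ l = a := by
  obtain ⟨a', ha', hu⟩ := exists_axis h.2.1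
  by_cases e : a = a'
  · exact e ▸ hu h.1.2 l hl
  · exact absurd (triv_of_two_axes h.2.2 ha' e) h.1.2

theorem Hm.centre_off {g : G} {c : P} {a : L} (h : Hm g c a)
    (hk : Odd (ProjectivePlane.order P L)) : c ∉ a :=
  h.1.centre_off_axis hk h.2.2 h.2.1

variable [FaithfulSMul G P]

theorem Hm.ne_one {g : G} {c : P} {a : L} (h : Hm g c a) : g ≠ 1 :=
  fun e => h.1.2 fun p => by rw [e, one_smul]

variable (L) in
/-- The elations with centre `c`. -/
def ElC (c : P) : Subgroup G :=
  haveI := faithful_dual (P := P) (L := L) (G := G)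
  El (G := G) (Configuration.Dual L) (L := Configuration.Dual P) c

theorem mem_ElC {g : G} {c : P} :
    g ∈ ElC L c ↔ IsCentre L g c ∧ ∃ a : L, c ∈ a ∧ IsAxis P g a := Iff.rfl

theorem eq_one_of_fixed_not_through {g : G} {c : P} (h : g ∈ ElC L c) {l : L} (hl : c ∉ l)
    (hgl : g • l = l) : g = 1 :=
  haveI := faithful_dual (P := P) (L := L) (G := G)
  eq_one_of_fixed_off (P := Configuration.Dual L) (L := Configuration.Dual P) h hl hgl

theorem exists_elation_map_lines [Finite G] {c : P} {l m : L} (hl : c ∉ l) (hm : c ∉ m)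
    (hgl : ∃ g : G, g ≠ 1 ∧ IsCentre L g c ∧ g • l = l)
    (hgm : ∃ g : G, g ≠ 1 ∧ IsCentre L g c ∧ g • m = m) :
    ∃ t ∈ (ElC L c : Subgroup G), t • l = m :=
  haveI := faithful_dual (P := P) (L := L) (G := G)
  exists_elation_map (P := Configuration.Dual L) (L := Configuration.Dual P) hl hm hgl hgm

theorem odd_card_ElC [Finite G] (hn : Odd (ProjectivePlane.order P L)) (c : P) :
    Odd (Nat.card (ElC L c : Subgroup G)) :=
  haveI := faithful_dual (P := P) (L := L) (G := G)
  odd_card_El (P := Configuration.Dual L) (L := Configuration.Dual P)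
    (by rw [ProjectivePlane.Dual.order P L]; exact hn) c

theorem ElC_isPGroup [Finite G] {c : P} {g₁ g₂ : G} (h₁ : g₁ ∈ ElC L c) (h₂ : g₂ ∈ ElC L c)
    (n₁ : g₁ ≠ 1) (n₂ : g₂ ≠ 1) {a₁ a₂ : L} (hc₁ : c ∈ a₁) (hc₂ : c ∈ a₂)
    (hg₁ : IsAxis P g₁ a₁) (hg₂ : IsAxis P g₂ a₂) (hne : a₁ ≠ a₂) :
    ∃ p : ℕ, p.Prime ∧ IsPGroup p (ElC L c : Subgroup G) :=
  haveI := faithful_dual (P := P) (L := L) (G := G)
  El_isPGroup (P := Configuration.Dual L) (L := Configuration.Dual P) h₁ h₂ n₁ n₂ hc₁ hc₂ hg₁ hg₂ hne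

section Homologies

variable [Finite G]
variable (hk : Odd (ProjectivePlane.order P L))
  (hpair : ∀ p q : P, p ≠ q → ∃ (g : G) (c : P) (a : L), Hm g c a ∧ g • p = p ∧ g • q = q)

include hk hpair

/-- On a line that is no axis the stabiliser is transitive and every point is a centre. -/
theorem line_not_axis {b : L} (hb : ∀ (g : G) (c : P), ¬ Hm g c b) :
    (∀ p q : P, p ∈ b → q ∈ b → ∃ s : G, s • b = b ∧ s • p = q) ∧
      ∀ p : P, p ∈ b → ∃ (g : G) (a : L), Hm g p a := by
  have hinv : ∀ p q : P, p ∈ b → q ∈ b → p ≠ q → ∃ (g : G) (c : P) (a : L), Hm g c a ∧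
      g • b = b ∧ g • p = p ∧ g • q = q ∧ (p = c ∨ q = c) ∧
        ∀ r, r ∈ b → g • r = r → r = p ∨ r = q := by
    intro p q hp hq hpq
    obtain ⟨g, c, a, h, hgp, hgq⟩ := hpair p q hpq
    have hba : b ≠ a := fun e => hb g c (e ▸ h)
    refine ⟨g, c, a, h, line_fixed hpq hgp hgq hp hq, hgp, hgq, ?_, fun r hr hgr => ?_⟩
    · by_contra hne
      push Not at hne
      exact hba (eq_line hpq hp hq ((h.fixed hgp).resolve_right hne.1)
        ((h.fixed hgq).resolve_right hne.2))
    · rcases h.fixed hgr with h1 | h1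
      · rcases h.fixed hgp with h2 | h2
        · exact Or.inl (eq_point hba hr h1 hp h2)
        · rcases h.fixed hgq with h3 | h3
          · exact Or.inr (eq_point hba hr h1 hq h3)
          · exact absurd (h2.trans h3.symm) hpq
      · rcases h.fixed hgp with h2 | h2
        · rcases h.fixed hgq with h3 | h3
          · exact absurd (eq_point hba hp h2 hq h3) hpq
          · exact Or.inr (h1.trans h3.symm)
        · exact Or.inl (h1.trans h2.symm)
  let K : Subgroup G := MulAction.stabilizer G b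
  have hKb : ∀ (s : K) (p : P), p ∈ b → s • p ∈ b := by
    intro s p hp
    have h1 := mem_smul_of_mem (s : G) hp
    rwa [show (s : G) • b = b from s.2] at h1
  -- the parity of an orbit is the number of fixed points of an involution on it
  have hpar : ∀ (g : G) (hgb : g • b = b), (∀ x : P, g • g • x = x) → ∀ x : P,
      Nat.card (MulAction.orbit K x) % 2 =
        Nat.card {u : MulAction.orbit K x // g • (u : P) = (u : P)} % 2 := by
    intro g hgb hgg x
    let σ : MulAction.orbit K x → MulAction.orbit K x := fun u =>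
      ⟨(⟨g, hgb⟩ : K) • (u : P), MulAction.mem_orbit_of_mem_orbit _ u.2⟩
    have hσ : ∀ u, σ (σ u) = u := fun u => Subtype.ext (hgg u)
    rw [Nat.card_eq_fintype_card, card_mod_two σ hσ]
    exact congrArg (· % 2) (Nat.card_congr (Equiv.subtypeEquivRight fun u =>
      ⟨fun e => congrArg Subtype.val e, fun e => Subtype.ext e⟩))
  have hmem : ∀ x u : P, x ∈ b → u ∈ MulAction.orbit K x → u ∈ b := by
    rintro x u hx ⟨s, rfl⟩
    exact hKb s x hx
  have htr : ∀ p q : P, p ∈ b → q ∈ b → q ∈ MulAction.orbit K p := by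
    by_contra hcon
    push Not at hcon
    obtain ⟨p₀, q₀, hp₀, hq₀, hpq₀⟩ := hcon
    -- every orbit is odd
    have hodd : ∀ x, x ∈ b → Nat.card (MulAction.orbit K x) % 2 = 1 := by
      intro x hx
      obtain ⟨y, hy, hyx⟩ : ∃ y, y ∈ b ∧ y ∉ MulAction.orbit K x := by
        by_contra hh
        push Not at hh
        refine hpq₀ ?_
        rw [MulAction.orbit_eq_iff.2 (hh p₀ hp₀)]
        exact hh q₀ hq₀
      have hxy : x ≠ y := fun e => hyx (e ▸ MulAction.mem_orbit_self x)
      obtain ⟨g, c, a, h, hgb, hgx, -, -, hfix⟩ := hinv x y hx hy hxy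
      rw [hpar g hgb h.1.1 x]
      have h1 : Nat.card {u : MulAction.orbit K x // g • (u : P) = (u : P)} = 1 := by
        rw [Nat.card_eq_one_iff_unique]
        refine ⟨⟨fun u w => ?_⟩, ⟨⟨⟨x, MulAction.mem_orbit_self x⟩, hgx⟩⟩⟩
        have hu : ∀ z : {u : MulAction.orbit K x // g • (u : P) = (u : P)}, (z.1 : P) = x := fun z =>
          (hfix _ (hmem x _ hx z.1.2) z.2).resolve_right fun e => hyx (e ▸ z.1.2)
        exact Subtype.ext (Subtype.ext ((hu u).trans (hu w).symm))
      rw [h1]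
    -- so every orbit is a single point
    have hsingle : ∀ x u, x ∈ b → u ∈ MulAction.orbit K x → u = x := by
      intro x u hx hu
      by_contra hne
      obtain ⟨g, c, a, h, hgb, hgx, hgu, -, hfix⟩ := hinv x u hx (hmem x u hx hu) (Ne.symm hne)
      have h1 : Nat.card {w : MulAction.orbit K x // g • (w : P) = (w : P)} = 2 := by
        rw [Nat.card_eq_two_iff]
        refine ⟨⟨⟨x, MulAction.mem_orbit_self x⟩, hgx⟩, ⟨⟨u, hu⟩, hgu⟩, fun e => hne
          (congrArg (fun w => ((w.1 : MulAction.orbit K x) : P)) e).symm, ?_⟩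
        refine Set.eq_univ_of_forall fun w => ?_
        rcases hfix _ (hmem x _ hx w.1.2) w.2 with e | e
        · exact Or.inl (Subtype.ext (Subtype.ext e))
        · exact Or.inr (Subtype.ext (Subtype.ext e))
      have h2 := hpar g hgb h.1.1 x
      rw [h1, hodd x hx] at h2
      omega
    obtain ⟨p, hp, -⟩ := exists_third b p₀ p₀
    obtain ⟨q, hq, hqp, -⟩ := exists_third b p p
    obtain ⟨r, hr, hrp, hrq⟩ := exists_third b p q
    obtain ⟨g, c, a, h, hgb, -, -, -, hfix⟩ := hinv p q hp hq (Ne.symm hqp)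
    rcases hfix r hr (hsingle r _ hr ⟨⟨g, hgb⟩, rfl⟩) with e | e
    · exact hrp e
    · exact hrq e
  refine ⟨fun p q hp hq => ?_, fun p hp => ?_⟩
  · obtain ⟨s, hs⟩ := htr p q hp hq
    exact ⟨(s : G), s.2, hs⟩
  · obtain ⟨q, hq, hqp, -⟩ := exists_third b p p
    obtain ⟨g, c, a, h, -, -, -, hc, -⟩ := hinv p q hp hq (Ne.symm hqp)
    obtain ⟨s, hs⟩ : p ∈ MulAction.orbit K c := by
      rcases hc with e | e
      · exact htr c p (e ▸ hp) hp
      · exact htr c p (e ▸ hq) hp
    exact ⟨_, _, (show (s : G) • c = p from hs) ▸ h.conj (s : G)⟩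

/-- Every point is the centre of an involutory homology. -/
theorem every_point_centre (y : P) : ∃ (g : G) (a : L), Hm g y a := by
  by_contra hcon
  push Not at hcon
  have hax : ∀ l : L, y ∈ l → ∃ (g : G) (c : P), Hm g c l := by
    intro l hl
    by_contra hh
    push Not at hh
    obtain ⟨g, a, h⟩ := (line_not_axis hk hpair hh).2 y hl
    exact hcon g a h
  obtain ⟨a, hya⟩ : ∃ a : L, y ∈ a := by
    obtain ⟨l, hl⟩ := Nondegenerate.exists_line (P := P) (L := L) y
    obtain ⟨q, hq, -⟩ := exists_third l y y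
    obtain ⟨a, ha, -⟩ := exists_join (L := L) (show y ≠ q from fun e => hl (e ▸ hq))
    exact ⟨a, ha⟩
  obtain ⟨gx, x, hx⟩ := hax a hya
  have hxa := hx.centre_off hk
  have hxy : x ≠ y := fun e => hxa (e ▸ hya)
  obtain ⟨b, hxb, hyb⟩ := exists_join (L := L) hxy
  obtain ⟨gw, w, hw⟩ := hax b hyb
  have hwb := hw.centre_off hk
  -- the axes through `y` of the homologies with centre `x`
  let A : Type _ := {a' : L // y ∈ a' ∧ ∃ g : G, Hm g x a'}
  let T : Subgroup G := ElC L x ⊓ MulAction.stabilizer G y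
  have hgwy : gw • y = y := hw.2.2 y hyb
  have hgwx : gw • x = x := hw.2.2 x hxb
  let σ : A → A := fun u => ⟨gw • u.1, by
    obtain ⟨hu, g, hg⟩ := u.2
    refine ⟨?_, gw * g * gw⁻¹, ?_⟩
    · have := mem_smul_of_mem gw hu
      rwa [hgwy] at this
    · have := hg.conj gw
      rwa [hgwx] at this⟩
  let f : T → A := fun t => ⟨(t : G) • a, by
    refine ⟨?_, (t : G) * gx * (t : G)⁻¹, ?_⟩
    · have := mem_smul_of_mem (t : G) hya
      rwa [show (t : G) • y = y from t.2.2] at this
    · have := hx.conj (t : G)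
      rwa [centre_fixed (mem_ElC.1 t.2.1).1] at this⟩
  have hf : Function.Bijective f := by
    refine ⟨fun t s e => ?_, fun u => ?_⟩
    · have e' : (t : G) • a = (s : G) • a := congrArg Subtype.val e
      have := eq_one_of_fixed_not_through
        ((ElC L x).mul_mem ((ElC L x).inv_mem s.2.1) t.2.1) hxa
        (by rw [mul_smul, e', inv_smul_smul])
      exact Subtype.ext (inv_mul_eq_one.1 this).symm
    · obtain ⟨hu, g, hg⟩ := u.2
      have hxu := hg.centre_off hk
      obtain ⟨t, ht, hta⟩ := exists_elation_map_lines hxa hxu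
        ⟨gx, hx.ne_one, hx.2.1, axis_fixed hx.2.2⟩ ⟨g, hg.ne_one, hg.2.1, axis_fixed hg.2.2⟩
      have hty : t • y = y := by
        refine eq_point (fun e : u.1 = b => hxu (e ▸ hxb)) ?_ ?_ hu hyb
        · rw [← hta]; exact mem_smul_of_mem t hya
        · exact smul_mem_of_centre (mem_ElC.1 ht).1 hxb hyb
      exact ⟨⟨t, ht, hty⟩, Subtype.ext hta⟩
  have hodd : Nat.card A % 2 = 1 := by
    rw [← Nat.card_congr (Equiv.ofBijective f hf)]
    exact Nat.odd_iff.1 ((odd_card_ElC hk x).of_dvd_nat (Subgroup.card_dvd_of_le inf_le_left))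
  obtain ⟨⟨⟨a', hya', g₁, h₁⟩, hfix⟩⟩ : Nonempty {u : A // σ u = u} := by
    by_contra hh
    rw [not_nonempty_iff] at hh
    have h2 := card_mod_two σ fun u => Subtype.ext (hw.1.line_sq u.1)
    rw [← Nat.card_eq_fintype_card, hodd, Nat.card_of_isEmpty] at h2
    omega
  have hxa' := h₁.centre_off hk
  have hba : b ≠ a' := fun e => hxa' (e ▸ hxb)
  have hwa' : w ∈ a' := (hw.fixed_line (congrArg Subtype.val hfix)).resolve_right (Ne.symm hba)
  have hxw : x ≠ w := fun e => hwb (e ▸ hxb)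
  -- the two homologies commute
  have hcomm : g₁ * gw = gw * g₁ := by
    have hbfix : g₁ • b = b := h₁.2.1 b hxb
    have hafix : gw • a' = a' := hw.2.1 a' hwa'
    have e1 : IsAxis P (gw * g₁ * gw⁻¹ * g₁⁻¹) a' := by
      have h3 := h₁.2.2.conj gw
      rw [hafix] at h3
      exact (Ax P a').mul_mem h3 ((Ax P a').inv_mem h₁.2.2)
    have e2 : IsAxis P (gw * g₁ * gw⁻¹ * g₁⁻¹) b := by
      have h3 := ((Ax P b).inv_mem hw.2.2 : IsAxis P gw⁻¹ b).conj g₁
      rw [hbfix] at h3
      have h4 : IsAxis P (gw * (g₁ * gw⁻¹ * g₁⁻¹)) b := (Ax P b).mul_mem hw.2.2 h3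
      simpa [mul_assoc] using h4
    have h5 := eq_one_of_triv (triv_of_two_axes e1 e2 (Ne.symm hba))
    rw [mul_inv_eq_one, mul_inv_eq_iff_eq_mul] at h5
    exact h5.symm
  have hsq1 : g₁ * g₁ = 1 := eq_one_of_triv (P := P) fun p => by rw [mul_smul]; exact h₁.1.1 p
  have hsqw : gw * gw = 1 := eq_one_of_triv (P := P) fun p => by rw [mul_smul]; exact hw.1.1 p
  have h3 : Inv P (g₁ * gw) := by
    refine ⟨fun p => ?_, fun ht => ?_⟩
    · have e : (g₁ * gw) * (g₁ * gw) = 1 := by
        calc (g₁ * gw) * (g₁ * gw) = (g₁ * gw) * (gw * g₁) := by rw [← hcomm]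
          _ = 1 := by rw [← mul_assoc, mul_assoc g₁ gw gw, hsqw, mul_one, hsq1]
      rw [← mul_smul, e, one_smul]
    · have e : g₁ = gw :=
        (mul_eq_one_iff_eq_inv.1 (eq_one_of_triv ht)).trans (inv_eq_of_mul_eq_one_right hsqw)
      exact h₁.1.2 (triv_of_two_axes h₁.2.2 (e ▸ hw.2.2) (Ne.symm hba))
  obtain ⟨m, hxm, hwm⟩ := exists_join (L := L) hxw
  have hFix : ∀ r, (g₁ * gw) • r = r → r ∈ m ∨ r = y := by
    intro r hr
    rw [mul_smul] at hr
    have e : gw • r = g₁ • r := by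
      calc gw • r = g₁ • g₁ • gw • r := by rw [← mul_smul g₁ g₁, hsq1, one_smul]
        _ = g₁ • r := by rw [hr]
    by_cases hmov : g₁ • r = r
    · rcases h₁.fixed hmov with h1 | h1
      · rcases hw.fixed (e.trans hmov) with h2 | h2
        · exact Or.inr (eq_point (Ne.symm hba) h1 h2 hya' hyb)
        · exact Or.inl (h2 ▸ hwm)
      · exact Or.inl (h1 ▸ hxm)
    · by_cases hrx : r = x
      · exact Or.inl (hrx ▸ hxm)
      by_cases hrw : r = w
      · exact Or.inl (hrw ▸ hwm)
      obtain ⟨k1, hrk1, hxk1⟩ := exists_join (L := L) hrx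
      obtain ⟨k2, hrk2, hwk2⟩ := exists_join (L := L) hrw
      have hk12 : k1 = k2 := eq_line (Ne.symm hmov) hrk1 (smul_mem_of_centre h₁.2.1 hxk1 hrk1) hrk2
        (e ▸ smul_mem_of_centre hw.2.1 hwk2 hrk2)
      exact Or.inl (eq_line hxw hxk1 (hk12 ▸ hwk2) hxm hwm ▸ hrk1)
  have hnq : ¬ Quad L {p : P | (g₁ * gw) • p = p} := by
    rintro ⟨p, q, r, s, hp, hq, hr, hs, n1, n2, n3, n4⟩
    rcases hFix p hp with hpm | hpy
    · rcases hFix q hq with hqm | hqy
      · rcases hFix r hr with hrm | hry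
        · exact n1 m hpm hqm hrm
        · exact n2 m hpm hqm ((hFix s hs).resolve_right fun e => n3.ne'.2 (hry.trans e.symm))
      · exact n3 m hpm ((hFix r hr).resolve_right fun e => n1.ne'.2 (hqy.trans e.symm))
          ((hFix s hs).resolve_right fun e => n2.ne'.2 (hqy.trans e.symm))
    · exact n4 m ((hFix q hq).resolve_right fun e => n1.ne (hpy.trans e.symm))
        ((hFix r hr).resolve_right fun e => n1.ne'.1 (hpy.trans e.symm))
        ((hFix s hs).resolve_right fun e => n2.ne'.1 (hpy.trans e.symm))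
  obtain ⟨e₀, he₀⟩ := h3.exists_axis_of_no_quad hnq
  obtain ⟨z, hz, -⟩ := exists_centre he₀
  have hze := h3.centre_off_axis hk he₀ hz
  obtain ⟨u, hu, huy, -⟩ := exists_third e₀ y y
  obtain ⟨v, hv, hvy, hvu⟩ := exists_third e₀ y u
  have hem : e₀ = m := eq_line (Ne.symm hvu) hu hv ((hFix u (he₀ u hu)).resolve_right huy)
    ((hFix v (he₀ v hv)).resolve_right hvy)
  have hzy : z = y := (hFix z (centre_fixed hz)).resolve_left fun h => hze (hem ▸ h)
  exact hcon _ e₀ ⟨h3, hzy ▸ hz, he₀⟩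

/-- There is an elation. -/
theorem exists_elation : ∃ (g : G) (a : L), g ∈ El P a ∧ g ≠ 1 := by
  by_contra hcon
  push Not at hcon
  choose gf φ hφ using fun p => every_point_centre hk hpair p
  have huniq : ∀ (g : G) (p : P) (a : L), Hm g p a → a = φ p := by
    intro g p a h
    obtain ⟨t, ht, hta⟩ := exists_elation_map_lines (h.centre_off hk) ((hφ p).centre_off hk)
      ⟨g, h.ne_one, h.2.1, axis_fixed h.2.2⟩
      ⟨gf p, (hφ p).ne_one, (hφ p).2.1, axis_fixed (hφ p).2.2⟩
    obtain ⟨h1, e, he, h2⟩ := mem_ElC.1 ht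
    have ht1 : t = 1 := hcon t e ⟨h2, p, he, h1⟩
    rwa [ht1, one_smul] at hta
  have hinj : Function.Injective φ := by
    intro p q e
    obtain ⟨t, ht, htp⟩ := exists_elation_map ((hφ p).centre_off hk) (e ▸ (hφ q).centre_off hk)
      ⟨gf p, (hφ p).ne_one, (hφ p).2.2, centre_fixed (hφ p).2.1⟩
      ⟨gf q, (hφ q).ne_one, e ▸ (hφ q).2.2, centre_fixed (hφ q).2.1⟩
    rwa [hcon t _ ht, one_smul] at htp
  have hbij : Function.Bijective φ :=
    (Fintype.bijective_iff_injective_and_card φ).2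
      ⟨hinj, ProjectivePlane.card_points_eq_card_lines P L⟩
  have hsymm : ∀ p q, q ∈ φ p → p ∈ φ q := by
    intro p q h
    have hq : gf p • q = q := (hφ p).2.2 q h
    have h1 := (hφ q).conj (gf p)
    rw [hq] at h1
    rcases (hφ p).fixed_line (huniq _ q _ h1) with h2 | h2
    · exact h2
    · exact absurd h ((hinj h2) ▸ (hφ q).centre_off hk)
  have hk1 := ProjectivePlane.one_lt_order P L
  obtain ⟨r, hr, hrk⟩ := Nat.exists_prime_and_dvd (show ProjectivePlane.order P L ≠ 1 by omega)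
  haveI := Fact.mk hr
  have hk0 : ((ProjectivePlane.order P L : ℕ) : ZMod r) = 0 :=
    (ZMod.natCast_eq_zero_iff _ r).2 hrk
  let M : Matrix P P (ZMod r) := Matrix.of fun p q => if q ∈ φ p then 1 else 0
  have hMM : M * M = Matrix.of fun _ _ => 1 := by
    ext p q
    have e : ∀ u : P, M p u * M u q = if u ∈ φ p ∧ u ∈ φ q then 1 else 0 := fun u => by
      simp only [M, Matrix.of_apply]
      rw [show (q ∈ φ u) = (u ∈ φ q) from propext ⟨hsymm u q, hsymm q u⟩]
      by_cases h1 : u ∈ φ p <;> simp [h1]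
    rw [Matrix.mul_apply, Finset.sum_congr rfl fun u _ => e u, Finset.sum_boole, Matrix.of_apply]
    by_cases hpq : p = q
    · subst hpq
      simp only [and_self]
      rw [← Fintype.card_subtype, ← Nat.card_eq_fintype_card, card_on_line, Nat.cast_add, hk0,
        zero_add, Nat.cast_one]
    · obtain ⟨u, hu1, hu2⟩ := exists_meet (P := P) (fun e => hpq (hinj e))
      rw [Finset.card_eq_one.2 ⟨u, Finset.eq_singleton_iff_unique_mem.2 ⟨Finset.mem_filter.2
        ⟨Finset.mem_univ _, hu1, hu2⟩, fun v hv => eq_point (fun e => hpq (hinj e))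
          (Finset.mem_filter.1 hv).2.1 (Finset.mem_filter.1 hv).2.2 hu1 hu2⟩⟩, Nat.cast_one]
  have hJM : (Matrix.of fun _ _ => 1 : Matrix P P (ZMod r)) * M = Matrix.of fun _ _ => 1 := by
    ext p q
    have e : ∀ u : P, (1 : ZMod r) * M u q = if u ∈ φ q then 1 else 0 := fun u => by
      simp only [M, Matrix.of_apply, one_mul]
      rw [show (q ∈ φ u) = (u ∈ φ q) from propext ⟨hsymm u q, hsymm q u⟩]
    rw [Matrix.mul_apply]
    simp only [Matrix.of_apply, e]
    rw [Finset.sum_boole, ← Fintype.card_subtype, ← Nat.card_eq_fintype_card, card_on_line,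
      Nat.cast_add, hk0, zero_add, Nat.cast_one]
  have hpow : ∀ j, M ^ (j + 2) = Matrix.of fun _ _ => 1 := by
    intro j
    induction j with
    | zero => rw [pow_two, hMM]
    | succ j ih => rw [show j + 1 + 2 = (j + 2) + 1 from rfl, pow_succ, ih, hJM]
  have htr : M.trace = 0 := Finset.sum_eq_zero fun p _ => by
    simp only [M, Matrix.diag_apply, Matrix.of_apply]
    exact if_neg ((hφ p).centre_off hk)
  have h1 := ZMod.trace_pow_card M
  obtain ⟨j, hj⟩ : ∃ j, r = j + 2 := ⟨r - 2, by have := hr.two_le; omega⟩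
  rw [htr, zero_pow hr.ne_zero] at h1
  rw [(congrArg (fun i => M ^ i) hj).trans (hpow j), Matrix.trace] at h1
  simp only [Matrix.diag_apply, Matrix.of_apply, Finset.sum_const, Finset.card_univ, nsmul_eq_mul,
    mul_one] at h1
  rw [ProjectivePlane.card_points P L] at h1
  push_cast at h1
  rw [hk0] at h1
  simp at h1

/-- The order is a prime power. -/
theorem isPrimePow_of_homologies : IsPrimePow (ProjectivePlane.order P L) := by
  have hk1 := ProjectivePlane.one_lt_order P L
  have hfin : ∀ p : ℕ, p.Prime → ∀ e, ProjectivePlane.order P L ∣ p ^ e →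
      IsPrimePow (ProjectivePlane.order P L) := by
    intro p hp e he
    obtain ⟨i, -, hi⟩ := (Nat.dvd_prime_pow hp).1 he
    refine ⟨p, i, hp.prime, Nat.pos_of_ne_zero fun h0 => ?_, hi.symm⟩
    rw [hi, h0, pow_zero] at hk1
    omega
  obtain ⟨t₀, l, ht₀, ht₀1⟩ := exists_elation hk hpair
  obtain ⟨hax₀, c, hcl, hc₀⟩ := id ht₀
  by_cases hall : ∀ y : P, y ∈ l → ∃ g ∈ (El P l : Subgroup G), g ≠ 1 ∧ IsCentre L g y
  · -- all points of `l` are centres
    obtain ⟨d, hd, hdc, -⟩ := exists_third l c c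
    obtain ⟨g₁, hg₁, hg₁1, hg₁c⟩ := hall d hd
    obtain ⟨p, hp, hT⟩ := El_isPGroup hg₁ ht₀ hg₁1 ht₀1 hd hcl hg₁c hc₀ hdc
    haveI := Fact.mk hp
    obtain ⟨c₀, hc₀l, hmin⟩ := Finset.exists_min_image (Finset.univ.filter fun y : P => y ∈ l)
      (fun y => Nat.card (El P l ⊓ Ctr L y : Subgroup G))
      ⟨c, Finset.mem_filter.2 ⟨Finset.mem_univ _, hcl⟩⟩
    have h2 : 2 ≤ Nat.card (El P l ⊓ Ctr L c₀ : Subgroup G) := by
      obtain ⟨g, hg, hg1, hgc⟩ := hall c₀ (Finset.mem_filter.1 hc₀l).2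
      haveI : Nontrivial (El P l ⊓ Ctr L c₀ : Subgroup G) :=
        ⟨⟨⟨g, hg, hgc⟩, 1, fun e => hg1 (congrArg Subtype.val e)⟩⟩
      exact Finite.one_lt_card
    have h3 := Finset.card_nsmul_le_sum _ _ _ hmin
    rw [sum_card_centres, ← Fintype.card_subtype, ← Nat.card_eq_fintype_card, card_on_line,
      smul_eq_mul] at h3
    have h4 := card_El_eq_mul (Finset.mem_filter.1 hc₀l).2
      (show ProjectivePlane.order P L * Nat.card (El P l ⊓ Ctr L c₀ : Subgroup G) <
        2 * Nat.card (El P l : Subgroup G) by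
        have := Nat.mul_le_mul_left (ProjectivePlane.order P L) h2
        rw [add_mul, one_mul] at h3
        omega)
    obtain ⟨e, he⟩ := IsPGroup.iff_card.1 hT
    exact hfin p hp e ⟨_, he.symm.trans h4⟩
  push Not at hall
  obtain ⟨y₁, hy₁, hy₁'⟩ := hall
  -- `l` is an axis
  obtain ⟨gx, x, hx⟩ : ∃ (g : G) (x : P), Hm g x l := by
    by_contra hh
    push Not at hh
    obtain ⟨s, hsl, hsc⟩ := (line_not_axis hk hpair hh).1 c y₁ hcl hy₁
    have h1 := hc₀.conj s
    have h2 := El.conj ht₀ s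
    rw [hsl] at h2
    rw [hsc] at h1
    exact hy₁' _ h2 (fun e => ht₀1 (conj_eq_one_iff.1 e)) h1
  have hxl := hx.centre_off hk
  have hxc : x ≠ c := fun e => hxl (e ▸ hcl)
  obtain ⟨b, hxb, hcb⟩ := exists_join (L := L) hxc
  have hbl : b ≠ l := fun e => hxl (e ▸ hxb)
  have hgood : ∀ y, y ∈ l → (∀ g ∈ (El P l : Subgroup G), IsCentre L g y → g = 1) →
      ∃ g : G, Hm g y b := by
    intro y hy hno
    have hyc : y ≠ c := fun e => ht₀1 (hno t₀ ht₀ (e ▸ hc₀))
    have ht₀y : t₀ • y = y := hax₀ y hy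
    have hnoC : ∀ s ∈ (ElC L y : Subgroup G), s = 1 := by
      intro s hs
      obtain ⟨hsy, m, hym, hsm⟩ := mem_ElC.1 hs
      by_cases hml : m = l
      · subst hml
        exact hno s ⟨hsm, y, hym, hsy⟩ hsy
      have hsl : s • l = l := hsy l hy
      have h1 : IsCentre L (t₀ * s * t₀⁻¹ * s⁻¹) y := by
        have := hsy.conj t₀
        rw [ht₀y] at this
        exact (Ctr L y).mul_mem this ((Ctr L y).inv_mem hsy)
      have h2 : IsAxis P (t₀ * s * t₀⁻¹ * s⁻¹) l := by
        have := ((Ax P l).inv_mem hax₀ : IsAxis P t₀⁻¹ l).conj s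
        rw [hsl] at this
        have h : IsAxis P (t₀ * (s * t₀⁻¹ * s⁻¹)) l := (Ax P l).mul_mem hax₀ this
        simpa [mul_assoc] using h
      have h3 : t₀ * s * t₀⁻¹ = s := mul_inv_eq_one.1 (hno _ ⟨h2, y, hy, h1⟩ h1)
      have h4 : IsAxis P s (t₀ • m) := h3 ▸ hsm.conj t₀
      by_contra hs1
      have h5 : t₀ • m = m := by
        by_contra hne
        exact hs1 (eq_one_of_triv (triv_of_two_axes h4 hsm hne))
      obtain ⟨a', ha', hu⟩ := exists_axis hc₀
      have hal : a' = l := by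
        by_contra hne
        exact ht₀1 (eq_one_of_triv (triv_of_two_axes ha' hax₀ hne))
      rcases hu (fun ht => ht₀1 (eq_one_of_triv ht)) m h5 with h6 | h6
      · exact hyc (eq_point hml hym hy h6 hcl)
      · exact hml (h6.trans hal)
    obtain ⟨g, ay, hg⟩ := every_point_centre hk hpair y
    have huniq : ∀ (g' : G) (a' : L), Hm g' y a' → a' = ay := by
      intro g' a' hg'
      obtain ⟨t, ht, hta⟩ := exists_elation_map_lines (hg'.centre_off hk) (hg.centre_off hk)
        ⟨g', hg'.ne_one, hg'.2.1, axis_fixed hg'.2.2⟩ ⟨g, hg.ne_one, hg.2.1, axis_fixed hg.2.2⟩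
      rwa [hnoC t ht, one_smul] at hta
    have hne : ay ≠ l := fun e => hg.centre_off hk (e ▸ hy)
    have hcay : c ∈ ay := by
      have h1 := hg.conj t₀
      rw [ht₀y] at h1
      obtain ⟨a', ha', hu⟩ := exists_axis hc₀
      rcases hu (fun ht => ht₀1 (eq_one_of_triv ht)) ay (huniq _ _ h1) with h2 | h2
      · exact h2
      · by_cases hal : a' = l
        · exact absurd (h2.trans hal) hne
        · exact absurd (eq_one_of_triv (triv_of_two_axes ha' hax₀ hal)) ht₀1
    have hxay : x ∈ ay := by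
      have h1 := hg.conj gx
      rw [hx.2.2 y hy] at h1
      exact (hx.fixed_line (huniq _ _ h1)).resolve_right hne
    exact ⟨g, eq_line hxc hxay hcay hxb hcb ▸ hg⟩
  obtain ⟨gy₁, hgy₁⟩ := hgood y₁ hy₁ fun g hg hgc => by
    by_contra hne; exact hy₁' g hg hne hgc
  -- `c` is the only centre on `l`
  have hEC : ∀ g ∈ (El P l : Subgroup G), g ≠ 1 → ∀ d, d ∈ l → IsCentre L g d → d = c := by
    intro g hg hg1 d hdl hgd
    by_contra hdc
    have ht₀d : g • y₁ = y₁ := hg.1 y₁ hy₁
    have h1 := hgy₁.conj g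
    rw [ht₀d] at h1
    -- both axes of `y₁` are `b`
    have hgb : g • b = b := by
      by_contra hne
      obtain ⟨t, ht, htb⟩ := exists_elation_map_lines (hgy₁.centre_off hk) (h1.centre_off hk)
        ⟨gy₁, hgy₁.ne_one, hgy₁.2.1, axis_fixed hgy₁.2.2⟩
        ⟨_, h1.ne_one, h1.2.1, axis_fixed h1.2.2⟩
      obtain ⟨hty, m, hym, htm⟩ := mem_ElC.1 ht
      by_cases hml : m = l
      · subst hml
        refine hne ?_
        have ht1 : t = 1 := by
          by_contra ht1
          exact hy₁' t ⟨htm, y₁, hym, hty⟩ ht1 hty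
        rw [← htb, ht1, one_smul]
      · -- a commutator argument
        have hs1 : t ≠ 1 := fun e => hne (by rw [← htb, e, one_smul])
        have h2 : IsCentre L (g * t * g⁻¹ * t⁻¹) y₁ := by
          have := hty.conj g
          rw [ht₀d] at this
          exact (Ctr L y₁).mul_mem this ((Ctr L y₁).inv_mem hty)
        have h3 : IsAxis P (g * t * g⁻¹ * t⁻¹) l := by
          have := ((Ax P l).inv_mem hg.1 : IsAxis P g⁻¹ l).conj t
          rw [hty l hy₁] at this
          have h : IsAxis P (g * (t * g⁻¹ * t⁻¹)) l := (Ax P l).mul_mem hg.1 this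
          simpa [mul_assoc] using h
        have h4 : g * t * g⁻¹ = t := by
          rw [← mul_inv_eq_one]
          by_contra hne'
          exact hy₁' _ ⟨h3, y₁, hy₁, h2⟩ hne' h2
        have h5 : g • m = m := by
          by_contra hne'
          exact hs1 (eq_one_of_triv (triv_of_two_axes (h4 ▸ htm.conj g) htm hne'))
        obtain ⟨a', ha', hu⟩ := exists_axis hgd
        have hal : a' = l := by
          by_contra hne'
          exact hg1 (eq_one_of_triv (triv_of_two_axes ha' hg.1 hne'))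
        rcases hu (fun ht => hg1 (eq_one_of_triv ht)) m h5 with h6 | h6
        · have hdy : d = y₁ := eq_point hml h6 hdl hym hy₁
          exact hy₁' g hg hg1 (hdy ▸ hgd)
        · exact hml (h6.trans hal)
    obtain ⟨a', ha', hu⟩ := exists_axis hgd
    rcases hu (fun ht => hg1 (eq_one_of_triv ht)) b hgb with h2 | h2
    · exact hdc (eq_point hbl h2 hdl hcb hcl)
    · by_cases hal : a' = l
      · exact hbl (h2.trans hal)
      · exact hg1 (eq_one_of_triv (triv_of_two_axes ha' hg.1 hal))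
  have hfam : ∀ y, y ∈ l → y ≠ c → ∃ g : G, Hm g y b := fun y hy hyc => hgood y hy fun g hg hgy => by
    by_contra hne
    exact hyc (hEC g hg hne y hy hgy)
  -- elations with axis `b` and centre `c` are transitive on the other points of `l`
  have hy₁c : y₁ ≠ c := fun e => hy₁' t₀ ht₀ ht₀1 (e ▸ hc₀)
  let S : Subgroup G := El P b ⊓ Ctr L c
  have hoffb : ∀ y, y ∈ l → y ≠ c → y ∉ b := fun y hy hyc hyb =>
    hyc (eq_point hbl hyb hy hcb hcl)
  let f : S → {y : P // y ∈ l ∧ y ≠ c} := fun t => ⟨(t : G) • y₁,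
    smul_mem_of_centre t.2.2 hcl hy₁,
    fun e => hy₁c (MulAction.injective (t : G) (e.trans (t.2.1.1 c hcb).symm))⟩
  have hf : Function.Bijective f := by
    refine ⟨fun t s e => ?_, fun u => ?_⟩
    · have e' : (t : G) • y₁ = (s : G) • y₁ := congrArg Subtype.val e
      have := eq_one_of_fixed_off ((El P b).mul_mem ((El P b).inv_mem s.2.1) t.2.1)
        (hoffb y₁ hy₁ hy₁c) (by rw [mul_smul, e', inv_smul_smul])
      exact Subtype.ext (inv_mul_eq_one.1 this).symm
    · obtain ⟨y, hy, hyc⟩ := u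
      obtain ⟨g, hg⟩ := hfam y hy hyc
      obtain ⟨g₁, hg₁⟩ := hfam y₁ hy₁ hy₁c
      obtain ⟨t, ht, hty⟩ := exists_elation_map (hoffb y₁ hy₁ hy₁c) (hoffb y hy hyc)
        ⟨g₁, hg₁.ne_one, hg₁.2.2, centre_fixed hg₁.2.1⟩ ⟨g, hg.ne_one, hg.2.2, centre_fixed hg.2.1⟩
      refine ⟨⟨t, ht, ?_⟩, Subtype.ext hty⟩
      by_cases hyy : y = y₁
      · rw [eq_one_of_fixed_off ht (hoffb y₁ hy₁ hy₁c) (hty.trans hyy)]
        exact (Ctr L c).one_mem
      obtain ⟨-, z, hzb, htz⟩ := ht
      suffices hzc : z = c from hzc ▸ htz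
      obtain ⟨k, hzk, hy₁k⟩ := exists_join (L := L)
        (show z ≠ y₁ from fun e => hoffb y₁ hy₁ hy₁c (e ▸ hzb))
      have hkl : k = l := eq_line hyy (hty ▸ smul_mem_of_centre htz hzk hy₁k) hy₁k hy hy₁
      exact eq_point hbl hzb (hkl ▸ hzk) hcb hcl
  have hScard : Nat.card S = ProjectivePlane.order P L := by
    rw [Nat.card_congr (Equiv.ofBijective f hf), Nat.card_eq_fintype_card, Fintype.card_subtype]
    have h1 : (Finset.univ.filter fun y : P => y ∈ l ∧ y ≠ c) =
        (Finset.univ.filter fun y : P => y ∈ l).erase c := by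
      ext; simp [and_comm]
    have h2 : c ∈ Finset.univ.filter fun y : P => y ∈ l := Finset.mem_filter.2 ⟨Finset.mem_univ _, hcl⟩
    rw [h1, Finset.card_erase_of_mem h2, ← Fintype.card_subtype, ← Nat.card_eq_fintype_card,
      card_on_line]
    rfl
  haveI : Nontrivial S := Finite.one_lt_card_iff_nontrivial.1 (hScard ▸ hk1)
  obtain ⟨s, hs⟩ := exists_ne (1 : S)
  have hsC : ∀ u : S, (u : G) ∈ (ElC L c : Subgroup G) := fun u =>
    mem_ElC.2 ⟨u.2.2, b, hcb, u.2.1.1⟩
  obtain ⟨p, hp, hT⟩ := ElC_isPGroup (mem_ElC.2 ⟨hc₀, l, hcl, hax₀⟩ : t₀ ∈ ElC L c) (hsC s)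
    ht₀1 (fun e => hs (Subtype.ext e)) hcl hcb hax₀ s.2.1.1 (Ne.symm hbl)
  haveI := Fact.mk hp
  obtain ⟨e, he⟩ := IsPGroup.iff_card.1 hT
  exact hfin p hp e (hScard ▸ he ▸ Subgroup.card_dvd_of_le fun u hu => hsC ⟨u, hu⟩)

end Homologies

end CfsgLib.MetacyclicP.OstromWagner
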