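import Cfsg.Agent.Lib.MetacyclicP.OstromWagner.Basic

/-!
# Involutory collineations and fixed subplanes

An involutory collineation has an axis or fixes a subplane whose order is the square root of the
order of the plane. A `2`-group fixing a quadrangle fixes a subplane of order a `2 ^ i`-th root.
-/

set_option autoImplicit false
set_option linter.style.haveILetI false
set_option linter.unusedSectionVars false

namespace CfsgLib.MetacyclicP.OstromWagner

open Configuration
open scoped Classical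

variable {P L : Type*} [Membership P L] [Configuration.ProjectivePlane P L] [Fintype P] [Fintype L]
variable {G : Type*} [Group G] [MulAction G P] [MulAction G L] [IncAct G P L]

theorem card_mod_two {α : Type*} [Fintype α] (σ : α → α) (h : ∀ x, σ (σ x) = x) :
    Fintype.card α % 2 = Nat.card {x : α // σ x = x} % 2 := by
  have h0 : ((Finset.univ.filter fun x : α => ¬ σ x = x).card : ZMod 2) = 0 := by
    rw [Finset.card_eq_sum_ones, Nat.cast_sum]
    refine Finset.sum_involution (fun x _ => σ x) (fun x _ => ?_) (fun x hx _ => (Finset.mem_filter.1 hx).2)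
      (fun x hx => ?_) (fun x _ => h x)
    · rw [Nat.cast_one]; decide
    · refine Finset.mem_filter.2 ⟨Finset.mem_univ _, fun e => (Finset.mem_filter.1 hx).2 ?_⟩
      rw [h] at e
      exact e.symm
  have h1 := Finset.card_filter_add_card_filter_not (s := (Finset.univ : Finset α)) (fun x => σ x = x)
  rw [Nat.card_eq_fintype_card, Fintype.card_subtype, ← Finset.card_univ, ← h1, Nat.add_mod,
    Nat.dvd_iff_mod_eq_zero.1 ((ZMod.natCast_eq_zero_iff _ 2).1 h0)]
  simp

theorem card_points_odd (P L : Type*) [Membership P L] [Configuration.ProjectivePlane P L]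
    [Fintype P] [Fintype L] : Fintype.card P % 2 = 1 := by
  have he : Even (ProjectivePlane.order P L * (ProjectivePlane.order P L + 1)) := Nat.even_mul_succ_self _
  obtain ⟨r, hr⟩ := he
  have h := ProjectivePlane.card_points P L
  rw [h, show ProjectivePlane.order P L ^ 2 + ProjectivePlane.order P L + 1 =
    (r + r) + 1 by rw [← hr]; ring]
  omega

/-- An involutory collineation. -/
def Inv (P : Type*) [MulAction G P] (g : G) : Prop := (∀ p : P, g • g • p = p) ∧ ¬ Triv P g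

theorem Inv.line_sq {g : G} (h : Inv P g) (l : L) : g • g • l = l := by
  rw [← mul_smul]
  exact Triv.line (P := P) (g := g * g) (fun p => by rw [mul_smul]; exact h.1 p) l

theorem join_image_fixed {g : G} (h : ∀ p : P, g • g • p = p) {q : P} {m : L}
    (hne : q ≠ g • q) (h1 : q ∈ m) (h2 : g • q ∈ m) : g • m = m :=
  eq_line hne (h q ▸ mem_smul_of_mem g h2) (mem_smul_of_mem g h1) h1 h2

theorem Inv.fixed_line_through {g : G} (h : Inv P g) (p : P) : ∃ l : L, p ∈ l ∧ g • l = l := by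
  by_cases hp : g • p = p
  swap
  · obtain ⟨l, h1, h2⟩ := exists_join (L := L) (Ne.symm hp)
    exact ⟨l, h1, join_image_fixed h.1 (Ne.symm hp) h1 h2⟩
  by_contra hcon
  push Not at hcon
  -- the join of a moved point and its image avoids `p`
  have havoid : ∀ q : P, g • q ≠ q → ∃ F : L, q ∈ F ∧ g • F = F ∧ p ∉ F := by
    intro q hq
    obtain ⟨F, h1, h2⟩ := exists_join (L := L) (Ne.symm hq)
    have hF := join_image_fixed h.1 (Ne.symm hq) h1 h2
    exact ⟨F, h1, hF, fun hpF => hcon F hpF hF⟩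
  have huniq : ∀ F F' : L, g • F = F → g • F' = F' → p ∉ F → F = F' := by
    intro F F' hF hF' hpF
    by_contra hne
    obtain ⟨y, hy, hy'⟩ := exists_meet (P := P) hne
    have hyfix := point_fixed hne hF hF' hy hy'
    have hpy : p ≠ y := fun e => hpF (e ▸ hy)
    obtain ⟨l, hl, hl'⟩ := exists_join (L := L) hpy
    exact hcon l hl (line_fixed hpy hp hyfix hl hl')
  obtain ⟨q₀, hq₀⟩ : ∃ q, g • q ≠ q := by
    by_contra hh; push Not at hh; exact h.2 hh
  obtain ⟨F, hq₀F, hF, hpF⟩ := havoid q₀ hq₀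
  -- every point other than `p` is on `F`
  have hall : ∀ q : P, q ≠ p → q ∈ F := by
    intro q hqp
    by_cases hq : g • q = q
    · obtain ⟨l, hl, hl'⟩ := exists_join (L := L) hqp
      exact absurd (line_fixed hqp hq hp hl hl') (hcon l hl')
    · obtain ⟨F', hqF', hF', hpF'⟩ := havoid q hq
      exact (huniq F F' hF hF' hpF) ▸ hqF'
  obtain ⟨l, hl, -⟩ := exists_join (L := L) (show p ≠ q₀ from fun e => hpF (e ▸ hq₀F))
  obtain ⟨x, hx, hxp, -⟩ := exists_third l p p
  obtain ⟨y, hy, hyp, hyx⟩ := exists_third l p x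
  exact hpF (eq_line (Ne.symm hyx) hx hy (hall x hxp) (hall y hyp) ▸ hl)

theorem Inv.fixed_point_on {g : G} (h : Inv P g) (l : L) : ∃ p : P, p ∈ l ∧ g • p = p := by
  have hd : Inv (Configuration.Dual L) g :=
    ⟨fun m => h.line_sq (L := L) m, fun ht => h.2 (triv_of_lines (L := L) ht)⟩
  let l' : Configuration.Dual L := l
  obtain ⟨p, hp, hp'⟩ := Inv.fixed_line_through (P := Configuration.Dual L)
    (L := Configuration.Dual P) hd l'
  exact ⟨p, hp, hp'⟩

/-- Without fixed quadrangle an involution has an axis. -/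
theorem Inv.exists_axis_of_no_quad {g : G} (h : Inv P g)
    (hq : ¬ Quad L {p : P | g • p = p}) : ∃ a : L, IsAxis P g a := by
  set S : Set P := {p : P | g • p = p} with hS
  obtain ⟨a₀, -⟩ := @ProjectivePlane.exists_config P L _ _
  -- two fixed points
  obtain ⟨l₀, -⟩ := Nondegenerate.exists_line (P := P) (L := L) a₀
  obtain ⟨a, hal, haS⟩ := h.fixed_point_on l₀
  obtain ⟨l₁, hal₁⟩ := Nondegenerate.exists_line (P := P) (L := L) a
  obtain ⟨b, hbl, hbS⟩ := h.fixed_point_on l₁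
  have hab : a ≠ b := fun e => hal₁ (e ▸ hbl)
  obtain ⟨m, ham, hbm⟩ := exists_join (L := L) hab
  by_cases hcol : ∀ p ∈ S, p ∈ m
  · refine ⟨m, fun p hp => ?_⟩
    by_contra hne
    obtain ⟨q, hq'⟩ := Nondegenerate.exists_point (P := P) m
    obtain ⟨k, hqk, hpk⟩ := exists_join (L := L) (show q ≠ p from fun e => hq' (e ▸ hp))
    obtain ⟨r, hrk, hrS⟩ := h.fixed_point_on k
    exact hne ((eq_point (fun e : k = m => hq' (e ▸ hqk)) hrk (hcol r hrS) hpk hp) ▸ hrS)
  push Not at hcol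
  obtain ⟨c, hcS, hcm⟩ := hcol
  have habc : NC L a b c := fun l h1 h2 h3 => hcm (eq_line hab h1 h2 ham hbm ▸ h3)
  -- every further fixed point is on a side of the triangle
  have hside : ∀ {a b c : P}, a ∈ S → b ∈ S → c ∈ S → NC L a b c → ∀ d ∈ S,
      (∃ l : L, a ∈ l ∧ b ∈ l ∧ d ∈ l) ∨ (∃ l : L, a ∈ l ∧ c ∈ l ∧ d ∈ l) ∨
        ∃ l : L, b ∈ l ∧ c ∈ l ∧ d ∈ l := by
    intro a b c ha hb hc hn d hd
    by_contra hcon
    push Not at hcon
    exact hq ⟨a, b, c, d, ha, hb, hc, hd, hn, fun l h1 h2 h3 => hcon.1 l h1 h2 h3,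
      fun l h1 h2 h3 => hcon.2.1 l h1 h2 h3, fun l h1 h2 h3 => hcon.2.2 l h1 h2 h3⟩
  -- they are all on one side
  have key : ∀ {a b c : P}, a ∈ S → b ∈ S → c ∈ S → NC L a b c → ∀ d ∈ S, d ≠ a → d ≠ b →
      (∃ l : L, a ∈ l ∧ b ∈ l ∧ d ∈ l) → ∀ e ∈ S, e ≠ c → ∃ l : L, a ∈ l ∧ b ∈ l ∧ e ∈ l := by
    intro a b c ha hb hc hn d hd hda hdb ⟨l, hal, hbl, hdl⟩ e he hec
    have hcl : c ∉ l := fun hh => hn l hal hbl hh
    by_contra hcon
    have hel : e ∉ l := fun hh => hcon ⟨l, hal, hbl, hh⟩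
    have hn' : NC L a d c := fun k h1 h2 h3 => hcl (eq_line (Ne.symm hda) h1 h2 hal hdl ▸ h3)
    have hn'' : NC L b d c := fun k h1 h2 h3 => hcl (eq_line (Ne.symm hdb) h1 h2 hbl hdl ▸ h3)
    have hA : ∀ {x y : P}, x ∈ l → y ∈ l → x ≠ y → ∀ k : L, x ∈ k → y ∈ k → e ∈ k → False :=
      fun hx hy hxy k h1 h2 h3 => hel (eq_line hxy h1 h2 hx hy ▸ h3)
    -- `e` is on two of the three lines joining `c` to `a`, `b`, `d`
    rcases hside ha hb hc hn e he with ⟨k, h1, h2, h3⟩ | ⟨k, h1, h2, h3⟩ | ⟨k, h1, h2, h3⟩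
    · exact hA hal hbl hn.ne k h1 h2 h3
    · rcases hside hb hd hc hn'' e he with ⟨k', h4, h5, h6⟩ | ⟨k', h4, h5, h6⟩ | ⟨k', h4, h5, h6⟩
      · exact hA hbl hdl (Ne.symm hdb) k' h4 h5 h6
      · exact hn k h1 (eq_line (Ne.symm hec) h5 h6 h2 h3 ▸ h4) h2
      · exact hn' k h1 (eq_line (Ne.symm hec) h5 h6 h2 h3 ▸ h4) h2
    · rcases hside ha hd hc hn' e he with ⟨k', h4, h5, h6⟩ | ⟨k', h4, h5, h6⟩ | ⟨k', h4, h5, h6⟩
      · exact hA hal hdl (Ne.symm hda) k' h4 h5 h6
      · exact hn k (eq_line (Ne.symm hec) h5 h6 h2 h3 ▸ h4) h1 h2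
      · exact hn'' k h1 (eq_line (Ne.symm hec) h5 h6 h2 h3 ▸ h4) h2
  -- one side and the opposite vertex meet every line, so the side is fixed
  have fin : ∀ {a b c : P}, a ∈ S → b ∈ S → c ∈ S → NC L a b c →
      (∀ e ∈ S, e ≠ c → ∃ l : L, a ∈ l ∧ b ∈ l ∧ e ∈ l) → ∃ l : L, IsAxis P g l := by
    intro a b c ha hb hc hn hall
    obtain ⟨l, hal, hbl⟩ := exists_join (L := L) hn.ne
    refine ⟨l, fun p hp => ?_⟩
    by_contra hne
    have hpc : p ≠ c := fun e => hne (e ▸ hc)
    obtain ⟨kc, hpkc, hckc⟩ := exists_join (L := L) hpc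
    obtain ⟨q, hql, hqkc⟩ := exists_off_two (P := P) l kc
    obtain ⟨k, hpk, hqk⟩ := exists_join (L := L) (show p ≠ q from fun e => hql (e ▸ hp))
    obtain ⟨r, hrk, hrS⟩ := h.fixed_point_on k
    by_cases hrc : r = c
    · exact hqkc (eq_line hpc hpk (hrc ▸ hrk) hpkc hckc ▸ hqk)
    · obtain ⟨l', h1, h2, h3⟩ := hall r hrS hrc
      have hl : l' = l := eq_line hn.ne h1 h2 hal hbl
      exact hne (eq_point (fun e : k = l => hql (e ▸ hqk)) hrk (hl ▸ h3) hpk hp ▸ hrS)
  by_cases hmore : ∃ d ∈ S, d ≠ a ∧ d ≠ b ∧ d ≠ c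
  · obtain ⟨d, hdS, hda, hdb, hdc⟩ := hmore
    rcases hside haS hbS hcS habc d hdS with hh | hh | hh
    · exact fin haS hbS hcS habc (key haS hbS hcS habc d hdS hda hdb hh)
    · have hn : NC L a c b := fun l h1 h2 h3 => habc l h1 h3 h2
      exact fin haS hcS hbS hn (key haS hcS hbS hn d hdS hda hdc hh)
    · have hn : NC L b c a := fun l h1 h2 h3 => habc l h3 h1 h2
      exact fin hbS hcS haS hn (key hbS hcS haS hn d hdS hdb hdc hh)
  · push Not at hmore
    refine fin haS hbS hcS habc fun e he hec => ⟨m, ham, hbm, ?_⟩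
    by_cases hea : e = a
    · exact hea ▸ ham
    · by_cases heb : e = b
      · exact heb ▸ hbm
      · exact absurd (hmore e he hea heb) hec

/-- In a plane of odd order the centre of an involution is off the axis. -/
theorem Inv.centre_off_axis {g : G} (h : Inv P g) (hn : Odd (ProjectivePlane.order P L)) {a : L}
    (ha : IsAxis P g a) {c : P} (hc : IsCentre L g c) : c ∉ a := by
  intro hca
  have honly : ∀ p, g • p = p → p ∈ a := by
    intro p hp
    by_contra hpa
    have hpc : p ≠ c := fun e => hpa (e ▸ hca)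
    obtain ⟨k, hpk, hck⟩ := exists_join (L := L) hpc
    obtain ⟨q, hqa, hqk⟩ := exists_off_two (P := P) a k
    have hqp : q ≠ p := fun e => hqk (e ▸ hpk)
    have hqc : q ≠ c := fun e => hqk (e ▸ hck)
    obtain ⟨l₁, h11, h12⟩ := exists_join (L := L) hqp
    obtain ⟨l₂, h21, h22⟩ := exists_join (L := L) hqc
    have hne : l₁ ≠ l₂ := fun e => hqk (eq_line hpc h12 (e ▸ h22) hpk hck ▸ h11)
    have hq : g • q = q :=
      point_fixed hne (centre_of_fixed ha hp hpa l₁ h12) (hc l₂ h22) h11 h21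
    exact h.2 (triv_of_axis ha hqp hq hp hqa hpa)
  obtain ⟨q, hqa⟩ := Nondegenerate.exists_point (P := P) a
  obtain ⟨l, hcl, hql⟩ := exists_join (L := L) (show c ≠ q from fun e => hqa (e ▸ hca))
  have hla : l ≠ a := fun e => hqa (e ▸ hql)
  let σ : {p : P // p ∈ l} → {p : P // p ∈ l} := fun p => ⟨g • p.1, by
    have h' := mem_smul_of_mem g p.2; rwa [hc l hcl] at h'⟩
  have hσ : ∀ p, σ (σ p) = p := fun p => Subtype.ext (h.1 p.1)
  have h2 := card_mod_two σ hσ
  have hone : Nat.card {x // σ x = x} = 1 := by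
    rw [Nat.card_eq_one_iff_unique]
    refine ⟨⟨fun x y => ?_⟩, ⟨⟨⟨c, hcl⟩, Subtype.ext (ha c hca)⟩⟩⟩
    have key : ∀ z : {x // σ x = x}, z.1.1 = c := fun z =>
      eq_point hla z.1.2 (honly z.1.1 (congrArg Subtype.val z.2)) hcl hca
    exact Subtype.ext (Subtype.ext ((key x).trans (key y).symm))
  rw [hone, ← Nat.card_eq_fintype_card, card_on_line] at h2
  obtain ⟨r, hr⟩ := hn
  omega

end CfsgLib.MetacyclicP.OstromWagner
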