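import Cfsg.Agent.Lib.MetacyclicP.OstromWagner.Existence

/-!
# All elations exist

In a plane with a doubly transitive collineation group every flag carries as many elations as
possible.
-/

set_option autoImplicit false
set_option linter.style.haveILetI false
set_option linter.unusedSectionVars false

namespace CfsgLib.MetacyclicP.OstromWagner

open Configuration
open scoped Classical

variable {P L : Type*} [Membership P L] [Configuration.ProjectivePlane P L] [Fintype P] [Fintype L]
variable {G : Type*} [Group G] [MulAction G P] [MulAction G L] [IncAct G P L]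
variable [Finite G] [FaithfulSMul G P]
variable (h2t : ∀ p₁ p₂ q₁ q₂ : P, p₁ ≠ p₂ → q₁ ≠ q₂ → ∃ g : G, g • p₁ = q₁ ∧ g • p₂ = q₂)

include h2t

theorem exists_elation_ne_one : ∃ (g : G) (a : L), g ∈ El P a ∧ g ≠ 1 := by
  obtain ⟨g, a, ha, hg⟩ := exists_perspectivity (L := L) h2t
  by_cases hel : g ∈ El P a
  · exact ⟨g, a, hel, hg⟩
  obtain ⟨x, hxa, hgx, -⟩ := exists_fixed_off ha hel
  obtain ⟨k, hxk⟩ : ∃ k : L, x ∈ k := by
    obtain ⟨p, hp, -⟩ := exists_third a x x
    obtain ⟨k, hk, -⟩ := exists_join (L := L) (show x ≠ p from fun e => hxa (e ▸ hp))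
    exact ⟨k, hk⟩
  have hka : k ≠ a := fun e => hxa (e ▸ hxk)
  obtain ⟨z, hzk, hza⟩ := exists_meet (P := P) hka
  obtain ⟨y, hyk, hyx, hyz⟩ := exists_third k x z
  have hya : y ∉ a := fun h => hyz (eq_point hka hyk h hzk hza)
  obtain ⟨s, hs, hsa⟩ := exists_smul_antiflag h2t hxa hya
  have h1 := ha.conj s
  rw [hsa] at h1
  obtain ⟨t, ht, htx⟩ := exists_elation_map hxa hya ⟨g, hg, ha, hgx⟩
    ⟨s * g * s⁻¹, fun e => hg (conj_eq_one_iff.1 e), h1, by
      rw [← hs, mul_smul, mul_smul, inv_smul_smul, hgx]⟩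
  exact ⟨t, a, ht, fun e => hyx (by rw [← htx, e, one_smul])⟩

theorem card_flag_eq {a a' : L} {c c' : P} (hc : c ∈ a) (hc' : c' ∈ a') :
    Nat.card (El P a ⊓ Ctr L c : Subgroup G) ≤ Nat.card (El P a' ⊓ Ctr L c' : Subgroup G) := by
  obtain ⟨s, hs, hsa⟩ := exists_smul_flag h2t hc hc'
  subst hs hsa
  refine Nat.card_le_card_of_injective (fun t => ⟨s * (t : G) * s⁻¹, El.conj t.2.1 s, t.2.2.conj s⟩)
    fun t u e => Subtype.ext ?_
  have e' : s * (t : G) * s⁻¹ = s * (u : G) * s⁻¹ := congrArg Subtype.val e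
  exact mul_left_cancel (mul_right_cancel e')

/-- The elations of a flag form a group of order `n`, those of a line one of order `n ^ 2`. -/
theorem card_flag_El {a : L} {c : P} (hc : c ∈ a) :
    Nat.card (El P a ⊓ Ctr L c : Subgroup G) = ProjectivePlane.order P L ∧
      Nat.card (El P a : Subgroup G) = ProjectivePlane.order P L ^ 2 := by
  set n := ProjectivePlane.order P L with hn
  have hn1 : 1 < n := ProjectivePlane.one_lt_order P L
  set h := Nat.card (El P a ⊓ Ctr L c : Subgroup G) with hh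
  have heq : ∀ d, d ∈ a → Nat.card (El P a ⊓ Ctr L d : Subgroup G) = h := fun d hd =>
    le_antisymm (card_flag_eq h2t hd hc) (card_flag_eq h2t hc hd)
  have h2 : 2 ≤ h := by
    obtain ⟨g, b, hg, hg1⟩ := exists_elation_ne_one (L := L) h2t
    obtain ⟨hgb, d, hd, hgd⟩ := id hg
    refine le_trans ?_ (card_flag_eq h2t hd hc)
    haveI : Nontrivial (El P b ⊓ Ctr L d : Subgroup G) :=
      ⟨⟨⟨g, hg, hgd⟩, 1, fun e => hg1 (congrArg Subtype.val e)⟩⟩
    exact Finite.one_lt_card
  have hsum := sum_card_centres (G := G) a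
  rw [Finset.sum_congr rfl (fun d hd => heq d (Finset.mem_filter.1 hd).2), Finset.sum_const,
    ← Fintype.card_subtype, ← Nat.card_eq_fintype_card, card_on_line, smul_eq_mul, ← hn, add_mul,
    one_mul] at hsum
  have hlt : n * h < 2 * Nat.card (El P a : Subgroup G) := by
    have := Nat.mul_le_mul_left n h2
    omega
  have hT := card_El_eq_mul hc hlt
  rw [← hh, ← hn] at hT
  have hhn : h = n := by omega
  exact ⟨hhn, by rw [hT, hhn, pow_two]⟩

/-- Elations with given centre and axis move any point of a line through the centre to any other. -/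
theorem exists_shear {a m : L} {c p q : P} (hc : c ∈ a) (hcm : c ∈ m) (hma : m ≠ a) (hp : p ∈ m)
    (hq : q ∈ m) (hpc : p ≠ c) (hqc : q ≠ c) :
    ∃ t ∈ (El P a : Subgroup G), IsCentre L t c ∧ t • p = q := by
  haveI := Fintype.ofFinite G
  have hpa : p ∉ a := fun h => hpc (eq_point hma hp h hcm hc)
  set S := (Finset.univ.filter fun u : P => u ∈ m).erase c with hS
  have hScard : S.card = ProjectivePlane.order P L := by
    have hmem : c ∈ Finset.univ.filter fun u : P => u ∈ m := Finset.mem_filter.2 ⟨Finset.mem_univ _, hcm⟩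
    rw [hS, Finset.card_erase_of_mem hmem, ← Fintype.card_subtype, ← Nat.card_eq_fintype_card,
      card_on_line]
    rfl
  have hin : Function.Injective fun t : (El P a ⊓ Ctr L c : Subgroup G) => (t : G) • p := by
    intro t u (e : (t : G) • p = (u : G) • p)
    have h5 := eq_one_of_fixed_off ((El P a).mul_mem ((El P a).inv_mem u.2.1) t.2.1) hpa
      (by rw [mul_smul, e, inv_smul_smul])
    exact Subtype.ext (inv_mul_eq_one.1 h5).symm
  have himg : Finset.univ.image (fun t : (El P a ⊓ Ctr L c : Subgroup G) => (t : G) • p) = S := by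
    refine Finset.eq_of_subset_of_card_le (fun u hu => ?_) ?_
    · obtain ⟨t, -, rfl⟩ := Finset.mem_image.1 hu
      exact Finset.mem_erase.2 ⟨fun e => hpc (MulAction.injective (t : G)
        (e.trans (t.2.1.1 c hc).symm)), Finset.mem_filter.2
          ⟨Finset.mem_univ _, smul_mem_of_centre t.2.2 hcm hp⟩⟩
    · rw [Finset.card_image_of_injective _ hin, Finset.card_univ, ← Nat.card_eq_fintype_card,
        (card_flag_El h2t hc).1, hScard]
  have hqS : q ∈ S := Finset.mem_erase.2 ⟨hqc, Finset.mem_filter.2 ⟨Finset.mem_univ _, hq⟩⟩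
  rw [← himg] at hqS
  obtain ⟨t, -, ht⟩ := Finset.mem_image.1 hqS
  exact ⟨t.1, t.2.1, t.2.2, ht⟩

/-- The translations are transitive. -/
theorem exists_translation {a : L} {p q : P} (hp : p ∉ a) (hq : q ∉ a) :
    ∃ t ∈ (El P a : Subgroup G), t • p = q := by
  by_cases hpq : p = q
  · exact ⟨1, (El P a).one_mem, by rw [one_smul, hpq]⟩
  obtain ⟨m, hpm, hqm⟩ := exists_join (L := L) hpq
  have hma : m ≠ a := fun e => hp (e ▸ hpm)
  obtain ⟨c, hcm, hca⟩ := exists_meet (P := P) hma
  obtain ⟨t, ht, -, htp⟩ := exists_shear h2t hca hcm hma hpm hqm (fun e => hp (e ▸ hca))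
    fun e => hq (e ▸ hca)
  exact ⟨t, ht, htp⟩

/-- The translations commute. -/
theorem translations_comm (a : L) :
    ∀ g ∈ (El P a : Subgroup G), ∀ h ∈ (El P a : Subgroup G), g * h = h * g := by
  obtain ⟨x, hx⟩ := Nondegenerate.exists_point (P := P) a
  obtain ⟨c, hc, -⟩ := exists_third a x x
  obtain ⟨d, hd, hdc, -⟩ := exists_third a c c
  have key : ∀ e, e ∈ a → ∃ g : G, g ∈ El P a ∧ g ≠ 1 ∧ IsCentre L g e := by
    intro e he
    obtain ⟨m, hem, hxm⟩ := exists_join (L := L) (show e ≠ x from fun h => hx (h ▸ he))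
    obtain ⟨q, hq, hqe, hqx⟩ := exists_third m e x
    obtain ⟨t, ht, hte, htx⟩ := exists_shear h2t he hem (fun h => hx (h ▸ hxm)) hxm hq
      (fun h => hx (h ▸ he)) hqe
    exact ⟨t, ht, fun h => hqx (by rw [← htx, h, one_smul]), hte⟩
  obtain ⟨g₁, h₁, n₁, c₁⟩ := key c hc
  obtain ⟨g₂, h₂, n₂, c₂⟩ := key d hd
  exact El_comm h₁ h₂ n₁ n₂ hc hd c₁ c₂ (Ne.symm hdc)

end CfsgLib.MetacyclicP.OstromWagner
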