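import Cfsg.Agent.Lib.MetacyclicP.OstromWagner.Involution

/-!
# Groups of perspectivities

The elations with a given axis form a group; it is transitive on the centres, off the axis, of
perspectivities with that axis; it is elementary abelian if two centres on the axis occur.
-/

set_option autoImplicit false
set_option linter.style.haveILetI false
set_option linter.unusedSectionVars false

namespace CfsgLib.MetacyclicP.OstromWagner

open Configuration
open scoped Classical

variable {P L : Type*} [Membership P L] [Configuration.ProjectivePlane P L] [Fintype P] [Fintype L]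
variable {G : Type*} [Group G] [MulAction G P] [MulAction G L] [IncAct G P L]

theorem centre_fixed {g : G} {c : P} (h : IsCentre L g c) : g • c = c :=
  axis_fixed (P := Configuration.Dual L) (L := Configuration.Dual P) (G := G) h

theorem smul_mem_of_centre {g : G} {c p : P} {m : L} (h : IsCentre L g c) (hc : c ∈ m)
    (hp : p ∈ m) : g • p ∈ m := by
  have h1 := mem_smul_of_mem g hp
  rwa [h m hc] at h1

theorem triv_of_two_axes {g : G} {a a' : L} (h : IsAxis P g a) (h' : IsAxis P g a') (hne : a ≠ a') :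
    Triv P g := by
  obtain ⟨x, hx, hx'⟩ := exists_meet (P := P) hne
  obtain ⟨p, hp, hpx, -⟩ := exists_third a' x x
  obtain ⟨q, hq, hqx, hqp⟩ := exists_third a' x p
  exact triv_of_axis h (Ne.symm hqp) (h' p hp) (h' q hq) (fun hpa => hpx (eq_point hne hpa hp hx hx'))
    fun hqa => hqx (eq_point hne hqa hq hx hx')

theorem triv_of_two_centres {g : G} {c c' : P} (h : IsCentre L g c) (h' : IsCentre L g c')
    (hne : c ≠ c') : Triv P g :=
  triv_of_lines (L := L) (triv_of_two_axes (P := Configuration.Dual L) (L := Configuration.Dual P)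
    (G := G) h h' hne)

theorem eq_one_of_triv [FaithfulSMul G P] {g : G} (h : Triv P g) : g = 1 :=
  eq_of_smul_eq_smul fun p : P => by rw [h p, one_smul]

theorem faithful_dual [FaithfulSMul G P] : FaithfulSMul G (Configuration.Dual L) :=
  ⟨fun {g g'} h => by
    have h1 : ∀ l : L, (g'⁻¹ * g) • l = l := fun l => by
      have h2 : g • l = g' • l := h l
      rw [mul_smul, h2, inv_smul_smul]
    exact (inv_mul_eq_one.1 (eq_one_of_triv (triv_of_lines (P := P) h1))).symm⟩

variable (P) in
/-- The collineations fixing the points of `a`. -/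
def Ax (a : L) : Subgroup G where
  carrier := {g | IsAxis P g a}
  one_mem' _ _ := one_smul G _
  mul_mem' {g h} hg hh p hp := by rw [mul_smul, hh p hp, hg p hp]
  inv_mem' {g} hg p hp := inv_smul_eq_iff.2 (hg p hp).symm

variable (L) in
/-- The collineations fixing the lines through `c`. -/
def Ctr (c : P) : Subgroup G where
  carrier := {g | IsCentre L g c}
  one_mem' _ _ := one_smul G _
  mul_mem' {g h} hg hh p hp := by rw [mul_smul, hh p hp, hg p hp]
  inv_mem' {g} hg p hp := inv_smul_eq_iff.2 (hg p hp).symm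

theorem IsAxis.conj {g : G} {a : L} (h : IsAxis P g a) (s : G) :
    IsAxis P (s * g * s⁻¹) (s • a) := by
  intro p hp
  rw [mul_smul, mul_smul, h (s⁻¹ • p) (by rw [smul_mem_iff, inv_inv]; exact hp), smul_inv_smul]

theorem IsCentre.conj {g : G} {c : P} (h : IsCentre L g c) (s : G) :
    IsCentre L (s * g * s⁻¹) (s • c) :=
  IsAxis.conj (P := Configuration.Dual L) (L := Configuration.Dual P) (G := G) h s

section Elations

variable [FaithfulSMul G P]

variable (P) in
/-- The elations with axis `a`. -/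
def El (a : L) : Subgroup G where
  carrier := {g | IsAxis P g a ∧ ∃ c, c ∈ a ∧ IsCentre L g c}
  one_mem' := by
    obtain ⟨c, hc, -, -⟩ := exists_third a
      (Classical.choose (Nondegenerate.exists_point (P := P) a))
      (Classical.choose (Nondegenerate.exists_point (P := P) a))
    exact ⟨(Ax P a).one_mem, c, hc, (Ctr L c).one_mem⟩
  inv_mem' {g} hg := by
    obtain ⟨h1, c, hc, h2⟩ := hg
    exact ⟨(Ax P a).inv_mem h1, c, hc, (Ctr L c).inv_mem h2⟩
  mul_mem' {g h} hg hh := by
    obtain ⟨hg1, cg, hcg, hg2⟩ := hg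
    obtain ⟨hh1, ch, hch, hh2⟩ := hh
    have h3 : IsAxis P (g * h) a := (Ax P a).mul_mem hg1 hh1
    refine ⟨h3, ?_⟩
    obtain ⟨c, hc, -⟩ := exists_centre h3
    by_cases hca : c ∈ a
    · exact ⟨c, hca, hc⟩
    by_cases hcc : cg = ch
    · exact ⟨cg, hcg, (Ctr L cg).mul_mem hg2 (hcc ▸ hh2)⟩
    -- otherwise `h` fixes `c`
    obtain ⟨mg, hgm, hcmg⟩ := exists_join (L := L) (show cg ≠ c from fun e => hca (e ▸ hcg))
    obtain ⟨mh, hhm, hcmh⟩ := exists_join (L := L) (show ch ≠ c from fun e => hca (e ▸ hch))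
    have hne : mg ≠ mh := fun e =>
      hcc (eq_point (fun e' : mg = a => hca (e' ▸ hcmg)) hgm hcg (e ▸ hhm) hch)
    have h4 : h • c ∈ mg := by
      have h5 : h • c = g⁻¹ • c := by
        rw [eq_inv_smul_iff, ← mul_smul, centre_fixed hc]
      rw [h5]
      exact smul_mem_of_centre ((Ctr L cg).inv_mem hg2) hgm hcmg
    have h6 : h • c = c := eq_point hne h4 (smul_mem_of_centre hh2 hhm hcmh) hcmg hcmh
    have h7 : h = 1 :=
      eq_one_of_triv (triv_of_two_centres (centre_of_fixed hh1 h6 hca) hh2 fun e => hca (e ▸ hch))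
    exact ⟨cg, hcg, by rw [h7, mul_one]; exact hg2⟩

theorem mem_El {g : G} {a : L} :
    g ∈ El P a ↔ IsAxis P g a ∧ ∃ c, c ∈ a ∧ IsCentre L g c := Iff.rfl

/-- An elation other than the identity has no fixed point off its axis. -/
theorem eq_one_of_fixed_off {g : G} {a : L} (h : g ∈ El P a) {p : P} (hp : p ∉ a)
    (hgp : g • p = p) : g = 1 := by
  obtain ⟨h1, c, hc, h2⟩ := h
  exact eq_one_of_triv (triv_of_two_centres (centre_of_fixed h1 hgp hp) h2 fun e => hp (e ▸ hc))

theorem eq_one_of_centres {g : G} {c c' : P} (h : IsCentre L g c) (h' : IsCentre L g c')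
    (hne : c ≠ c') : g = 1 :=
  eq_one_of_triv (triv_of_two_centres h h' hne)

/-- An axial collineation outside the elations fixes exactly one point off its axis. -/
theorem exists_fixed_off {g : G} {a : L} (h : IsAxis P g a) (hel : g ∉ El P a) :
    ∃ c, c ∉ a ∧ g • c = c ∧ ∀ p, g • p = p → p ∉ a → p = c := by
  obtain ⟨c, hc, hu⟩ := exists_centre h
  have hca : c ∉ a := fun hh => hel ⟨h, c, hh, hc⟩
  have hnt : ¬ Triv P g := fun ht => hel (eq_one_of_triv ht ▸ (El P a).one_mem)
  exact ⟨c, hca, centre_fixed hc, fun p hp hpa => (hu hnt p hp).resolve_left hpa⟩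

theorem El.conj {g : G} {a : L} (h : g ∈ El P a) (s : G) : s * g * s⁻¹ ∈ El P (s • a) := by
  obtain ⟨h1, c, hc, h2⟩ := h
  exact ⟨h1.conj s, s • c, mem_smul_of_mem s hc, h2.conj s⟩

theorem odd_card_El [Finite G] (hn : Odd (ProjectivePlane.order P L)) (a : L) :
    Odd (Nat.card (El P a : Subgroup G)) := by
  by_contra hodd
  haveI : Fact (Nat.Prime 2) := ⟨Nat.prime_two⟩
  obtain ⟨⟨g, hg⟩, hord⟩ := exists_prime_orderOf_dvd_card' 2
    (even_iff_two_dvd.1 (Nat.not_odd_iff_even.1 hodd))
  rw [Subgroup.orderOf_mk] at hord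
  obtain ⟨h2, h1⟩ := orderOf_eq_prime_iff.1 hord
  have hinv : Inv P g :=
    ⟨fun p => by rw [← mul_smul, ← pow_two, h2, one_smul], fun ht => h1 (eq_one_of_triv ht)⟩
  obtain ⟨hax, c, hca, hc⟩ := hg
  exact hinv.centre_off_axis hn hax hc hca

/-- The elations with axis `a` are transitive on the centres off `a` of the collineations with
axis `a`. -/
theorem exists_elation_map [Finite G] {a : L} {x y : P} (hxa : x ∉ a) (hya : y ∉ a)
    (hx : ∃ g : G, g ≠ 1 ∧ IsAxis P g a ∧ g • x = x)
    (hy : ∃ g : G, g ≠ 1 ∧ IsAxis P g a ∧ g • y = y) :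
    ∃ t ∈ (El P a : Subgroup G), t • x = y := by
  haveI := Fintype.ofFinite G
  set D : Subgroup G := Ax P a with hD
  set H : P → ℕ := fun z => Nat.card (MulAction.stabilizer D z) with hH
  set O : Finset P :=
    Finset.univ.filter fun z => z ∉ a ∧ ∃ g : G, g ≠ 1 ∧ IsAxis P g a ∧ g • z = z with hO
  have hxO : x ∈ O := Finset.mem_filter.2 ⟨Finset.mem_univ _, hxa, hx⟩
  have hyO : y ∈ O := Finset.mem_filter.2 ⟨Finset.mem_univ _, hya, hy⟩
  have hinv : ∀ z ∈ O, ∀ d : D, d • z ∈ O := by
    intro z hz d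
    obtain ⟨-, hza, g, hg1, hga, hgz⟩ := Finset.mem_filter.1 hz
    refine Finset.mem_filter.2 ⟨Finset.mem_univ _, smul_off_axis d.2 hza,
      (d : G) * g * (d : G)⁻¹, fun e => hg1 (conj_eq_one_iff.1 e), ?_, ?_⟩
    · have := hga.conj (d : G)
      rwa [axis_fixed d.2] at this
    · show ((d : G) * g * (d : G)⁻¹) • (d : G) • z = (d : G) • z
      rw [mul_smul, mul_smul, inv_smul_smul, hgz]
  have h2 : ∀ z ∈ O, 2 ≤ H z := by
    intro z hz
    obtain ⟨-, -, g, hg1, hga, hgz⟩ := Finset.mem_filter.1 hz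
    haveI : Nontrivial (MulAction.stabilizer D z) :=
      ⟨⟨⟨⟨g, hga⟩, hgz⟩, 1, fun e => hg1 (congrArg (fun u => ((u.1 : D) : G)) e)⟩⟩
    exact Finite.one_lt_card
  have horb : ∀ z, ∑ w ∈ Finset.univ.filter (fun w => w ∈ MulAction.orbit D z), H w = Nat.card D := by
    intro z
    have hc : ∀ w ∈ Finset.univ.filter (fun w => w ∈ MulAction.orbit D z), H w = H z := by
      intro w hw
      obtain ⟨d, rfl⟩ := (Finset.mem_filter.1 hw).2
      exact Nat.card_congr (MulAction.stabilizerEquivStabilizerOfOrbitRel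
        (MulAction.mem_orbit z d)).toEquiv
    have e := MulAction.card_orbit_mul_card_stabilizer_eq_card_group D z
    rw [← Nat.card_eq_fintype_card, ← Nat.card_eq_fintype_card, ← Nat.card_eq_fintype_card] at e
    rw [Finset.sum_congr rfl hc, Finset.sum_const, smul_eq_mul, ← Fintype.card_subtype, ← e,
      ← Nat.card_eq_fintype_card]
  have hsum : ∑ z ∈ O, H z + Nat.card (El P a : Subgroup G) = O.card + Nat.card D := by
    have h1 : ∀ d : D, (O.filter fun z => d • z = z).card + (if (d : G) ∈ El P a then 1 else 0) =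
        (if d = 1 then O.card else 0) + 1 := by
      intro d
      by_cases hd1 : d = 1
      · subst hd1
        rw [if_pos (show ((1 : D) : G) ∈ El P a from (El P a).one_mem), if_pos rfl,
          Finset.filter_true_of_mem fun z _ => one_smul D z]
      by_cases hde : (d : G) ∈ El P a
      · have h0 : (O.filter fun z => d • z = z) = ∅ := Finset.filter_false_of_mem fun z hz hdz =>
          hd1 (Subtype.ext (eq_one_of_fixed_off hde (Finset.mem_filter.1 hz).2.1 hdz))
        rw [if_pos hde, if_neg hd1, h0]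
        rfl
      · obtain ⟨c, hca, hdc, hu⟩ := exists_fixed_off d.2 hde
        rw [if_neg hde, if_neg hd1, zero_add, add_zero, Finset.card_eq_one]
        refine ⟨c, Finset.eq_singleton_iff_unique_mem.2 ⟨Finset.mem_filter.2
          ⟨Finset.mem_filter.2 ⟨Finset.mem_univ _, hca, d, fun e => hd1 (Subtype.ext e), d.2, hdc⟩,
            hdc⟩, fun w hw => ?_⟩⟩
        exact hu w (Finset.mem_filter.1 hw).2 (Finset.mem_filter.1 (Finset.mem_filter.1 hw).1).2.1
    have h3 : ∑ z ∈ O, H z = ∑ d : D, (O.filter fun z => d • z = z).card := by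
      simp only [Finset.card_filter]
      rw [Finset.sum_comm]
      refine Finset.sum_congr rfl fun z _ => ?_
      rw [← Finset.card_filter, ← Fintype.card_subtype, ← Nat.card_eq_fintype_card]
      rfl
    have h4 : Nat.card (El P a : Subgroup G) = ∑ d : D, if (d : G) ∈ El P a then 1 else 0 := by
      rw [← Finset.card_filter, ← Fintype.card_subtype, ← Nat.card_eq_fintype_card]
      exact Nat.card_congr ⟨fun t => ⟨⟨t.1, t.2.1⟩, t.2⟩, fun d => ⟨d.1.1, d.2⟩, fun _ => rfl,
        fun _ => rfl⟩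
    rw [h3, h4, ← Finset.sum_add_distrib, Finset.sum_congr rfl fun d _ => h1 d,
      Finset.sum_add_distrib, Finset.sum_ite_eq' Finset.univ (1 : D), if_pos (Finset.mem_univ _),
      Finset.sum_const, smul_eq_mul, mul_one, Finset.card_univ, Nat.card_eq_fintype_card]
  have hlow : O.card * 2 ≤ ∑ z ∈ O, H z := by
    simpa [Finset.sum_const, smul_eq_mul] using Finset.sum_le_sum h2
  have hTpos : 0 < Nat.card (El P a : Subgroup G) := Nat.card_pos
  have hone : ∀ z ∈ O, z ∈ MulAction.orbit D x := by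
    intro z hz
    by_contra hzx
    have hsub : Finset.univ.filter (fun w => w ∈ MulAction.orbit D x) ∪
        Finset.univ.filter (fun w => w ∈ MulAction.orbit D z) ⊆ O := by
      intro w hw
      rcases Finset.mem_union.1 hw with h | h <;> obtain ⟨d, rfl⟩ := (Finset.mem_filter.1 h).2
      · exact hinv x hxO d
      · exact hinv z hz d
    have hdis : Disjoint (Finset.univ.filter (fun w => w ∈ MulAction.orbit D x))
        (Finset.univ.filter (fun w => w ∈ MulAction.orbit D z)) := by
      rw [Finset.disjoint_left]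
      intro w hw hw'
      refine hzx ?_
      rw [← MulAction.orbit_eq_iff.2 (Finset.mem_filter.1 hw).2,
        MulAction.orbit_eq_iff.2 (Finset.mem_filter.1 hw').2]
      exact MulAction.mem_orbit_self z
    have := Finset.sum_le_sum_of_subset (f := H) hsub
    rw [Finset.sum_union hdis, horb, horb] at this
    omega
  have hOeq : O = Finset.univ.filter (fun w => w ∈ MulAction.orbit D x) := by
    ext w
    refine ⟨fun hw => Finset.mem_filter.2 ⟨Finset.mem_univ _, hone w hw⟩, fun hw => ?_⟩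
    obtain ⟨d, rfl⟩ := (Finset.mem_filter.1 hw).2
    exact hinv x hxO d
  have hcard : O.card = Nat.card (El P a : Subgroup G) := by
    have hh : ∑ z ∈ O, H z = Nat.card D := by rw [hOeq, horb]
    omega
  have himg : Finset.univ.image (fun t : (El P a : Subgroup G) => (t : G) • x) = O := by
    refine Finset.eq_of_subset_of_card_le (fun w hw => ?_) ?_
    · obtain ⟨t, -, rfl⟩ := Finset.mem_image.1 hw
      exact hinv x hxO ⟨t.1, t.2.1⟩
    · have hin : Function.Injective fun t : (El P a : Subgroup G) => (t : G) • x := ?_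
      · rw [Finset.card_image_of_injective _ hin, Finset.card_univ, ← Nat.card_eq_fintype_card, hcard]
      intro t s (e : (t : G) • x = (s : G) • x)
      have h5 := eq_one_of_fixed_off ((El P a).mul_mem ((El P a).inv_mem s.2) t.2) hxa
        (by rw [mul_smul, e, inv_smul_smul])
      exact Subtype.ext (inv_mul_eq_one.1 h5).symm
  obtain ⟨t, -, ht⟩ := Finset.mem_image.1 (himg.symm ▸ hyO)
  exact ⟨t.1, t.2, ht⟩

/-- The number of elations with axis `a`, counted by their centres. -/
theorem sum_card_centres [Finite G] (a : L) :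
    ∑ c ∈ Finset.univ.filter (fun c : P => c ∈ a), Nat.card (El P a ⊓ Ctr L c : Subgroup G) =
      Nat.card (El P a : Subgroup G) + ProjectivePlane.order P L := by
  haveI := Fintype.ofFinite G
  set A := Finset.univ.filter (fun c : P => c ∈ a) with hA
  have hAcard : A.card = ProjectivePlane.order P L + 1 := by
    rw [hA, ← Fintype.card_subtype, ← Nat.card_eq_fintype_card, card_on_line]
  have h1 : ∀ g : (El P a : Subgroup G), (A.filter fun c => (g : G) ∈ Ctr L c).card =
      (if g = 1 then ProjectivePlane.order P L else 0) + 1 := by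
    intro g
    by_cases hg : g = 1
    · subst hg
      have h0 : (A.filter fun c => ((1 : (El P a : Subgroup G)) : G) ∈ Ctr L c) = A :=
        Finset.filter_true_of_mem fun c _ => (Ctr L c).one_mem
      rw [if_pos rfl, h0, hAcard]
    · rw [if_neg hg, zero_add, Finset.card_eq_one]
      obtain ⟨-, c, hc, h2⟩ := g.2
      refine ⟨c, Finset.eq_singleton_iff_unique_mem.2 ⟨Finset.mem_filter.2
        ⟨Finset.mem_filter.2 ⟨Finset.mem_univ _, hc⟩, h2⟩, fun c' hc' => ?_⟩⟩
      by_contra hne
      exact hg (Subtype.ext (eq_one_of_centres (Finset.mem_filter.1 hc').2 h2 hne))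
  have h3 : ∀ c : P, Nat.card (El P a ⊓ Ctr L c : Subgroup G) =
      ∑ g : (El P a : Subgroup G), if (g : G) ∈ Ctr L c then 1 else 0 := by
    intro c
    rw [← Finset.card_filter, ← Fintype.card_subtype, ← Nat.card_eq_fintype_card]
    exact Nat.card_congr ⟨fun t => ⟨⟨t.1, t.2.1⟩, t.2.2⟩, fun d => ⟨d.1.1, d.1.2, d.2⟩, fun _ => rfl,
      fun _ => rfl⟩
  rw [Finset.sum_congr rfl fun c _ => h3 c, Finset.sum_comm]
  simp only [← Finset.card_filter]
  rw [Finset.sum_congr rfl fun g _ => h1 g, Finset.sum_add_distrib,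
    Finset.sum_ite_eq' Finset.univ (1 : (El P a : Subgroup G)), if_pos (Finset.mem_univ _),
    Finset.sum_const, smul_eq_mul, mul_one, Finset.card_univ, ← Nat.card_eq_fintype_card, add_comm]

/-- More than half transitive on the lines through a centre means transitive. -/
theorem card_El_eq_mul [Finite G] {a : L} {c : P} (hc : c ∈ a)
    (h : ProjectivePlane.order P L * Nat.card (El P a ⊓ Ctr L c : Subgroup G) <
      2 * Nat.card (El P a : Subgroup G)) :
    Nat.card (El P a : Subgroup G) =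
      ProjectivePlane.order P L * Nat.card (El P a ⊓ Ctr L c : Subgroup G) := by
  haveI := Fintype.ofFinite G
  set S := Finset.univ.filter (fun m : L => c ∈ m ∧ m ≠ a) with hS
  have hScard : S.card = ProjectivePlane.order P L := by
    have h1 : S = (Finset.univ.filter fun m : L => c ∈ m).erase a := by
      ext m; simp [hS, and_comm]
    have hmem : a ∈ Finset.univ.filter fun m : L => c ∈ m := Finset.mem_filter.2 ⟨Finset.mem_univ _, hc⟩
    rw [h1, Finset.card_erase_of_mem hmem,
      ← Fintype.card_subtype, ← Nat.card_eq_fintype_card, card_through]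
    rfl
  have hstab : ∀ m ∈ S, Nat.card (MulAction.stabilizer (El P a : Subgroup G) m) =
      Nat.card (El P a ⊓ Ctr L c : Subgroup G) := by
    intro m hm
    obtain ⟨-, hcm, hma⟩ := Finset.mem_filter.1 hm
    refine Nat.card_congr ⟨fun t => ⟨t.1.1, t.1.2, ?_⟩, fun t => ⟨⟨t.1, t.2.1⟩, t.2.2 m hcm⟩,
      fun _ => rfl, fun _ => rfl⟩
    obtain ⟨hax, c', hc', hcent⟩ := t.1.2
    by_cases hcc : c' = c
    · exact hcc ▸ hcent
    obtain ⟨q, hqm, hqc, -⟩ := exists_third m c c
    have hqa : q ∉ a := fun hh => hqc (eq_point hma hqm hh hcm hc)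
    obtain ⟨k, hqk, hck⟩ := exists_join (L := L) (show q ≠ c' from fun e => hqa (e ▸ hc'))
    have hkm : k ≠ m := fun e => hcc (eq_point hma (by rw [← e]; exact hck) hc' hcm hc)
    have htm : (t.1.1 : G) • m = m := t.2
    have hq : (t.1.1 : G) • q = q :=
      eq_point hkm (smul_mem_of_centre hcent hck hqk) (htm.subst (motive := fun u => _ ∈ u) (mem_smul_of_mem _ hqm)) hqk hqm
    rw [eq_one_of_fixed_off t.1.2 hqa hq]
    exact (Ctr L c).one_mem
  have hmap : ∀ m ∈ S, ∀ t : (El P a : Subgroup G), t • m ∈ S := by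
    intro m hm t
    obtain ⟨-, hcm, hma⟩ := Finset.mem_filter.1 hm
    refine Finset.mem_filter.2 ⟨Finset.mem_univ _, ?_, fun e => hma ?_⟩
    · have := mem_smul_of_mem (t : G) hcm
      rwa [t.2.1 c hc] at this
    · exact MulAction.injective (t : G) (e.trans (axis_fixed t.2.1).symm)
  have horb : ∀ m ∈ S, (Finset.univ.filter fun w => w ∈ MulAction.orbit (El P a : Subgroup G) m).card *
      Nat.card (El P a ⊓ Ctr L c : Subgroup G) = Nat.card (El P a : Subgroup G) := by
    intro m hm
    have e := MulAction.card_orbit_mul_card_stabilizer_eq_card_group (El P a : Subgroup G) m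
    rw [← Nat.card_eq_fintype_card, ← Nat.card_eq_fintype_card, ← Nat.card_eq_fintype_card,
      hstab m hm] at e
    rw [← e, ← Fintype.card_subtype, ← Nat.card_eq_fintype_card]
  have hsub : ∀ m ∈ S, Finset.univ.filter (fun w => w ∈ MulAction.orbit (El P a : Subgroup G) m) ⊆ S := by
    intro m hm w hw
    obtain ⟨d, rfl⟩ := (Finset.mem_filter.1 hw).2
    exact hmap m hm d
  obtain ⟨m, hm⟩ : S.Nonempty := Finset.card_pos.1 (hScard ▸ lt_trans Nat.one_pos (ProjectivePlane.one_lt_order P L))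
  suffices hall : S ⊆ Finset.univ.filter (fun w => w ∈ MulAction.orbit (El P a : Subgroup G) m) by
    rw [← horb m hm, Finset.Subset.antisymm (hsub m hm) hall, hScard]
  intro w hw
  by_contra hwm
  have hdis : Disjoint (Finset.univ.filter (fun u => u ∈ MulAction.orbit (El P a : Subgroup G) m))
      (Finset.univ.filter (fun u => u ∈ MulAction.orbit (El P a : Subgroup G) w)) := by
    rw [Finset.disjoint_left]
    intro u hu hu'
    refine hwm (Finset.mem_filter.2 ⟨Finset.mem_univ _, ?_⟩)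
    rw [← MulAction.orbit_eq_iff.2 (Finset.mem_filter.1 hu).2,
      MulAction.orbit_eq_iff.2 (Finset.mem_filter.1 hu').2]
    exact MulAction.mem_orbit_self w
  have h5 := Finset.card_le_card (Finset.union_subset (hsub m hm) (hsub w hw))
  rw [Finset.card_union_of_disjoint hdis, hScard] at h5
  have h6 := Nat.mul_le_mul_right (Nat.card (El P a ⊓ Ctr L c : Subgroup G)) h5
  rw [add_mul, horb m hm, horb w hw] at h6
  omega

/-- Elations with axis `a` and different centres commute. -/
theorem commute_of_centres {g h : G} {a : L} {c d : P} (hg : g ∈ El P a) (hh : h ∈ El P a)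
    (hc : c ∈ a) (hd : d ∈ a) (hgc : IsCentre L g c) (hhd : IsCentre L h d) (hne : c ≠ d) :
    g * h = h * g := by
  have h1 : IsCentre L (g * h * g⁻¹ * h⁻¹) d := by
    have := hhd.conj g
    rw [hg.1 d hd] at this
    exact (Ctr L d).mul_mem this ((Ctr L d).inv_mem hhd)
  have h2 : IsCentre L (g * h * g⁻¹ * h⁻¹) c := by
    have := ((Ctr L c).inv_mem hgc : IsCentre L g⁻¹ c).conj h
    rw [hh.1 c hc] at this
    have h3 : IsCentre L (g * (h * g⁻¹ * h⁻¹)) c := (Ctr L c).mul_mem hgc this
    simpa [mul_assoc] using h3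
  have h4 := eq_one_of_centres h2 h1 hne
  rwa [mul_inv_eq_one, mul_inv_eq_iff_eq_mul] at h4

/-- Two centres make the elations commutative. -/
theorem El_comm {a : L} {g₁ g₂ : G} (h₁ : g₁ ∈ El P a) (h₂ : g₂ ∈ El P a)
    (n₁ : g₁ ≠ 1) (n₂ : g₂ ≠ 1) {c₁ c₂ : P} (hc₁ : c₁ ∈ a) (hc₂ : c₂ ∈ a)
    (hg₁ : IsCentre L g₁ c₁) (hg₂ : IsCentre L g₂ c₂) (hne : c₁ ≠ c₂) :
    ∀ g ∈ (El P a : Subgroup G), ∀ h ∈ (El P a : Subgroup G), g * h = h * g := by
  have hfree : ∀ c : P, ∃ k ∈ (El P a : Subgroup G), k ≠ 1 ∧ ∃ d, d ∈ a ∧ d ≠ c ∧ IsCentre L k d := by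
    intro c
    by_cases h : c₁ = c
    · exact ⟨g₂, h₂, n₂, c₂, hc₂, fun e => hne (h.trans e.symm), hg₂⟩
    · exact ⟨g₁, h₁, n₁, c₁, hc₁, h, hg₁⟩
  intro g hg h hh
  obtain ⟨-, c, hc, hgc⟩ := id hg
  obtain ⟨-, d, hd, hhd⟩ := id hh
  by_cases hcd : c = d
  swap
  · exact commute_of_centres hg hh hc hd hgc hhd hcd
  subst hcd
  obtain ⟨k, hk, hk1, e, he, hec, hke⟩ := hfree c
  have h1 : g * k = k * g := commute_of_centres hg hk hc he hgc hke (Ne.symm hec)
  have hhk : h * k ∈ (El P a : Subgroup G) := (El P a).mul_mem hh hk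
  obtain ⟨-, f, hf, hhkf⟩ := id hhk
  have hfc : f ≠ c := by
    rintro rfl
    have h3 : IsCentre L (h⁻¹ * (h * k)) f := (Ctr L f).mul_mem ((Ctr L f).inv_mem hhd) hhkf
    rw [inv_mul_cancel_left] at h3
    exact hk1 (eq_one_of_centres h3 hke (Ne.symm hec))
  have h2 : g * (h * k) = (h * k) * g := commute_of_centres hg hhk hc hf hgc hhkf (Ne.symm hfc)
  rw [← mul_assoc, mul_assoc h k g, ← h1, ← mul_assoc] at h2
  exact mul_right_cancel h2

/-- Gleason's lemma: two centres make the elations an elementary abelian group. -/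
theorem El_isPGroup [Finite G] {a : L} {g₁ g₂ : G} (h₁ : g₁ ∈ El P a) (h₂ : g₂ ∈ El P a)
    (n₁ : g₁ ≠ 1) (n₂ : g₂ ≠ 1) {c₁ c₂ : P} (hc₁ : c₁ ∈ a) (hc₂ : c₂ ∈ a)
    (hg₁ : IsCentre L g₁ c₁) (hg₂ : IsCentre L g₂ c₂) (hne : c₁ ≠ c₂) :
    ∃ p : ℕ, p.Prime ∧ IsPGroup p (El P a : Subgroup G) := by
  have hfree : ∀ c : P, ∃ k ∈ (El P a : Subgroup G), k ≠ 1 ∧ ∃ d, d ∈ a ∧ d ≠ c ∧ IsCentre L k d := by
    intro c
    by_cases h : c₁ = c
    · exact ⟨g₂, h₂, n₂, c₂, hc₂, fun e => hne (h.trans e.symm), hg₂⟩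
    · exact ⟨g₁, h₁, n₁, c₁, hc₁, h, hg₁⟩
  have hcomm := El_comm h₁ h₂ n₁ n₂ hc₁ hc₂ hg₁ hg₂ hne
  obtain ⟨p, hp, hpd⟩ := Nat.exists_prime_and_dvd (show Nat.card (El P a : Subgroup G) ≠ 1 from by
    rw [ne_eq, Subgroup.card_eq_one]; exact fun e => n₁ (Subgroup.mem_bot.1 (e ▸ h₁)))
  haveI := Fact.mk hp
  obtain ⟨⟨g, hg⟩, hord⟩ := exists_prime_orderOf_dvd_card' p hpd
  rw [Subgroup.orderOf_mk] at hord
  obtain ⟨hgp, hg1⟩ := orderOf_eq_prime_iff.1 hord
  obtain ⟨-, c, hc, hgc⟩ := id hg
  have key : ∀ k ∈ (El P a : Subgroup G), ∀ d, d ∈ a → IsCentre L k d → k ≠ 1 → k ^ p = 1 →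
      ∀ h ∈ (El P a : Subgroup G), ∀ e, e ∈ a → IsCentre L h e → e ≠ d → h ^ p = 1 := by
    intro k hk d hd hkd hk1 hkp h hh e he hhe hed
    obtain ⟨-, f, hf, hf'⟩ := (El P a).mul_mem hk hh
    have hfe : f ≠ e := by
      rintro rfl
      have h3 : IsCentre L ((k * h) * h⁻¹) f := (Ctr L f).mul_mem hf' ((Ctr L f).inv_mem hhe)
      rw [mul_inv_cancel_right] at h3
      exact hk1 (eq_one_of_centres h3 hkd hed)
    have h4 : IsCentre L ((k * h) ^ p) f := (Ctr L f).pow_mem hf' p
    rw [Commute.mul_pow (hcomm k hk h hh), hkp, one_mul] at h4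
    exact eq_one_of_centres h4 ((Ctr L e).pow_mem hhe p) hfe
  refine ⟨p, hp, fun x => ⟨1, Subtype.ext ?_⟩⟩
  obtain ⟨-, e, he, hxe⟩ := x.2
  rw [Subgroup.coe_pow, pow_one, OneMemClass.coe_one]
  by_cases hec : e = c
  · obtain ⟨k, hk, hk1, d, hd, hdc, hkd⟩ := hfree c
    exact key k hk d hd hkd hk1 (key g hg c hc hgc hg1 hgp k hk d hd hkd hdc) x x.2 e he hxe
      (hec ▸ Ne.symm hdc)
  · exact key g hg c hc hgc hg1 hgp x x.2 e he hxe hec

end Elations

end CfsgLib.MetacyclicP.OstromWagner
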